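import Cfsg.Agent.Lib.Chev.Cov.UniP

/-!
The central extension `SL_n(L) → PSL_n(L)` in the characteristic of `L`: its kernel is uniquely `p`-divisible.
-/

set_option autoImplicit false
set_option linter.unusedSimpArgs false
set_option linter.unusedVariables false
set_option linter.unusedSectionVars false

open scoped MatrixGroups

namespace Cfsg.Agent.Lib.Chev

variable {L : Type*} [Field L] {n : ℕ}

/-- The kernel of the determinant. -/
abbrev slK (L : Type*) [Field L] (n : ℕ) : Subgroup (GL (Fin n) L) :=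
  (Matrix.GeneralLinearGroup.det : GL (Fin n) L →* Lˣ).ker

/-- The map to the projective group. -/
noncomputable abbrev piSL (L : Type*) [Field L] (n : ℕ) : slK L n →* GL (Fin n) L ⧸ Subgroup.center (GL (Fin n) L) :=
  (QuotientGroup.mk' (Subgroup.center (GL (Fin n) L))).comp (slK L n).subtype

theorem piSL_mem {z : slK L n} (h : piSL L n z = 1) : (z : GL (Fin n) L) ∈ Subgroup.center (GL (Fin n) L) :=
  (QuotientGroup.eq_one_iff _).mp h

theorem piSL_central : (piSL L n).ker ≤ Subgroup.center (slK L n) := by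
  intro z hz
  rw [Subgroup.mem_center_iff]
  intro g
  apply Subtype.ext
  exact Subgroup.mem_center_iff.mp (piSL_mem hz) g.1

theorem piSL_scalar {z : slK L n} (h : piSL L n z = 1) :
    ∃ u : Lˣ, u ^ n = 1 ∧ (z : GL (Fin n) L) = Matrix.GeneralLinearGroup.scalar (Fin n) u := by
  have h1 := piSL_mem h
  rw [Matrix.GeneralLinearGroup.center_eq_range_scalar] at h1
  obtain ⟨u, hu⟩ := h1
  refine ⟨u, ?_, hu.symm⟩
  have h2 : Matrix.GeneralLinearGroup.det (z : GL (Fin n) L) = 1 := z.2
  rw [← hu] at h2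
  apply Units.ext
  have h3 := congrArg Units.val h2
  simp only [Matrix.GeneralLinearGroup.val_det_apply, Units.val_one] at h3
  rw [Units.val_pow_eq_pow_val, Units.val_one, ← h3]
  have h4 : ((Matrix.GeneralLinearGroup.scalar (Fin n) u : GL (Fin n) L) : Matrix (Fin n) (Fin n) L) = Matrix.scalar (Fin n) (u : L) := rfl
  rw [h4, Matrix.scalar_apply, Matrix.det_diagonal]
  simp

theorem piSL_U {p : ℕ} [Fact p.Prime] [CharP L p] (z : slK L n) (h : piSL L n z = 1) (hz : z ^ p = 1) : z = 1 := by
  obtain ⟨u, hu, e⟩ := piSL_scalar h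
  have e1 : ((z : GL (Fin n) L)) ^ p = 1 := by
    have := congrArg (fun x : slK L n => (x : GL (Fin n) L)) hz
    simpa using this
  rw [e, ← map_pow] at e1
  by_cases hn : n = 0
  · subst hn
    apply Subtype.ext
    apply Units.ext
    ext i
    exact i.elim0
  have hn0 : 0 < n := Nat.pos_of_ne_zero hn
  have e2 : ((u : L)) ^ p = 1 := by
    have h3 := congrArg (fun g : GL (Fin n) L => (g : Matrix (Fin n) (Fin n) L) ⟨0, hn0⟩ ⟨0, hn0⟩) e1
    have h4 : ((Matrix.GeneralLinearGroup.scalar (Fin n) (u ^ p) : GL (Fin n) L) : Matrix (Fin n) (Fin n) L) = Matrix.scalar (Fin n) ((u ^ p : Lˣ) : L) := rfl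
    simp only [h4, Matrix.scalar_apply, Matrix.diagonal_apply_eq, Units.val_pow_eq_pow_val, Units.val_one, Matrix.one_apply_eq] at h3
    exact h3
  have e3 : ((u : L) - 1) ^ p = 0 := by
    rw [sub_pow_char, e2, one_pow, sub_self]
  have e4 : (u : L) = 1 := by
    have := pow_eq_zero_iff (n := p) (Fact.out : p.Prime).ne_zero |>.mp e3
    exact sub_eq_zero.mp this
  have e5 : u = 1 := Units.ext e4
  apply Subtype.ext
  rw [e, e5, map_one]
  rfl

theorem piSL_D {p : ℕ} [Fact p.Prime] [CharP L p] (z : slK L n) (h : piSL L n z = 1) :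
    ∃ w, piSL L n w = 1 ∧ w ^ p = z := by
  by_cases hn : n = 0
  · subst hn
    refine ⟨z, h, ?_⟩
    apply Subtype.ext
    apply Units.ext
    ext i
    exact i.elim0
  have hn0 : 0 < n := Nat.pos_of_ne_zero hn
  classical
  set Z := (piSL L n).ker with hZ
  have hfin : Finite Z := by
    let f : Z → (Polynomial.nthRootsFinset n (1 : L)) := fun z => ⟨((z.1 : GL (Fin n) L) : Matrix (Fin n) (Fin n) L) ⟨0, hn0⟩ ⟨0, hn0⟩, by
      obtain ⟨u, hu, e⟩ := piSL_scalar (MonoidHom.mem_ker.mp z.2)
      rw [Polynomial.mem_nthRootsFinset hn0, e]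
      have e2 := congrArg Units.val hu
      simp only [Units.val_pow_eq_pow_val, Units.val_one] at e2
      have h4 : ((Matrix.GeneralLinearGroup.scalar (Fin n) u : GL (Fin n) L) : Matrix (Fin n) (Fin n) L) = Matrix.scalar (Fin n) (u : L) := rfl
      rw [h4, Matrix.scalar_apply, Matrix.diagonal_apply_eq]
      exact e2⟩
    apply Finite.of_injective f
    intro a b hab
    obtain ⟨u, hu, e⟩ := piSL_scalar (MonoidHom.mem_ker.mp a.2)
    obtain ⟨v, hv, e'⟩ := piSL_scalar (MonoidHom.mem_ker.mp b.2)
    have h3 := congrArg Subtype.val hab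
    simp only [f] at h3
    rw [e, e'] at h3
    have h4 : (u : L) = v := by
      have h6 : ((Matrix.GeneralLinearGroup.scalar (Fin n) u : GL (Fin n) L) : Matrix (Fin n) (Fin n) L) = Matrix.scalar (Fin n) (u : L) := rfl
      have h7 : ((Matrix.GeneralLinearGroup.scalar (Fin n) v : GL (Fin n) L) : Matrix (Fin n) (Fin n) L) = Matrix.scalar (Fin n) (v : L) := rfl
      rw [h6, h7, Matrix.scalar_apply, Matrix.scalar_apply, Matrix.diagonal_apply_eq, Matrix.diagonal_apply_eq] at h3
      exact h3
    have h5 : u = v := Units.ext h4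
    apply Subtype.ext
    apply Subtype.ext
    rw [e, e', h5]
  let f : Z → Z := fun w => w ^ p
  have hinj : Function.Injective f := by
    intro a b hab
    have h3 : (a : slK L n) ^ p = (b : slK L n) ^ p := by
      have := congrArg Subtype.val hab
      simpa [f] using this
    have hcomm : Commute (a : slK L n) (b : slK L n)⁻¹ := by
      have := Subgroup.mem_center_iff.mp (piSL_central a.2) (b : slK L n)⁻¹
      exact this.symm
    have h4 : ((a : slK L n) * (b : slK L n)⁻¹) ^ p = 1 := by
      rw [hcomm.mul_pow, inv_pow, h3, mul_inv_cancel]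
    have h5 : piSL L n ((a : slK L n) * (b : slK L n)⁻¹) = 1 := by
      rw [map_mul, map_inv, MonoidHom.mem_ker.mp a.2, MonoidHom.mem_ker.mp b.2]
      simp
    have h6 := piSL_U (p := p) _ h5 h4
    apply Subtype.ext
    exact mul_inv_eq_one.mp h6
  have hsurj : Function.Surjective f := Finite.injective_iff_surjective.mp hinj
  obtain ⟨w, hw⟩ := hsurj ⟨z, MonoidHom.mem_ker.mpr h⟩
  refine ⟨w.1, MonoidHom.mem_ker.mp w.2, ?_⟩
  have := congrArg Subtype.val hw
  simpa [f] using this

end Cfsg.Agent.Lib.Chev
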