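import Cfsg.Agent.Lib.Chev.Cov.Stein5
import Cfsg.Agent.Lib.CT.Sch3
import Cfsg.Agent.Lib.Chev.SL2Root

/-!
Over a finite field the relations `h(a) h(b) = h(ab)` follow from the other Steinberg relations.
-/

set_option autoImplicit false
set_option linter.unusedSimpArgs false
set_option linter.unusedVariables false
set_option linter.unusedSectionVars false

namespace Cfsg.Agent.Lib.CT

section Rank1b

variable {K : Type*} [Field K] {Γ : Type*} [Group Γ] {x y : K → Γ}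

namespace Rk1

variable (R : Rk1 x y)
include R

theorem hR_one : hR x y 1 = 1 := by
  unfold hR
  rw [← R.w_inv 1]
  simp

theorem hh_w {e : K} (he : e ≠ 0) (t : K) : hR x y e * wR x y t * (hR x y e)⁻¹ = wR x y (e ^ 2 * t) := by
  have e1 : hR x y e * wR x y t * (hR x y e)⁻¹ =
      (hR x y e * x t * (hR x y e)⁻¹) * (hR x y e * y (-t⁻¹) * (hR x y e)⁻¹) * (hR x y e * x t * (hR x y e)⁻¹) := by
    conv_lhs => rw [wR.eq_def x y t]
    group
  rw [e1, R.H1 e _ he, R.H2 e _ he, wR]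
  congr 3
  rw [mul_inv, inv_pow]
  ring

theorem hh_h {e : K} (he : e ≠ 0) (t : K) :
    hR x y e * hR x y t * (hR x y e)⁻¹ = hR x y (e ^ 2 * t) * (hR x y (e ^ 2))⁻¹ := by
  have e1 : hR x y e * hR x y t * (hR x y e)⁻¹ =
      (hR x y e * wR x y t * (hR x y e)⁻¹) * (hR x y e * wR x y (-1) * (hR x y e)⁻¹) := by
    conv_lhs => rw [hR.eq_def x y t]
    group
  rw [e1, R.hh_w he, R.hh_w he, mul_neg, mul_one, ← R.w_inv, R.w_h _, R.w_h (e ^ 2)]
  group

theorem h_comm_units [Finite K] (hc : ∀ (a b : Kˣ) (z : Γ), cU x y a b * z = z * cU x y a b) (a b : Kˣ) :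
    hR x y a * hR x y b = hR x y b * hR x y a := by
  obtain ⟨g, hg⟩ := IsCyclic.exists_generator (α := Kˣ)
  have hgp : ∀ a : Kˣ, ∃ i : ℕ, g ^ i = a := by
    intro a
    exact (mem_powers_iff_mem_zpowers (x := g) (y := a)).mpr (hg a)
  have key : ∀ i : ℕ, ∃ z : Γ, (∀ w, z * w = w * z) ∧ hR x y ((g ^ i : Kˣ) : K) = hR x y g ^ i * z := by
    intro i
    induction i with
    | zero =>
      refine ⟨1, by simp, ?_⟩
      simp [R.hR_one]
    | succ i ih =>
      obtain ⟨z, hz, e⟩ := ih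
      refine ⟨z * (cU x y (g ^ i) g)⁻¹, ?_, ?_⟩
      · intro w
        have h2 := central_inv (hc (g ^ i) g) w
        calc z * (cU x y (g ^ i) g)⁻¹ * w = z * ((cU x y (g ^ i) g)⁻¹ * w) := by group
          _ = z * (w * (cU x y (g ^ i) g)⁻¹) := by rw [h2]
          _ = (z * w) * (cU x y (g ^ i) g)⁻¹ := by group
          _ = _ := by rw [hz]; group
      · have e2 : hR x y ((g ^ (i + 1) : Kˣ) : K) = (cU x y (g ^ i) g)⁻¹ * (hR x y ((g ^ i : Kˣ) : K) * hR x y g) := by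
          unfold cU
          rw [pow_succ]
          group
        rw [e2, e, central_inv (hc (g ^ i) g), pow_succ]
        have e3 : hR x y g ^ i * z * hR x y g = hR x y g ^ i * hR x y g * z := by
          rw [mul_assoc, hz, mul_assoc]
        rw [e3]
        group
  obtain ⟨i, rfl⟩ := hgp a
  obtain ⟨j, rfl⟩ := hgp b
  obtain ⟨z, hz, e⟩ := key i
  obtain ⟨z', hz', e'⟩ := key j
  rw [e, e']
  have e3 : ∀ (A B : Γ), A * z * (B * z') = (A * B) * (z * z') := by
    intro A B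
    rw [mul_assoc A z, ← mul_assoc z B z', hz, mul_assoc B z z', mul_assoc A B]
  have e4 : hR x y g ^ i * hR x y g ^ j = hR x y g ^ j * hR x y g ^ i := by
    rw [← pow_add, ← pow_add, add_comm]
  have e5 : ∀ (A B : Γ), A * z' * (B * z) = (A * B) * (z' * z) := by
    intro A B
    rw [mul_assoc A z', ← mul_assoc z' B z, hz', mul_assoc B z' z, mul_assoc A B]
  rw [e3, e5, e4]
  congr 1
  rw [hz]

theorem h_sq_units [Finite K] (hc : ∀ (a b : Kˣ) (z : Γ), cU x y a b * z = z * cU x y a b) (e v : Kˣ) :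
    hR x y ((e * e : Kˣ) : K) * hR x y v = hR x y ((e * e * v : Kˣ) : K) := by
  have h1 := R.hh_h e.ne_zero (v : K)
  rw [R.h_comm_units hc e v] at h1
  have h2 : hR x y v = hR x y ((e : K) ^ 2 * v) * (hR x y ((e : K) ^ 2))⁻¹ := by
    rw [← h1]
    group
  have e1 : ((e * e : Kˣ) : K) = (e : K) ^ 2 := by
    push_cast
    ring
  have e2 : ((e * e * v : Kˣ) : K) = (e : K) ^ 2 * v := by
    push_cast
    ring
  have h3 := R.h_comm_units hc (e * e) v
  rw [h3, e1, e2, h2]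
  group

/-- The relation `h(a) h(b) = h(ab)` in a rank one group over a finite field, using only the centrality of the symbol. -/
theorem h_mul_of_central [Finite K] (hc : ∀ (a b : Kˣ) (z : Γ), cU x y a b * z = z * cU x y a b) {a b : K}
    (ha : a ≠ 0) (hb : b ≠ 0) : hR x y a * hR x y b = hR x y (a * b) := by
  set A : Kˣ := Units.mk0 a ha with hA
  set B : Kˣ := Units.mk0 b hb with hB
  have eA : (A : K) = a := rfl
  have eB : (B : K) = b := rfl
  have eAB : ((A * B : Kˣ) : K) = a * b := by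
    simp [hA, hB]
  rw [← eAB, ← eA, ← eB]
  have hsq := R.h_sq_units hc
  have hcm := R.h_comm_units hc
  clear_value A B
  by_cases hAs : IsSquare A
  · obtain ⟨e, rfl⟩ := hAs
    exact hsq e B
  by_cases hBs : IsSquare B
  · obtain ⟨e, rfl⟩ := hBs
    rw [hcm, hsq e A, mul_comm A]
  obtain ⟨a₀, b₀, hab, ha₀, hb₀⟩ := exists_nonsq hAs
  obtain ⟨g, hg⟩ := IsCyclic.exists_generator (α := Kˣ)
  have hgp : ∀ a : Kˣ, ∃ i : ℕ, g ^ i = a := by
    intro a
    exact (mem_powers_iff_mem_zpowers (x := g) (y := a)).mpr (hg a)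
  have hodd : ∀ s : Kˣ, ¬ IsSquare s → ∃ i : ℕ, Odd i ∧ g ^ i = s := by
    intro s hs
    obtain ⟨i, rfl⟩ := hgp s
    refine ⟨i, ?_, rfl⟩
    rcases Nat.even_or_odd i with h | h
    · exfalso
      apply hs
      obtain ⟨m, rfl⟩ := h
      exact ⟨g ^ m, pow_add _ _ _⟩
    · exact h
  have hpar : ∀ s t : Kˣ, ¬ IsSquare s → ¬ IsSquare t → IsSquare (s * t) := by
    intro s t hs ht
    obtain ⟨i, hi, rfl⟩ := hodd s hs
    obtain ⟨j, hj, rfl⟩ := hodd t ht
    obtain ⟨m, hm⟩ := hi.add_odd hj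
    refine ⟨g ^ m, ?_⟩
    rw [← pow_add, hm, pow_add]
  have hinvs : ∀ s : Kˣ, ¬ IsSquare s → ¬ IsSquare s⁻¹ := by
    intro s hs h
    apply hs
    rw [← inv_inv s]
    exact h.inv
  obtain ⟨e₁, he₁⟩ := hpar A a₀⁻¹ hAs (hinvs _ ha₀)
  obtain ⟨e₂, he₂⟩ := hpar B b₀ hBs hb₀
  have eA' : A = e₁ * e₁ * a₀ := by
    rw [← he₁]
    group
  have eB' : B = e₂ * e₂ * b₀⁻¹ := by
    rw [← he₂]
    group
  have hst : hR x y (a₀ : K) * hR x y ((b₀⁻¹ : Kˣ) : K) = hR x y ((a₀ * b₀⁻¹ : Kˣ) : K) := by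
    have := R.h_st a₀.ne_zero b₀.ne_zero hab
    rw [Units.val_mul, Units.val_inv_eq_inv_val, ← div_eq_mul_inv, this]
  have e1 : hR x y (A : K) * hR x y (B : K) =
      (hR x y ((e₁ * e₁ : Kˣ) : K) * hR x y ((e₂ * e₂ : Kˣ) : K)) * (hR x y (a₀ : K) * hR x y ((b₀⁻¹ : Kˣ) : K)) := by
    rw [eA', eB', ← hsq e₁ a₀, ← hsq e₂ b₀⁻¹]
    have := hcm a₀ (e₂ * e₂)
    calc hR x y ((e₁ * e₁ : Kˣ) : K) * hR x y (a₀ : K) * (hR x y ((e₂ * e₂ : Kˣ) : K) * hR x y ((b₀⁻¹ : Kˣ) : K))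
        = hR x y ((e₁ * e₁ : Kˣ) : K) * (hR x y (a₀ : K) * hR x y ((e₂ * e₂ : Kˣ) : K)) * hR x y ((b₀⁻¹ : Kˣ) : K) := by group
      _ = _ := by rw [this]; group
  have e2 : hR x y ((e₁ * e₁ : Kˣ) : K) * hR x y ((e₂ * e₂ : Kˣ) : K) = hR x y (((e₁ * e₂) * (e₁ * e₂) : Kˣ) : K) := by
    rw [hsq e₁ (e₂ * e₂)]
    congr 2
    rw [mul_mul_mul_comm]
  rw [e1, e2, hst, hsq]
  congr 2
  rw [eA', eB']
  simp only [mul_assoc, mul_comm, mul_left_comm]

end Rk1

end Rank1b

end Cfsg.Agent.Lib.CT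

namespace Cfsg.Agent.Lib.Chev

open Cfsg Cfsg.Lie Cfsg.Agent.Lib.CT
open Good2 (NN)

variable {D : ChevalleyDatum} {K : Type*} [Field K]

theorem wR_scGen (r : ℕ) (t : K) : wR (D.scGen K r) (D.scGen K (D.neg r)) t = nBC D K r t := (nB_eqC r t).symm

theorem hR_scGen (r : ℕ) (t : K) : hR (D.scGen K r) (D.scGen K (D.neg r)) t = hBC D K r t := by
  rw [hB_eqC, hR, wR_scGen, wR_scGen]

/-- The conjugates of fundamental rank one groups. -/
def ConjC (D : ChevalleyDatum) (K : Type*) [Field K] (r : ℕ) : Prop :=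
  ∃ i, i < D.rank ∧ ∃ (y : D.SteinbergCover K) (ε : K), (ε = 1 ∨ ε = -1) ∧
    (∀ u, y * D.scGen K (D.simple i) u * y⁻¹ = D.scGen K r (ε * u)) ∧
    ∀ u, y * D.scGen K (D.neg (D.simple i)) u * y⁻¹ = D.scGen K (D.neg r) (ε * u)

namespace Good5

variable (G : Good5 D)
include G

theorem chi_selfC {r : ℕ} (hr : r < D.nroots) (t : K) : chiP D r t r = t ^ 2 := by
  unfold chiP
  rw [G.toGood2.pairing_self hr]
  norm_cast

theorem chi_self_negC {r : ℕ} (hr : r < D.nroots) (t : K) : chiP D r t (D.neg r) = t⁻¹ ^ 2 := by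
  unfold chiP
  rw [G.pairing_neg _ _ hr, G.toGood2.pairing_self hr, inv_pow, zpow_neg]
  norm_cast

theorem rk1C {i : ℕ} (hi : i < D.rank) : Rk1 (D.scGen K (D.simple i)) (D.scGen K (D.neg (D.simple i))) := by
  have hp := G.simple_lt hi
  have hn := G.neg_lt hp
  have hS := G.S_simple hi
  refine ⟨stGen_R1C hp, stGen_R1C hn, Good2.stGen_zeroC hp, Good2.stGen_zeroC hn, ?_, ?_, ?_, ?_⟩
  · intro t u ht
    rw [hR_scGen, G.hB_conjC hi ht hp u, G.chi_selfC hp]
  · intro t u ht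
    rw [hR_scGen, G.hB_conjC hi ht hn u, G.chi_self_negC hp]
  · intro u
    rw [wR_scGen, G.nB_conjC hi hp u, G.W_simple hi, hS]
    congr 1
    push_cast
    ring
  · intro u
    rw [wR_scGen, G.nB_conjC hi hn u, G.W_neg hi hp, G.W_simple hi, G.neg_neg hp, G.S_neg hi hp, hS]
    congr 1
    push_cast
    ring

theorem theta_hB_mulC {r : ℕ} (hr : r < D.nroots) {a b : K} (ha : a ≠ 0) (hb : b ≠ 0) :
    G.thetaGC (hBC D K r a * hBC D K r b * (hBC D K r (a * b))⁻¹) = 1 := by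
  rw [map_mul, map_mul, map_inv, mul_inv_eq_one]
  apply Units.ext
  rw [Units.val_mul, G.theta_hBC, G.theta_hBC, G.theta_hBC, G.h_eq hr ha, G.h_eq hr hb, G.h_eq hr (mul_ne_zero ha hb),
    G.Dg_mul r ha hb]

theorem cU_centralC (M : CoxeterMatrix (Fin D.rank)) (hM : ∀ i j : Fin D.rank, G.cm i j = M i j) {r : ℕ}
    (hr : r < D.nroots) (a b : Kˣ) (z : D.SteinbergCover K) :
    cU (D.scGen K r) (D.scGen K (D.neg r)) a b * z = z * cU (D.scGen K r) (D.scGen K (D.neg r)) a b := by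
  have e : cU (D.scGen K r) (D.scGen K (D.neg r)) a b = hBC D K r a * hBC D K r b * (hBC D K r ((a : K) * b))⁻¹ := by
    unfold cU
    rw [hR_scGen, hR_scGen, hR_scGen, Units.val_mul]
  rw [e]
  have h1 := G.theta_hB_mulC hr a.ne_zero b.ne_zero
  have h2 := G.central_of_kerC (G.ker_le_HBC M hM h1) h1
  exact ((Subgroup.mem_center_iff.mp h2) z).symm

theorem conjC_W {k r : ℕ} (hk : k < D.rank) (hr : r < D.nroots) (hQ : ConjC D K r) : ConjC D K (G.W k r) := by
  obtain ⟨i, hi, y, ε, hε, h1, h2⟩ := hQ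
  refine ⟨i, hi, nBC D K (D.simple k) 1 * y, ((G.S k r : ℤ) : K) * ε, ?_, ?_, ?_⟩
  · rcases G.S_cases hk hr with e | e <;> rcases hε with rfl | rfl <;> simp [e]
  · intro u
    have e1 : nBC D K (D.simple k) 1 * y * D.scGen K (D.simple i) u * (nBC D K (D.simple k) 1 * y)⁻¹ =
        nBC D K (D.simple k) 1 * (y * D.scGen K (D.simple i) u * y⁻¹) * (nBC D K (D.simple k) 1)⁻¹ := by group
    rw [e1, h1, G.nB_conjC hk hr, mul_assoc]
  · intro u
    have e1 : nBC D K (D.simple k) 1 * y * D.scGen K (D.neg (D.simple i)) u * (nBC D K (D.simple k) 1 * y)⁻¹ =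
        nBC D K (D.simple k) 1 * (y * D.scGen K (D.neg (D.simple i)) u * y⁻¹) * (nBC D K (D.simple k) 1)⁻¹ := by group
    rw [e1, h2, G.nB_conjC hk (G.neg_lt hr), G.W_neg hk hr, G.S_neg hk hr, mul_assoc]

theorem conjC_neg {r : ℕ} (hr : r < D.nroots) (hQ : ConjC D K r) : ConjC D K (D.neg r) := by
  obtain ⟨i, hi, y, ε, hε, h1, h2⟩ := hQ
  have hp := G.simple_lt hi
  have hS := G.S_simple hi
  refine ⟨i, hi, y * nBC D K (D.simple i) 1, -ε, ?_, ?_, ?_⟩
  · rcases hε with rfl | rfl <;> simp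
  · intro u
    have e1 : y * nBC D K (D.simple i) 1 * D.scGen K (D.simple i) u * (y * nBC D K (D.simple i) 1)⁻¹ =
        y * (nBC D K (D.simple i) 1 * D.scGen K (D.simple i) u * (nBC D K (D.simple i) 1)⁻¹) * y⁻¹ := by group
    rw [e1, G.nB_conjC hi hp, G.W_simple hi, hS, h2]
    congr 1
    push_cast
    ring
  · intro u
    have e1 : y * nBC D K (D.simple i) 1 * D.scGen K (D.neg (D.simple i)) u * (y * nBC D K (D.simple i) 1)⁻¹ =
        y * (nBC D K (D.simple i) 1 * D.scGen K (D.neg (D.simple i)) u * (nBC D K (D.simple i) 1)⁻¹) * y⁻¹ := by group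
    rw [e1, G.nB_conjC hi (G.neg_lt hp), G.W_neg hi hp, G.W_simple hi, G.neg_neg hp, G.S_neg hi hp, hS, h1, G.neg_neg hr]
    congr 1
    push_cast
    ring

theorem conjC_all {r : ℕ} (hr : r < D.nroots) : ConjC D K r := by
  have hpos : ∀ r, r < D.nroots → NN D ≤ r → ConjC D K r := by
    refine G.pos_induct ?_ ?_
    · intro i hi
      refine ⟨i, hi, 1, 1, Or.inl rfl, ?_, ?_⟩ <;> simp
    · intro i r hi hr hN hN' hlt hP
      have := G.conjC_W (k := i) hi (G.W_lt hi hr) hP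
      rwa [G.W_W hi hr] at this
  by_cases hN : NN D ≤ r
  · exact hpos r hr hN
  · have hn := G.neg_lt hr
    have h5 : NN D ≤ D.neg r := by
      rw [G.neg_eq hr]
      have := G.n_even
      show D.nroots / 2 ≤ D.nroots - 1 - r
      have h2 : r < D.nroots / 2 := by
        have : ¬ (D.nroots / 2 ≤ r) := hN
        omega
      omega
    have := G.conjC_neg hn (hpos _ hn h5)
    rwa [G.neg_neg hr] at this

/-- The relation at fundamental roots. -/
theorem R3_simpleC [Finite K] (M : CoxeterMatrix (Fin D.rank)) (hM : ∀ i j : Fin D.rank, G.cm i j = M i j) {i : ℕ}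
    (hi : i < D.rank) {a b : K} (ha : a ≠ 0) (hb : b ≠ 0) :
    hBC D K (D.simple i) a * hBC D K (D.simple i) b = hBC D K (D.simple i) (a * b) := by
  have := (G.rk1C (K := K) hi).h_mul_of_central (G.cU_centralC M hM (G.simple_lt hi)) ha hb
  rwa [hR_scGen, hR_scGen, hR_scGen] at this

/-- Over a finite field the relations (R3) hold in the group presented by (R1), (R2). -/
theorem R3_allC [Finite K] (M : CoxeterMatrix (Fin D.rank)) (hM : ∀ i j : Fin D.rank, G.cm i j = M i j) {r : ℕ}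
    (hr : r < D.nroots) {a b : K} (ha : a ≠ 0) (hb : b ≠ 0) :
    hBC D K r a * hBC D K r b = hBC D K r (a * b) := by
  have hn := G.neg_lt hr
  obtain ⟨i, hi, y, ε, hε, h1, h2⟩ := G.conjC_all (K := K) hr
  have hR3 := fun a b (ha : a ≠ 0) (hb : b ≠ 0) => G.R3_simpleC (K := K) M hM hi ha hb
  have e1 : ∀ t : K, y * nBC D K (D.simple i) t * y⁻¹ = nBC D K r (ε * t) := by
    intro t
    rw [nB_eqC, nB_eqC]
    have e2 : y * (D.scGen K (D.simple i) t * D.scGen K (D.neg (D.simple i)) (-t⁻¹) * D.scGen K (D.simple i) t) * y⁻¹ =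
        (y * D.scGen K (D.simple i) t * y⁻¹) * (y * D.scGen K (D.neg (D.simple i)) (-t⁻¹) * y⁻¹) *
          (y * D.scGen K (D.simple i) t * y⁻¹) := by group
    rw [e2, h1, h2]
    congr 3
    rcases hε with rfl | rfl <;> simp
  set f : K → D.SteinbergCover K := fun t => y * hBC D K (D.simple i) t * y⁻¹ with hf
  have hfm : ∀ a b : K, a ≠ 0 → b ≠ 0 → f a * f b = f (a * b) := by
    intro a b ha hb
    simp only [hf]
    rw [← hR3 a b ha hb]
    group
  have hfv : ∀ t : K, f t = nBC D K r (ε * t) * nBC D K r (ε * -1) := by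
    intro t
    simp only [hf]
    rw [hB_eqC, ← e1, ← e1]
    group
  have hfh : ∀ t : K, t ≠ 0 → hBC D K r t = f t := by
    intro t ht
    rcases hε with rfl | rfl
    · rw [hfv, hB_eqC]
      simp
    · have h3 : f (-t) * (f (-1))⁻¹ = hBC D K r t := by
        rw [hfv, hfv, hB_eqC]
        simp only [neg_mul, one_mul, neg_neg, mul_neg, mul_one]
        rw [_root_.mul_inv_rev, ← nB_neg_oneC hr hn, nB_neg_oneC hr hn]
        group
      have h4 := hfm t (-1) ht (by simp)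
      have h5 : t * -1 = -t := by ring
      rw [h5] at h4
      rw [← h3, ← h4]
      group
  rw [hfh a ha, hfh b hb, hfh _ (mul_ne_zero ha hb), hfm a b ha hb]

end Good5

end Cfsg.Agent.Lib.Chev
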