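import Cfsg.Agent.Lib.Chev.Cov.Uni7
import Cfsg.Agent.Lib.CT.Sch8

/-!
Stem extensions of the group of Steinberg's presentation split.
-/

set_option autoImplicit false
set_option linter.unusedSimpArgs false
set_option linter.unusedVariables false
set_option linter.unusedSectionVars false

namespace Cfsg.Agent.Lib.Chev

open Cfsg Cfsg.Lie Cfsg.Agent.Lib.CT

section Gen

variable {Γ A B : Type*} [Group Γ] [Group A] [Group B]

/-- A stem extension of a perfect group is perfect. -/
theorem stem_perfect {σ : Γ →* A} (hσ : IsStemExtension σ) (hA : commutator A = ⊤) : commutator Γ = ⊤ := by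
  rw [eq_top_iff]
  intro g _
  have h1 : commutator A ≤ (commutator Γ).map σ := by
    rw [commutator_def, commutator_def, Subgroup.map_commutator, Subgroup.map_top_of_surjective σ hσ.1]
  have h2 : σ g ∈ (commutator Γ).map σ := h1 (by rw [hA]; exact Subgroup.mem_top _)
  obtain ⟨c, hc, hcg⟩ := h2
  have h3 : c⁻¹ * g ∈ σ.ker := by
    rw [MonoidHom.mem_ker, map_mul, map_inv, hcg, inv_mul_cancel]
  have h4 := hσ.2.2 h3
  have h5 : g = c * (c⁻¹ * g) := by group
  rw [h5]
  exact Subgroup.mul_mem _ hc h4

/-- The composition of a stem extension with a central extension of a perfect group. -/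
theorem stem_comp {σ : Γ →* A} (hσ : IsStemExtension σ) (hA : commutator A = ⊤) {θ : A →* B} (hθ : Function.Surjective θ)
    (hk : θ.ker ≤ Subgroup.center A) : IsStemExtension (θ.comp σ) := by
  have hP := stem_perfect hσ hA
  refine ⟨hθ.comp hσ.1, ?_, ?_⟩
  · intro x hx
    have h1 : σ x ∈ Subgroup.center A := hk hx
    have hz : ∀ h : Γ, ∀ w, cc x h * w = w * cc x h := by
      intro h w
      have h2 : cc x h ∈ σ.ker := by
        rw [MonoidHom.mem_ker, map_cc]
        unfold cc
        have := Subgroup.mem_center_iff.mp h1 (σ h)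
        rw [← this]
        group
      exact (Subgroup.mem_center_iff.mp (hσ.2.1 h2) w).symm
    have h3 : commutator Γ ≤ Subgroup.centralizer {x} := by
      rw [commutator_def, Subgroup.commutator_le]
      intro a _ b _
      rw [Subgroup.mem_centralizer_singleton_iff]
      have e1 : x * cc a b * x⁻¹ = cc (x * a * x⁻¹) (x * b * x⁻¹) := by
        unfold cc
        group
      have e2 : x * a * x⁻¹ = cc x a * a := by
        unfold cc
        group
      have e3 : x * b * x⁻¹ = cc x b * b := by
        unfold cc
        group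
      have e4 : x * cc a b * x⁻¹ = cc a b := by
        rw [e1, e2, e3, cc_central_left (hz a), cc_central_right (hz b)]
      have e5 : cc a b * x = x * cc a b := by
        calc cc a b * x = (x * cc a b * x⁻¹) * x := by rw [e4]
          _ = _ := by group
      exact e5
    rw [hP] at h3
    rw [Subgroup.mem_center_iff]
    intro g
    have := h3 (Subgroup.mem_top g)
    rw [Subgroup.mem_centralizer_singleton_iff] at this
    exact this
  · rw [hP]
    exact le_top

end Gen

variable {D : ChevalleyDatum} {K : Type*} [Field K] {Γ : Type*} [Group Γ]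

/-- Stem extensions of the group of Steinberg's presentation split. -/
theorem st_split [Finite K] (G : Good5 D) (S : SchData G) (C : CTData G) (F : SchF G C) (M : CoxeterMatrix (Fin D.rank))
    (hM : ∀ i j : Fin D.rank, G.cm i j = M i j) (σ : Γ →* D.SteinbergGroup K) (hσ : IsStemExtension σ) :
    ∃ φ : D.SteinbergGroup K →* Γ, σ.comp φ = MonoidHom.id _ := by
  have hA := SchT.st_perfect G (K := K) S M hM
  have hk := (G.thetaD_ker (K := K) M hM).le
  have hs := stem_comp hσ hA G.thetaD_surj hk
  obtain ⟨φ, h1, -⟩ := stem_phi G S C F _ hs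
  refine ⟨φ, ?_⟩
  have hψ : ∀ y, (G.thetaD K) (σ (φ y)) = (G.thetaD K) y := by
    intro y
    apply Subtype.ext
    exact h1 y
  have hz : ∀ y, (σ (φ y)) * y⁻¹ ∈ Subgroup.center (D.SteinbergGroup K) := by
    intro y
    apply hk
    rw [MonoidHom.mem_ker, map_mul, map_inv, hψ, mul_inv_cancel]
  have hz' : ∀ y, ∀ w, (σ (φ y)) * y⁻¹ * w = w * ((σ (φ y)) * y⁻¹) :=
    fun y w => (Subgroup.mem_center_iff.mp (hz y) w).symm
  have hcc : ∀ a b, cc (σ (φ a)) (σ (φ b)) = cc a b := by
    intro a b
    have ea : σ (φ a) = ((σ (φ a)) * a⁻¹) * a := by group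
    have eb : σ (φ b) = ((σ (φ b)) * b⁻¹) * b := by group
    rw [ea, eb, cc_central_left (hz' a), cc_central_right (hz' b)]
  have hle : commutator (D.SteinbergGroup K) ≤ MonoidHom.eqLocus (σ.comp φ) (MonoidHom.id _) := by
    rw [commutator_def, Subgroup.commutator_le]
    intro a _ b _
    show σ (φ (cc a b)) = cc a b
    rw [map_cc, map_cc]
    exact hcc a b
  rw [hA] at hle
  ext x
  exact hle (Subgroup.mem_top _)

end Cfsg.Agent.Lib.Chev
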