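import Cfsg.Prelude.Def_SteinbergCover
import Cfsg.Agent.Lib.Chev.WeylMain

/-!
Steinberg's presentation: basic relations, the homomorphism onto the Chevalley group,
normal forms in the positive part.
-/

set_option autoImplicit false
set_option linter.unusedSimpArgs false
set_option linter.unusedVariables false
set_option linter.unusedSectionVars false

namespace Cfsg.Agent.Lib.Chev

open Cfsg Cfsg.Lie

variable {D : ChevalleyDatum} {K : Type*} [Field K]

/-- The element of the presented group attached to a word. -/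
noncomputable def wBC (D : ChevalleyDatum) (K : Type*) [Field K] (w : List (ℕ × K)) : D.SteinbergCover K :=
  (w.map fun p => D.scGen K p.1 p.2).prod

theorem mk_stXC (r : ℕ) (t : K) : PresentedGroup.mk (D.steinbergRelsAB K) (D.stX r t) = D.scGen K r t := rfl

theorem mk_stWordC (w : List (ℕ × K)) : PresentedGroup.mk (D.steinbergRelsAB K) (D.stWord w) = wBC D K w := by
  induction w with
  | nil => simp [ChevalleyDatum.stWord, wBC]
  | cons a w ih =>
    simp only [ChevalleyDatum.stWord, wBC, List.map_cons, List.prod_cons, map_mul] at ih ⊢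
    rw [ih]
    rfl

theorem wB_nilC : wBC D K [] = 1 := rfl
theorem wB_consC (a : ℕ × K) (w : List (ℕ × K)) : wBC D K (a :: w) = D.scGen K a.1 a.2 * wBC D K w := by
  simp [wBC]
theorem wB_appendC (w w' : List (ℕ × K)) : wBC D K (w ++ w') = wBC D K w * wBC D K w' := by
  simp [wBC, List.prod_append]

theorem stGen_R1C {r : ℕ} (hr : r < D.nroots) (t u : K) :
    D.scGen K r t * D.scGen K r u = D.scGen K r (t + u) := by
  have h : D.stX r t * D.stX r u * (D.stX r (t + u))⁻¹ ∈ D.steinbergRelsAB K :=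
    Or.inl ⟨r, t, u, hr, rfl⟩
  have h1 := PresentedGroup.one_of_mem h
  rw [map_mul, map_mul, map_inv, mul_inv_eq_one] at h1
  exact h1

theorem stGen_R2C {r s : ℕ} (hr : r < D.nroots) (hs : s < D.nroots) (h1 : s ≠ r) (h2 : s ≠ D.neg r) (t u : K) :
    D.scGen K s u * D.scGen K r t = D.scGen K r t * D.scGen K s u * wBC D K (D.commWord K r s t u) := by
  have h : (D.stX s u)⁻¹ * (D.stX r t)⁻¹ * D.stX s u * D.stX r t * (D.stWord (D.commWord K r s t u))⁻¹ ∈ D.steinbergRelsAB K :=
    Or.inr ⟨r, s, t, u, hr, hs, h1, h2, rfl⟩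
  have h3 := PresentedGroup.one_of_mem h
  simp only [map_mul, map_inv, mul_inv_eq_one, mk_stWordC, mk_stXC] at h3
  rw [← h3]
  group

/-- `h̄_r(t)` in the presented group. -/
noncomputable def hBC (D : ChevalleyDatum) (K : Type*) [Field K] (r : ℕ) (t : K) : D.SteinbergCover K :=
  wBC D K (D.hWord r t)

/-- `n̄_r(t)` in the presented group. -/
noncomputable def nBC (D : ChevalleyDatum) (K : Type*) [Field K] (r : ℕ) (t : K) : D.SteinbergCover K :=
  wBC D K (D.nWord r t)

theorem nB_eqC (r : ℕ) (t : K) : nBC D K r t = D.scGen K r t * D.scGen K (D.neg r) (-t⁻¹) * D.scGen K r t := by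
  simp [nBC, ChevalleyDatum.nWord, wBC, mul_assoc]

theorem hB_eqC (r : ℕ) (t : K) : hBC D K r t = nBC D K r t * nBC D K r (-1) := by
  simp [hBC, nBC, ChevalleyDatum.hWord, wB_appendC]

namespace Good2

variable (G : Good2 D)
include G

/-- The root element in the general linear group, total in the root. -/
noncomputable def xgtC (r : ℕ) (t : K) : GL D.Idx K :=
  if hr : r < D.nroots then G.xg hr t else 1

theorem xgt_valC (r : ℕ) (t : K) : ((G.xgtC r t : GL D.Idx K) : Matrix D.Idx D.Idx K) = D.x K r t := by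
  unfold xgtC
  by_cases hr : r < D.nroots
  · rw [dif_pos hr]; rfl
  · rw [dif_neg hr]
    simp [ChevalleyDatum.x, hr]

theorem xgt_ofC {r : ℕ} (hr : r < D.nroots) (t : K) : G.xgtC r t = G.xg hr t := dif_pos hr

/-- The element of the general linear group attached to a word. -/
noncomputable def wGC (w : List (ℕ × K)) : GL D.Idx K := (w.map fun p => G.xgtC p.1 p.2).prod

theorem wG_valC (w : List (ℕ × K)) : ((G.wGC w : GL D.Idx K) : Matrix D.Idx D.Idx K) = D.wordMat K w := by
  induction w with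
  | nil => simp [wGC, ChevalleyDatum.wordMat]
  | cons a w ih =>
    simp only [wGC, ChevalleyDatum.wordMat, List.map_cons, List.prod_cons, Units.val_mul] at ih ⊢
    rw [ih, G.xgt_valC]

/-- The map on the generators. -/
noncomputable def fGC : Fin D.nroots × K → GL D.Idx K := fun p => G.xg p.1.isLt p.2

theorem lift_stXC (r : ℕ) (t : K) : FreeGroup.lift G.fGC (D.stX r t) = G.xgtC r t := by
  unfold ChevalleyDatum.stX xgtC
  by_cases hr : r < D.nroots
  · rw [dif_pos hr, dif_pos hr, FreeGroup.lift_apply_of]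
    rfl
  · rw [dif_neg hr, dif_neg hr, map_one]

theorem lift_stWordC (w : List (ℕ × K)) : FreeGroup.lift G.fGC (D.stWord w) = G.wGC w := by
  induction w with
  | nil => simp [ChevalleyDatum.stWord, wGC]
  | cons a w ih =>
    simp only [ChevalleyDatum.stWord, wGC, List.map_cons, List.prod_cons, map_mul] at ih ⊢
    rw [ih, G.lift_stXC]

theorem rels_okC : ∀ r ∈ D.steinbergRelsAB K, FreeGroup.lift G.fGC r = 1 := by
  rintro g (⟨r, t, u, hr, rfl⟩ | ⟨r, s, t, u, hr, hs, h1, h2, rfl⟩)
  · rw [map_mul, map_mul, map_inv, G.lift_stXC, G.lift_stXC, G.lift_stXC, mul_inv_eq_one, G.xgt_ofC hr, G.xgt_ofC hr,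
      G.xgt_ofC hr, G.xg_mul]
  · simp only [map_mul, map_inv, G.lift_stXC, G.lift_stWordC, mul_inv_eq_one]
    have h4 : G.xgtC s u * G.xgtC r t = G.xgtC r t * G.xgtC s u * G.wGC (D.commWord K r s t u) := by
      apply Units.ext
      simp only [Units.val_mul, G.wG_valC, G.xgt_valC]
      exact G.Phi_all (F := K) hr hs h1 h2 t u
    calc (G.xgtC s u)⁻¹ * (G.xgtC r t)⁻¹ * G.xgtC s u * G.xgtC r t
        = (G.xgtC s u)⁻¹ * (G.xgtC r t)⁻¹ * (G.xgtC s u * G.xgtC r t) := by group
      _ = _ := by rw [h4]; group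

/-- The homomorphism from the presented group to the general linear group. -/
noncomputable def thetaGC : D.SteinbergCover K →* GL D.Idx K :=
  PresentedGroup.toGroup G.rels_okC

theorem thetaG_genC (r : ℕ) (t : K) : G.thetaGC (D.scGen K r t) = G.xgtC r t := by
  have h1 : D.scGen K r t = PresentedGroup.mk (D.steinbergRelsAB K) (D.stX r t) := rfl
  rw [h1]
  show FreeGroup.lift G.fGC (D.stX r t) = _
  exact G.lift_stXC r t

theorem thetaG_wordC (w : List (ℕ × K)) : G.thetaGC (wBC D K w) = G.wGC w := by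
  induction w with
  | nil => simp [wBC, wGC]
  | cons a w ih =>
    rw [wB_consC, map_mul, ih, G.thetaG_genC]
    simp [wGC]

/-- The subgroup of the presented group generated by root elements with root in a set. -/
def rBC (D : ChevalleyDatum) (K : Type*) [Field K] (P : ℕ → Prop) : Subgroup (D.SteinbergCover K) :=
  Subgroup.closure {g | ∃ (r : ℕ) (t : K), P r ∧ r < D.nroots ∧ g = D.scGen K r t}

omit G in
theorem gen_mem_rBC {P : ℕ → Prop} {r : ℕ} (h1 : P r) (h2 : r < D.nroots) (t : K) : D.scGen K r t ∈ rBC D K P :=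
  Subgroup.subset_closure ⟨r, t, h1, h2, rfl⟩

omit G in
theorem stGen_zeroC {r : ℕ} (hr : r < D.nroots) : D.scGen K r 0 = 1 := by
  have := stGen_R1C (K := K) hr 0 0
  rw [add_zero] at this
  exact mul_eq_left.mp this

omit G in
theorem stGen_invC {r : ℕ} (hr : r < D.nroots) (t : K) : (D.scGen K r t)⁻¹ = D.scGen K r (-t) := by
  rw [inv_eq_iff_mul_eq_one, stGen_R1C hr, add_neg_cancel, stGen_zeroC hr]

omit G in
theorem rB_leC {P : ℕ → Prop} {L : Subgroup (D.SteinbergCover K)}
    (h : ∀ r (t : K), P r → r < D.nroots → D.scGen K r t ∈ L) : rBC D K P ≤ L := by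
  apply (Subgroup.closure_le _).mpr
  rintro g ⟨r, t, h1, h2, rfl⟩
  exact h r t h1 h2

omit G in
theorem rB_inductionC {P : ℕ → Prop} {Q : D.SteinbergCover K → Prop} (h1 : Q 1)
    (hm : ∀ a b, Q a → Q b → Q (a * b))
    (hg : ∀ r (t : K), P r → r < D.nroots → Q (D.scGen K r t)) :
    ∀ g, g ∈ rBC D K P → Q g := by
  intro g hgm
  refine Subgroup.closure_induction (p := fun g _ => Q g ∧ Q g⁻¹) ?_ ⟨h1, by simpa using h1⟩ ?_ ?_ hgm |>.1
  · rintro g ⟨r, t, h2, h3, rfl⟩
    rw [stGen_invC h3]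
    exact ⟨hg r t h2 h3, hg r _ h2 h3⟩
  · intro a b _ _ ha hb
    refine ⟨hm _ _ ha.1 hb.1, ?_⟩
    rw [_root_.mul_inv_rev]
    exact hm _ _ hb.2 ha.2
  · intro a _ ha
    rw [inv_inv]
    exact ⟨ha.2, ha.1⟩

omit G in
theorem rB_monoC {P Q : ℕ → Prop} (h : ∀ r, P r → Q r) : rBC D K P ≤ rBC D K Q :=
  rB_leC fun r t h1 h2 => gen_mem_rBC (h r h1) h2 t

omit G in
theorem wB_memC {P : ℕ → Prop} (w : List (ℕ × K)) (hw : ∀ a ∈ w, P a.1 ∧ a.1 < D.nroots) :
    wBC D K w ∈ rBC D K P := by
  induction w with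
  | nil => exact Subgroup.one_mem _
  | cons a w ih =>
    rw [wB_consC]
    have ha := hw a List.mem_cons_self
    exact Subgroup.mul_mem _ (gen_mem_rBC ha.1 ha.2 _) (ih fun b hb => hw b (List.mem_cons_of_mem _ hb))

/-- The commutator formula in the presented group, in terms of subgroups. -/
theorem st_commC {P : ℕ → Prop} {r s : ℕ} (hr : r < D.nroots) (hs : s < D.nroots) (h1 : s ≠ r) (h2 : s ≠ D.neg r)
    (hP : ∀ c ∈ D.commTerms r s, P c.1) (t u : K) :
    ∃ g ∈ rBC D K P, D.scGen K s u * D.scGen K r t = D.scGen K r t * D.scGen K s u * g := by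
  refine ⟨_, wB_memC (P := P) (D.commWord K r s t u) ?_, stGen_R2C hr hs h1 h2 t u⟩
  intro a ha
  simp only [ChevalleyDatum.commWord, List.mem_map] at ha
  obtain ⟨c, hc, rfl⟩ := ha
  exact ⟨hP c hc, G.commTerms_lt hr hs c hc⟩

/-- Conjugation of a tail subgroup by a root element of smaller root -/
theorem conj_mem_tBC {m r : ℕ} (hm : r < D.nroots) (hr : NN D ≤ r) (hrm : r < m) (t : K) {g : D.SteinbergCover K}
    (hg : g ∈ rBC D K (m ≤ ·)) : D.scGen K r (-t) * g * D.scGen K r t ∈ rBC D K (m ≤ ·) := by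
  have hN : NN D ≤ m := by omega
  have hle : rBC D K (m ≤ ·) ≤ (rBC D K (m ≤ ·)).comap (MulAut.conj (D.scGen K r (-t))).toMonoidHom := by
    apply rB_leC
    intro s u hsm hs
    simp only [Subgroup.mem_comap, MulEquiv.coe_toMonoidHom, MulAut.conj_apply]
    have hsr : s ≠ r := by omega
    have hspos : NN D ≤ s := by omega
    have hsn : s ≠ D.neg r := by
      intro h
      have := (G.neg_pos hm).mp hr
      omega
    obtain ⟨g', hg', e⟩ := G.st_commC (P := (m ≤ ·)) hm hs hsr hsn (by
      intro c hc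
      have h3 := G.comm_up hm hs hr hspos hsr hc
      omega) t u
    have e2 : D.scGen K r (-t) * D.scGen K s u * (D.scGen K r (-t))⁻¹ = D.scGen K s u * g' := by
      rw [stGen_invC hm, neg_neg, mul_assoc, e, ← mul_assoc, ← mul_assoc, stGen_R1C hm, neg_add_cancel, stGen_zeroC hm, one_mul]
    rw [e2]
    exact Subgroup.mul_mem _ (gen_mem_rBC hsm hs u) hg'
  have := hle hg
  simp only [Subgroup.mem_comap, MulEquiv.coe_toMonoidHom, MulAut.conj_apply] at this
  rwa [stGen_invC hm, neg_neg] at this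

/-- Decomposition of the tail subgroup. -/
theorem tB_decompC {m : ℕ} (hm : m < D.nroots) (hN : NN D ≤ m) {g : D.SteinbergCover K} (hg : g ∈ rBC D K (m ≤ ·)) :
    ∃ (t : K) (g' : D.SteinbergCover K), g' ∈ rBC D K (m + 1 ≤ ·) ∧ g = D.scGen K m t * g' := by
  refine rB_inductionC (P := (m ≤ ·))
    (Q := fun g => ∃ (t : K) (g' : D.SteinbergCover K), g' ∈ rBC D K (m + 1 ≤ ·) ∧ g = D.scGen K m t * g') ?_ ?_ ?_ g hg
  · exact ⟨0, 1, Subgroup.one_mem _, by simp [stGen_zeroC hm]⟩
  · rintro a b ⟨t, a', ha', rfl⟩ ⟨t', b', hb', rfl⟩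
    refine ⟨t + t', D.scGen K m (-t') * a' * D.scGen K m t' * b', Subgroup.mul_mem _ (G.conj_mem_tBC hm hN (by omega) t' ha') hb', ?_⟩
    rw [← stGen_R1C hm t t']
    have : D.scGen K m (t' : K) * D.scGen K m (-t') = 1 := by rw [stGen_R1C hm, add_neg_cancel, stGen_zeroC hm]
    calc D.scGen K m t * a' * (D.scGen K m t' * b')
        = D.scGen K m t * (1 * a') * (D.scGen K m t' * b') := by rw [one_mul]
      _ = D.scGen K m t * ((D.scGen K m t' * D.scGen K m (-t')) * a') * (D.scGen K m t' * b') := by rw [this]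
      _ = _ := by simp only [mul_assoc]
  · intro r t hrm hr
    by_cases h : r = m
    · subst h
      exact ⟨t, 1, Subgroup.one_mem _, by simp⟩
    · refine ⟨0, D.scGen K r t, gen_mem_rBC (by omega) hr t, ?_⟩
      rw [stGen_zeroC hm, one_mul]

/-- Every element of a tail subgroup is an ordered product. -/
theorem tB_wordC (k : ℕ) : ∀ m, m + k = D.nroots → NN D ≤ m → ∀ g : D.SteinbergCover K, g ∈ rBC D K (m ≤ ·) →
    ∃ t : ℕ → K, g = wBC D K ((List.range' m k).map fun r => (r, t r)) := by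
  induction k with
  | zero =>
    intro m hm hN g hg
    refine ⟨fun _ => 0, ?_⟩
    have : rBC D K (m ≤ ·) = ⊥ := by
      apply le_bot_iff.mp
      apply rB_leC
      intro r t h h2
      omega
    rw [this, Subgroup.mem_bot] at hg
    subst hg
    simp [wBC]
  | succ k ih =>
    intro m hm hN g hg
    have hlt : m < D.nroots := by omega
    obtain ⟨a, g', hg', rfl⟩ := G.tB_decompC hlt hN hg
    obtain ⟨t, ht⟩ := ih (m + 1) (by omega) (by omega) g' hg'
    refine ⟨Function.update t m a, ?_⟩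
    have e1 : (List.range' (m + 1) k).map (fun r => (r, Function.update t m a r)) =
        (List.range' (m + 1) k).map fun r => (r, t r) := by
      apply List.map_congr_left
      intro r hr
      have : r ≠ m := by
        have := (List.mem_range'_1.mp hr).1
        omega
      rw [Function.update_of_ne this]
    rw [List.range'_succ, List.map_cons, e1, wB_consC, ← ht]
    simp

/-- `θ` is injective on the positive part. -/
theorem theta_inj_posC {g g' : D.SteinbergCover K} (hg : g ∈ rBC D K (NN D ≤ ·)) (hg' : g' ∈ rBC D K (NN D ≤ ·))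
    (h : G.thetaGC g = G.thetaGC g') : g = g' := by
  have h0 := G.NN_add
  obtain ⟨t, rfl⟩ := G.tB_wordC (K := K) (NN D) (NN D) h0 le_rfl g hg
  obtain ⟨t', rfl⟩ := G.tB_wordC (K := K) (NN D) (NN D) h0 le_rfl g' hg'
  rw [G.thetaG_wordC, G.thetaG_wordC] at h
  have h2 := congrArg Units.val h
  rw [G.wG_valC, G.wG_valC] at h2
  have h3 := G.word_inj (NN D) (NN D) h0 le_rfl t t' h2
  congr 1
  apply List.map_congr_left
  intro r hr
  have := List.mem_range'_1.mp hr
  rw [h3 r this.1 (by omega)]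

end Good2

end Cfsg.Agent.Lib.Chev
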