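import Cfsg.Agent.Lib.Chev.Cov.Stein1
import Cfsg.Agent.Lib.Chev.Checks5

/-!
Steinberg's presentation: the involution of the presented group, rigidity of conjugation.
-/

set_option autoImplicit false
set_option linter.unusedSimpArgs false
set_option linter.unusedVariables false
set_option linter.unusedSectionVars false

namespace Cfsg.Agent.Lib.Chev

open Cfsg Cfsg.Lie
open Good2 (rBC gen_mem_rBC rB_leC rB_inductionC rB_monoC wB_memC NN)

variable {D : ChevalleyDatum} {K : Type*} [Field K]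

/-- `n̄_r(-1)` is the inverse of `n̄_r(1)`. -/
theorem nB_neg_oneC {r : ℕ} (hr : r < D.nroots) (hn : D.neg r < D.nroots) : nBC D K r (-1) = (nBC D K r 1)⁻¹ := by
  rw [nB_eqC, nB_eqC]
  simp only [inv_neg, inv_one, neg_neg, _root_.mul_inv_rev]
  rw [Good2.stGen_invC hr, Good2.stGen_invC hn, neg_neg]
  simp only [mul_assoc]

theorem hB_oneC {r : ℕ} (hr : r < D.nroots) (hn : D.neg r < D.nroots) : hBC D K r 1 = 1 := by
  rw [hB_eqC, nB_neg_oneC hr hn]
  simp

/-- `n̄(1)² = h̄(-1)⁻¹`. -/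
theorem nB_sqC {r : ℕ} (hr : r < D.nroots) (hn : D.neg r < D.nroots) :
    nBC D K r 1 * nBC D K r 1 = (hBC D K r (-1))⁻¹ := by
  rw [hB_eqC, nB_neg_oneC hr hn]
  simp

theorem of_eq_stGenC (x : Fin D.nroots × K) :
    (PresentedGroup.of x : D.SteinbergCover K) = D.scGen K x.1 x.2 := by
  show PresentedGroup.mk _ _ = PresentedGroup.mk _ _
  congr 1
  unfold ChevalleyDatum.stX
  rw [dif_pos x.1.isLt]

/-- The map of generators of the involution. -/
noncomputable def fIC (D : ChevalleyDatum) (K : Type*) [Field K] : Fin D.nroots × K → D.SteinbergCover K :=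
  fun p => D.scGen K (D.neg p.1) (-p.2)

namespace Good5

variable (G : Good5 D)
include G

theorem lift_I_stXC {r : ℕ} (hr : r < D.nroots) (t : K) :
    FreeGroup.lift (fIC D K) (D.stX r t) = D.scGen K (D.neg r) (-t) := by
  unfold ChevalleyDatum.stX
  rw [dif_pos hr, FreeGroup.lift_apply_of]
  rfl

theorem lift_I_stWordC (w : List (ℕ × K)) (hw : ∀ a ∈ w, a.1 < D.nroots) :
    FreeGroup.lift (fIC D K) (D.stWord w) = wBC D K (w.map fun p => (D.neg p.1, -p.2)) := by
  induction w with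
  | nil => simp [ChevalleyDatum.stWord, wBC]
  | cons a w ih =>
    have := ih (fun b hb => hw b (List.mem_cons_of_mem _ hb))
    simp only [ChevalleyDatum.stWord] at this ⊢
    simp only [List.map_cons, List.prod_cons, map_mul, wB_consC]
    rw [this, G.lift_I_stXC (hw a List.mem_cons_self)]

theorem commWord_negC {r s : ℕ} (hr : r < D.nroots) (hs : s < D.nroots) (h1 : s ≠ r) (h2 : s ≠ D.neg r) (t u : K) :
    D.commWord K (D.neg r) (D.neg s) (-t) (-u) = (D.commWord K r s t u).map fun p => (D.neg p.1, -p.2) := by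
  simp only [ChevalleyDatum.commWord, G.t1 hr hs h1 h2, List.map_map]
  apply List.map_congr_left
  intro c _
  simp only [Function.comp_apply, Prod.mk.injEq, true_and]
  push_cast
  simp only [neg_neg, neg_pow u, pow_add, neg_pow t]
  have e : ((-1 : K) ^ c.2.2.2) * ((-1 : K) ^ c.2.2.2) = 1 := by
    rw [← mul_pow]
    simp
  calc -((-1 : K) ^ c.2.2.1 * (-1 : K) ^ c.2.2.2) * (c.2.1 : K) * t ^ c.2.2.1 * ((-1 : K) ^ c.2.2.2 * u ^ c.2.2.2)
      = -(((-1 : K) ^ c.2.2.2 * (-1 : K) ^ c.2.2.2) * ((-1 : K) ^ c.2.2.1 * (c.2.1 : K) * t ^ c.2.2.1 * u ^ c.2.2.2)) := by ring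
    _ = _ := by rw [e]; ring

theorem rels_IC : ∀ r ∈ D.steinbergRelsAB K, FreeGroup.lift (fIC D K) r = 1 := by
  rintro g (⟨r, t, u, hr, rfl⟩ | ⟨r, s, t, u, hr, hs, h1, h2, rfl⟩)
  · have hn := G.neg_lt hr
    rw [map_mul, map_mul, map_inv, G.lift_I_stXC hr, G.lift_I_stXC hr, G.lift_I_stXC hr, mul_inv_eq_one, stGen_R1C hn]
    congr 1
    ring
  · have hn := G.neg_lt hr
    have hn' := G.neg_lt hs
    have h3 : D.neg s ≠ D.neg r := by
      intro h
      apply h1
      rw [← G.neg_neg hs, h, G.neg_neg hr]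
    have h4 : D.neg s ≠ D.neg (D.neg r) := by
      rw [G.neg_neg hr]
      intro h
      apply h2
      rw [← h, G.neg_neg hs]
    have hw : ∀ a ∈ D.commWord K r s t u, a.1 < D.nroots := by
      intro a ha
      simp only [ChevalleyDatum.commWord, List.mem_map] at ha
      obtain ⟨c, hc, rfl⟩ := ha
      exact G.commTerms_lt hr hs c hc
    simp only [map_mul, map_inv, G.lift_I_stXC hr, G.lift_I_stXC hs, G.lift_I_stWordC _ hw, mul_inv_eq_one]
    rw [← G.commWord_negC hr hs h1 h2]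
    have h5 := stGen_R2C hn hn' h3 h4 (-t) (-u)
    calc (D.scGen K (D.neg s) (-u))⁻¹ * (D.scGen K (D.neg r) (-t))⁻¹ * D.scGen K (D.neg s) (-u) * D.scGen K (D.neg r) (-t)
        = (D.scGen K (D.neg s) (-u))⁻¹ * (D.scGen K (D.neg r) (-t))⁻¹ * (D.scGen K (D.neg s) (-u) * D.scGen K (D.neg r) (-t)) := by group
      _ = _ := by rw [h5]; group

/-- The involution of the presented group. -/
noncomputable def iotaBC : D.SteinbergCover K →* D.SteinbergCover K :=
  PresentedGroup.toGroup G.rels_IC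

theorem iotaB_genC {r : ℕ} (hr : r < D.nroots) (t : K) : G.iotaBC (D.scGen K r t) = D.scGen K (D.neg r) (-t) := by
  have h1 : D.scGen K r t = PresentedGroup.mk (D.steinbergRelsAB K) (D.stX r t) := rfl
  rw [h1]
  show FreeGroup.lift (fIC D K) (D.stX r t) = _
  exact G.lift_I_stXC hr t

theorem iotaB_iotaBC (g : D.SteinbergCover K) : G.iotaBC (G.iotaBC g) = g := by
  have : (G.iotaBC (K := K)).comp (G.iotaBC (K := K)) = MonoidHom.id _ := by
    apply PresentedGroup.ext
    intro x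
    rw [of_eq_stGenC]
    simp only [MonoidHom.comp_apply, MonoidHom.id_apply]
    rw [G.iotaB_genC x.1.isLt, G.iotaB_genC (G.neg_lt x.1.isLt), G.neg_neg x.1.isLt, neg_neg]
  exact DFunLike.congr_fun this g

/-- The Chevalley involution in the general linear group. -/
noncomputable def aUC (K : Type*) [Field K] : GL D.Idx K := G.inv.gU K

theorem aU_conjC {r : ℕ} (hr : r < D.nroots) (t : K) :
    G.aUC K * G.xg hr t * (G.aUC K)⁻¹ = G.xg (G.neg_lt hr) (-t) := by
  have := G.inv.gU_conj G.toGood0 hr t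
  rw [show G.inv.gU K = G.aUC K from rfl] at this
  rw [this]
  apply Units.ext
  simp only [Good0.xg_val, G.inv_ρ r hr, G.inv_ε r hr]
  simp

theorem theta_iotaC (g : D.SteinbergCover K) :
    G.thetaGC (G.iotaBC g) = G.aUC K * G.thetaGC g * (G.aUC K)⁻¹ := by
  have : G.thetaGC.comp G.iotaBC = (MulAut.conj (G.aUC K)).toMonoidHom.comp G.thetaGC := by
    apply PresentedGroup.ext
    intro x
    rw [of_eq_stGenC]
    simp only [MonoidHom.comp_apply, MulEquiv.coe_toMonoidHom, MulAut.conj_apply]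
    rw [G.iotaB_genC x.1.isLt, G.thetaG_genC, G.thetaG_genC, G.xgt_ofC x.1.isLt, G.xgt_ofC (G.neg_lt x.1.isLt), G.aU_conjC]
  exact DFunLike.congr_fun this g

/-- The subgroup generated by the root elements of `±p_i`. -/
def LBC (D : ChevalleyDatum) (K : Type*) [Field K] (i : ℕ) : Subgroup (D.SteinbergCover K) :=
  rBC D K (fun r => r = D.simple i ∨ r = D.neg (D.simple i))

theorem conj_rB_ofC {i : ℕ} {y : D.SteinbergCover K} (h : ∀ (s : ℕ), s < D.nroots → QP D i s → ∀ u : K,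
    y * D.scGen K s u * y⁻¹ ∈ rBC D K (QP D i)) {g : D.SteinbergCover K} (hg : g ∈ rBC D K (QP D i)) :
    y * g * y⁻¹ ∈ rBC D K (QP D i) := by
  refine rB_inductionC (P := QP D i)
    (Q := fun g => y * g * y⁻¹ ∈ rBC D K (QP D i)) ?_ ?_ ?_ g hg
  · simp [Subgroup.one_mem]
  · intro a b ha hb
    have e : y * (a * b) * y⁻¹ = (y * a * y⁻¹) * (y * b * y⁻¹) := by group
    rw [e]
    exact Subgroup.mul_mem _ ha hb
  · intro s t hQ hs
    exact h s hs hQ t

/-- Conjugation of a root element of `U_p` by `x_p(t)`. -/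
theorem xp_conjBC {i s : ℕ} (hi : i < D.rank) (hs : s < D.nroots) (hQ : QP D i s) (t u : K) :
    D.scGen K (D.simple i) t * D.scGen K s u * (D.scGen K (D.simple i) t)⁻¹ ∈ rBC D K (QP D i) := by
  have hp := G.simple_lt hi
  have hNp := G.simple_pos hi
  have hNs := (G.pos_iff hs).mp hQ.1
  have hnp : s ≠ D.neg (D.simple i) := by
    have := (G.neg_pos hp).mp hNp
    omega
  obtain ⟨g, hg, e⟩ := G.toGood2.st_commC (K := K) (P := QP D i) hp hs hQ.2 hnp (fun c hc => by
    have h1 := G.comm_up hp hs hNp hNs hQ.2 hc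
    exact G.QP_of (G.commTerms_lt hp hs c hc) (by omega) (by omega)) (-t) u
  have e2 : D.scGen K (D.simple i) t * D.scGen K s u * (D.scGen K (D.simple i) t)⁻¹ = D.scGen K s u * g := by
    rw [Good2.stGen_invC hp t, mul_assoc (D.scGen K (D.simple i) t), e, ← mul_assoc, ← mul_assoc, stGen_R1C hp]
    simp [Good2.stGen_zeroC hp]
  rw [e2]
  exact Subgroup.mul_mem _ (gen_mem_rBC hQ hs u) hg

/-- Conjugation of a root element of `U_p` by `x_{-p}(t)`. -/
theorem xnp_conjBC {i s : ℕ} (hi : i < D.rank) (hs : s < D.nroots) (hQ : QP D i s) (t u : K) :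
    D.scGen K (D.neg (D.simple i)) t * D.scGen K s u * (D.scGen K (D.neg (D.simple i)) t)⁻¹ ∈ rBC D K (QP D i) := by
  have hp := G.simple_lt hi
  have hNp := G.simple_pos hi
  have hnl := G.neg_lt hp
  have hNs := (G.pos_iff hs).mp hQ.1
  have hnp : s ≠ D.neg (D.simple i) := by
    have := (G.neg_pos hp).mp hNp
    omega
  have hnn : s ≠ D.neg (D.neg (D.simple i)) := by
    rw [G.neg_neg hp]
    exact hQ.2
  obtain ⟨g, hg, e⟩ := G.toGood2.st_commC (K := K) (P := QP D i) hnl hs hnp hnn (fun c hc => by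
    have h1 := G.comm_neg_simple hi hs hNs hQ.2 hc
    exact G.QP_of (G.commTerms_lt hnl hs c hc) h1.1 h1.2) (-t) u
  have e2 : D.scGen K (D.neg (D.simple i)) t * D.scGen K s u * (D.scGen K (D.neg (D.simple i)) t)⁻¹ = D.scGen K s u * g := by
    rw [Good2.stGen_invC hnl t, mul_assoc (D.scGen K (D.neg (D.simple i)) t), e, ← mul_assoc, ← mul_assoc, stGen_R1C hnl]
    simp [Good2.stGen_zeroC hnl]
  rw [e2]
  exact Subgroup.mul_mem _ (gen_mem_rBC hQ hs u) hg

theorem LB_conjC {i : ℕ} (hi : i < D.rank) {y : D.SteinbergCover K} (hy : y ∈ LBC D K i) :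
    ∀ g, g ∈ rBC D K (QP D i) → y * g * y⁻¹ ∈ rBC D K (QP D i) := by
  refine rB_inductionC (P := fun r => r = D.simple i ∨ r = D.neg (D.simple i))
    (Q := fun y => ∀ g, g ∈ rBC D K (QP D i) → y * g * y⁻¹ ∈ rBC D K (QP D i)) ?_ ?_ ?_ y hy
  · intro g hg
    simpa using hg
  · intro a b ha hb g hg
    have e : a * b * g * (a * b)⁻¹ = a * (b * g * b⁻¹) * a⁻¹ := by group
    rw [e]
    exact ha _ (hb _ hg)
  · rintro r t (rfl | rfl) hr g hg
    · exact G.conj_rB_ofC (fun s hs hQ u => G.xp_conjBC hi hs hQ t u) hg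
    · exact G.conj_rB_ofC (fun s hs hQ u => G.xnp_conjBC hi hs hQ t u) hg

theorem iota_LBC {i : ℕ} (hi : i < D.rank) {y : D.SteinbergCover K} (hy : y ∈ LBC D K i) : G.iotaBC y ∈ LBC D K i := by
  have hp := G.simple_lt hi
  refine rB_inductionC (P := fun r => r = D.simple i ∨ r = D.neg (D.simple i))
    (Q := fun y => G.iotaBC y ∈ LBC D K i) ?_ ?_ ?_ y hy
  · simp [Subgroup.one_mem]
  · intro a b ha hb
    rw [map_mul]
    exact Subgroup.mul_mem _ ha hb
  · rintro r t (rfl | rfl) hr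
    · rw [G.iotaB_genC hr]
      exact gen_mem_rBC (Or.inr rfl) (G.neg_lt hr) _
    · rw [G.iotaB_genC hr, G.neg_neg hp]
      exact gen_mem_rBC (Or.inl rfl) hp _

/-- Rigidity in `U_p`. -/
theorem rigid_posC {i : ℕ} (hi : i < D.rank) {y : D.SteinbergCover K} (hy : y ∈ LBC D K i) (π : ℕ → ℕ) (c : ℕ → K)
    (h2 : ∀ s, QP D i s → QP D i (π s)) {s : ℕ} (hQ : QP D i s) (u : K)
    (h1 : G.thetaGC y * G.xgtC s u * (G.thetaGC y)⁻¹ = G.xgtC (π s) (c s * u)) :
    y * D.scGen K s u * y⁻¹ = D.scGen K (π s) (c s * u) := by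
  have hle : rBC D K (QP D i) ≤ rBC D K (NN D ≤ ·) :=
    rB_monoC fun r hr => (G.pos_iff hr.1.1).mp hr.1
  have hs := hQ.1.1
  have hQ' := h2 s hQ
  apply G.toGood2.theta_inj_posC
  · exact hle (G.LB_conjC hi hy _ (gen_mem_rBC hQ hs u))
  · exact hle (gen_mem_rBC hQ' hQ'.1.1 _)
  · rw [map_mul, map_mul, map_inv, G.thetaG_genC, G.thetaG_genC, h1]

/-- Rigidity in `V_p`. -/
theorem rigid_negC {i : ℕ} (hi : i < D.rank) {y : D.SteinbergCover K} (hy : y ∈ LBC D K i) (π : ℕ → ℕ) (c : ℕ → K)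
    (h2 : ∀ s, QP D i s → QP D i (π s)) {s : ℕ} (hQ : QP D i s) (u : K)
    (h3 : π (D.neg s) = D.neg (π s))
    (h1 : G.thetaGC y * G.xgtC (D.neg s) u * (G.thetaGC y)⁻¹ = G.xgtC (π (D.neg s)) (c (D.neg s) * u)) :
    y * D.scGen K (D.neg s) u * y⁻¹ = D.scGen K (π (D.neg s)) (c (D.neg s) * u) := by
  have hs := hQ.1.1
  have hn := G.neg_lt hs
  have hQ' := h2 s hQ
  have hs' := hQ'.1.1
  have hn' := G.neg_lt hs'
  have e1 : G.iotaBC y * D.scGen K s (-u) * (G.iotaBC y)⁻¹ = D.scGen K (π s) (-(c (D.neg s) * u)) := by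
    have e0 := G.rigid_posC (K := K) hi (G.iota_LBC hi hy) π (fun _ => c (D.neg s)) h2 hQ (-u) (by
      rw [G.theta_iotaC, G.xgt_ofC hs, G.xgt_ofC hs']
      rw [h3, G.xgt_ofC hn, G.xgt_ofC hn'] at h1
      have e2 : G.xg hs (-u) = G.aUC K * G.xg hn u * (G.aUC K)⁻¹ := by
        rw [G.aU_conjC]
        apply Units.ext
        simp [G.neg_neg hs]
      have e3 : G.xg hs' (c (D.neg s) * -u) = G.aUC K * G.xg hn' (c (D.neg s) * u) * (G.aUC K)⁻¹ := by
        rw [G.aU_conjC]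
        apply Units.ext
        simp [G.neg_neg hs']
      rw [e2, e3, ← h1]
      group)
    rw [e0]
    congr 1
    ring
  have e4 := congrArg G.iotaBC e1
  rw [map_mul, map_mul, map_inv, G.iotaB_iotaBC, G.iotaB_genC hs, G.iotaB_genC hs', neg_neg, neg_neg] at e4
  rw [e4, h3]

end Good5

end Cfsg.Agent.Lib.Chev
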