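import Cfsg.Agent.Lib.Chev.Cov.Stein2

/-!
Steinberg's presentation: conjugation of root elements by `n̄_p` and `h̄_p(t)`.
-/

set_option autoImplicit false
set_option linter.unusedSimpArgs false
set_option linter.unusedVariables false
set_option linter.unusedSectionVars false

namespace Cfsg.Agent.Lib.Chev

open Cfsg Cfsg.Lie
open Good2 (rBC gen_mem_rBC rB_leC rB_inductionC rB_monoC wB_memC NN)

variable {D : ChevalleyDatum} {K : Type*} [Field K]

namespace Good5

variable (G : Good5 D)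
include G

omit G in
theorem conj_wordC {y : D.SteinbergCover K} {π : ℕ → ℕ} {c : ℕ → K} (L : List (ℕ × K))
    (hL : ∀ a ∈ L, y * D.scGen K a.1 a.2 * y⁻¹ = D.scGen K (π a.1) (c a.1 * a.2)) :
    y * wBC D K L * y⁻¹ = wBC D K (L.map fun q => (π q.1, c q.1 * q.2)) := by
  induction L with
  | nil => simp [wBC]
  | cons a L ih =>
    have h1 := hL a List.mem_cons_self
    have h2 := ih fun b hb => hL b (List.mem_cons_of_mem _ hb)
    rw [wB_consC, List.map_cons, wB_consC, ← h2, ← h1]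
    group

theorem ext_lemmaC {i e : ℕ} (hi : i < D.rank) (he : e < 2) {y : D.SteinbergCover K} (π : ℕ → ℕ) (c : ℕ → K)
    (hrig : ∀ s, s < D.nroots → s ≠ D.simple i → s ≠ D.neg (D.simple i) → ∀ u : K,
      y * D.scGen K s u * y⁻¹ = D.scGen K (π s) (c s * u))
    (hπ : ∀ r s, r < D.nroots → s < D.nroots → s ≠ r → s ≠ D.neg r →
      π r < D.nroots ∧ π s < D.nroots ∧ π s ≠ π r ∧ π s ≠ D.neg (π r))
    (hcomp : ∀ r s, r < D.nroots → s < D.nroots → s ≠ r → s ≠ D.neg r → ∀ t u : K,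
      D.commWord K (π r) (π s) (c r * t) (c s * u) = (D.commWord K r s t u).map fun q => (π q.1, c q.1 * q.2))
    (w : K) :
    y * D.scGen K (if e = 0 then D.simple i else D.neg (D.simple i)) w * y⁻¹ =
      D.scGen K (π (if e = 0 then D.simple i else D.neg (D.simple i)))
        (c (if e = 0 then D.simple i else D.neg (D.simple i)) * w) := by
  obtain ⟨r, s, k, C, a, hr, hs, h1, h2, hrp, hrn, hsp, hsn, hC, hk, hL1, hL2⟩ := G.pick_spec hi he
  set tgt := if e = 0 then D.simple i else D.neg (D.simple i) with htgt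
  obtain ⟨hπr, hπs, h3, h4⟩ := hπ r s hr hs h1 h2
  have hCsq : ((C : ℤ) : K) * (C : K) = 1 := sign_sq hC
  have hasq : ((-1 : K) ^ a) * ((-1 : K) ^ a) = 1 := by
    rw [← mul_pow]; simp
  set u : K := (C : K) * (-1) ^ a * w with hu
  have hval : (C : K) * (-1) ^ a * u ^ 1 = w := by
    rw [hu, pow_one]
    calc (C : K) * (-1) ^ a * ((C : K) * (-1) ^ a * w) = ((C : K) * (C : K)) * ((-1 : K) ^ a * (-1) ^ a) * w := by ring
      _ = w := by rw [hCsq, hasq]; ring
  -- the decomposition of the word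
  have hlt : k < (D.commTerms r s).length := by
    by_contra h
    rw [List.getElem?_eq_none (by omega)] at hk
    simp at hk
  have hget : (D.commTerms r s)[k] = (tgt, C, a, 1) := by
    rw [List.getElem?_eq_getElem hlt] at hk
    simpa using hk
  have hdec : D.commTerms r s = (D.commTerms r s).take k ++ (tgt, C, a, 1) :: (D.commTerms r s).drop (k + 1) := by
    conv_lhs => rw [← List.take_append_drop k (D.commTerms r s)]
    rw [List.drop_eq_getElem_cons hlt, hget]
  set f : ℕ × ℤ × ℕ × ℕ → ℕ × K := fun c' => (c'.1, (c'.2.1 : K) * (-(1 : K)) ^ c'.2.2.1 * u ^ c'.2.2.2) with hf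
  have hcw : D.commWord K r s 1 u = ((D.commTerms r s).take k).map f ++ (tgt, w) :: ((D.commTerms r s).drop (k + 1)).map f := by
    unfold ChevalleyDatum.commWord
    conv_lhs => rw [hdec]
    rw [List.map_append, List.map_cons]
    simp only [hf, hval]
  -- the relation
  have e1 := stGen_R2C hr hs h1 h2 (1 : K) u
  have e2 := stGen_R2C hπr hπs h3 h4 (c r * 1) (c s * u)
  have ers := hrig s hs hsp hsn u
  have err := hrig r hr hrp hrn 1
  have e3 : y * wBC D K (D.commWord K r s 1 u) * y⁻¹ = wBC D K (D.commWord K (π r) (π s) (c r * 1) (c s * u)) := by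
    have e4 : (y * D.scGen K s u * y⁻¹) * (y * D.scGen K r 1 * y⁻¹) =
        (y * D.scGen K r 1 * y⁻¹) * (y * D.scGen K s u * y⁻¹) * (y * wBC D K (D.commWord K r s 1 u) * y⁻¹) := by
      calc (y * D.scGen K s u * y⁻¹) * (y * D.scGen K r 1 * y⁻¹) = y * (D.scGen K s u * D.scGen K r 1) * y⁻¹ := by group
        _ = _ := by rw [e1]; group
    rw [ers, err, e2] at e4
    exact (mul_left_cancel e4).symm
  rw [hcomp r s hr hs h1 h2 1 u, hcw] at e3
  have hl1 := conj_wordC (y := y) (π := π) (c := c) (((D.commTerms r s).take k).map f) (by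
    intro b hb
    obtain ⟨x, hx, rfl⟩ := List.mem_map.mp hb
    have h5 := hL1 x hx
    have hxm : x ∈ D.commTerms r s := List.mem_of_mem_take hx
    exact hrig _ (G.commTerms_lt hr hs x hxm) h5.1 h5.2 _)
  have hl2 := conj_wordC (y := y) (π := π) (c := c) (((D.commTerms r s).drop (k + 1)).map f) (by
    intro b hb
    obtain ⟨x, hx, rfl⟩ := List.mem_map.mp hb
    have h5 := hL2 x hx
    have hxm : x ∈ D.commTerms r s := List.mem_of_mem_drop hx
    exact hrig _ (G.commTerms_lt hr hs x hxm) h5.1 h5.2 _)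
  rw [List.map_append, List.map_cons, wB_appendC, wB_consC, wB_appendC, wB_consC, ← hl1, ← hl2] at e3
  simp only at e3
  have e5 : y * (wBC D K (((D.commTerms r s).take k).map f) * (D.scGen K tgt w * wBC D K (((D.commTerms r s).drop (k + 1)).map f))) * y⁻¹ =
      (y * wBC D K (((D.commTerms r s).take k).map f) * y⁻¹) * (y * D.scGen K tgt w * y⁻¹) *
        (y * wBC D K (((D.commTerms r s).drop (k + 1)).map f) * y⁻¹) := by group
  rw [e5, mul_assoc (y * wBC D K (((D.commTerms r s).take k).map f) * y⁻¹)] at e3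
  have e6 := mul_left_cancel e3
  exact mul_right_cancel e6

omit G in
theorem neg_chi_chainRootC {χ : ℕ → K} (h : IsChi D χ) {r s k i : ℕ} (hr : r < D.nroots) (hs : s < D.nroots) (hi : 1 ≤ i)
    (hk : D.chainRoot r s i = some k) : χ k = χ r ^ i * χ s := by
  simp only [ChevalleyDatum.chainRoot, Option.map_eq_some_iff] at hk
  obtain ⟨q, hq, rfl⟩ := hk
  have hq' : (q, i - 1) ∈ (D.chainEntry r s).zipIdx := by
    rw [List.mem_zipIdx_iff_getElem?]
    simpa using hq
  have := h.add r s hr hs _ hq'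
  simp only at this
  rw [this, Nat.sub_add_cancel hi]

theorem chainRoot_ltC {r s k i : ℕ} (hr : r < D.nroots) (hs : s < D.nroots) (hk : D.chainRoot r s i = some k) :
    k < D.nroots := by
  simp only [ChevalleyDatum.chainRoot, Option.map_eq_some_iff] at hk
  obtain ⟨q, hq, rfl⟩ := hk
  exact G.ce_lt hr hs (List.mem_of_getElem? hq)

theorem chi_commTermsC {χ : ℕ → K} (h : IsChi D χ) {r s : ℕ} (hr : r < D.nroots) (hs : s < D.nroots)
    {c : ℕ × ℤ × ℕ × ℕ} (hc : c ∈ D.commTerms r s) : χ c.1 = χ r ^ c.2.2.1 * χ s ^ c.2.2.2 := by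
  simp only [ChevalleyDatum.commTerms, List.mem_filterMap, List.mem_cons, List.not_mem_nil, or_false, Option.map_eq_some_iff] at hc
  obtain ⟨x, hx, k, hk, rfl⟩ := hc
  rcases hx with rfl | rfl | rfl | rfl | rfl | rfl | rfl
  · simp only at hk ⊢
    rw [neg_chi_chainRootC h hr hs le_rfl hk]
    ring
  · simp only at hk ⊢
    rw [neg_chi_chainRootC h hr hs (by norm_num) hk]
    ring
  · simp only at hk ⊢
    rw [neg_chi_chainRootC h hs hr (by norm_num) hk]
    ring
  · simp only at hk ⊢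
    rw [neg_chi_chainRootC h hr hs (by norm_num) hk]
    ring
  · simp only at hk ⊢
    rw [neg_chi_chainRootC h hs hr (by norm_num) hk]
    ring
  · simp only [Option.bind_eq_some_iff] at hk ⊢
    obtain ⟨a, ha, hb⟩ := hk
    have hal := G.chainRoot_ltC hr hs ha
    rw [neg_chi_chainRootC h hal hs le_rfl hb, neg_chi_chainRootC h hr hs (by norm_num) ha]
    ring
  · simp only [Option.bind_eq_some_iff] at hk ⊢
    obtain ⟨a, ha, hb⟩ := hk
    have hal := G.chainRoot_ltC hs hr ha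
    rw [neg_chi_chainRootC h hal hr le_rfl hb, neg_chi_chainRootC h hs hr (by norm_num) ha]
    ring

theorem rig_allC {i : ℕ} (hi : i < D.rank) {y : D.SteinbergCover K} (hy : y ∈ LBC D K i) (π : ℕ → ℕ) (c : ℕ → K)
    (h2 : ∀ s, QP D i s → QP D i (π s)) (h3 : ∀ s, s < D.nroots → π (D.neg s) = D.neg (π s))
    (h1 : ∀ s, s < D.nroots → ∀ u : K, G.thetaGC y * G.xgtC s u * (G.thetaGC y)⁻¹ = G.xgtC (π s) (c s * u))
    {s : ℕ} (hs : s < D.nroots) (hsp : s ≠ D.simple i) (hsn : s ≠ D.neg (D.simple i)) (u : K) :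
    y * D.scGen K s u * y⁻¹ = D.scGen K (π s) (c s * u) := by
  by_cases hN : NN D ≤ s
  · exact G.rigid_posC hi hy π c h2 (G.QP_of hs hN hsp) u (h1 s hs u)
  · have hn := G.neg_lt hs
    have h5 : NN D ≤ D.neg s := by
      rw [G.neg_eq hs]
      have := G.n_even
      show D.nroots / 2 ≤ D.nroots - 1 - s
      have h2 : s < D.nroots / 2 := by
        have : ¬ (D.nroots / 2 ≤ s) := hN
        omega
      omega
    have h6 : D.neg s ≠ D.simple i := by
      intro h
      apply hsn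
      rw [← h, G.neg_neg hs]
    have hQ := G.QP_of hn h5 h6
    have := G.rigid_negC hi hy π c h2 hQ u (h3 _ hn) (by
      rw [G.neg_neg hs]
      exact h1 s hs u)
    rwa [G.neg_neg hs] at this

theorem all_conjC {i : ℕ} (hi : i < D.rank) {y : D.SteinbergCover K} (hy : y ∈ LBC D K i) (π : ℕ → ℕ) (c : ℕ → K)
    (h2 : ∀ s, QP D i s → QP D i (π s)) (h3 : ∀ s, s < D.nroots → π (D.neg s) = D.neg (π s))
    (h1 : ∀ s, s < D.nroots → ∀ u : K, G.thetaGC y * G.xgtC s u * (G.thetaGC y)⁻¹ = G.xgtC (π s) (c s * u))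
    (hπ : ∀ r s, r < D.nroots → s < D.nroots → s ≠ r → s ≠ D.neg r →
      π r < D.nroots ∧ π s < D.nroots ∧ π s ≠ π r ∧ π s ≠ D.neg (π r))
    (hcomp : ∀ r s, r < D.nroots → s < D.nroots → s ≠ r → s ≠ D.neg r → ∀ t u : K,
      D.commWord K (π r) (π s) (c r * t) (c s * u) = (D.commWord K r s t u).map fun q => (π q.1, c q.1 * q.2))
    {s : ℕ} (hs : s < D.nroots) (u : K) :
    y * D.scGen K s u * y⁻¹ = D.scGen K (π s) (c s * u) := by
  have hrig := fun s hs hsp hsn u => G.rig_allC hi hy π c h2 h3 h1 (s := s) hs hsp hsn u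
  by_cases hsp : s = D.simple i
  · have := G.ext_lemmaC hi (e := 0) (by norm_num) π c hrig hπ hcomp u
    simpa [hsp] using this
  by_cases hsn : s = D.neg (D.simple i)
  · have := G.ext_lemmaC hi (e := 1) (by norm_num) π c hrig hπ hcomp u
    simpa [hsn] using this
  exact hrig s hs hsp hsn u

theorem nB_mem_LBC {i : ℕ} (hi : i < D.rank) (t : K) : nBC D K (D.simple i) t ∈ LBC D K i := by
  have hp := G.simple_lt hi
  rw [nB_eqC]
  exact Subgroup.mul_mem _ (Subgroup.mul_mem _ (gen_mem_rBC (Or.inl rfl) hp t)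
    (gen_mem_rBC (Or.inr rfl) (G.neg_lt hp) _)) (gen_mem_rBC (Or.inl rfl) hp t)

theorem hB_mem_LBC {i : ℕ} (hi : i < D.rank) (t : K) : hBC D K (D.simple i) t ∈ LBC D K i := by
  rw [hB_eqC]
  exact Subgroup.mul_mem _ (G.nB_mem_LBC hi t) (G.nB_mem_LBC hi _)

theorem theta_nBC (r : ℕ) (t : K) : ((G.thetaGC (nBC D K r t) : GL D.Idx K) : Matrix D.Idx D.Idx K) = D.nMat K r t := by
  rw [nBC, G.thetaG_wordC, G.wG_valC]
  rfl

theorem theta_hBC (r : ℕ) (t : K) : ((G.thetaGC (hBC D K r t) : GL D.Idx K) : Matrix D.Idx D.Idx K) = D.hMat K r t := by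
  rw [hBC, G.thetaG_wordC, G.wG_valC]
  rfl

theorem QP_WC {i s : ℕ} (hi : i < D.rank) (hQ : QP D i s) : QP D i (G.W i s) := by
  have hs := hQ.1.1
  have hN := (G.pos_iff hs).mp hQ.1
  have h1 := G.W_pos hi hs hN hQ.2
  refine G.QP_of (G.W_lt hi hs) h1 ?_
  intro h2
  have h3 := G.W_W hi hs
  rw [h2, G.W_simple hi] at h3
  have h4 := (G.neg_pos (G.simple_lt hi)).mp (G.simple_pos hi)
  omega

omit G in
theorem signsC (x y z : ℤ) (hy : y = 1 ∨ y = -1) (hz : z = 1 ∨ z = -1) (C : ℤ) (a b : ℕ) (t u : K) :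
    (((x * y ^ a * z ^ b * C : ℤ)) : K) * (-((y : K) * t)) ^ a * ((z : K) * u) ^ b =
      (x : K) * ((C : K) * (-t) ^ a * u ^ b) := by
  have hy2 : ((y : K)) ^ a * (y : K) ^ a = 1 := by
    rw [← mul_pow, sign_sq hy, one_pow]
  have hz2 : ((z : K)) ^ b * (z : K) ^ b = 1 := by
    rw [← mul_pow, sign_sq hz, one_pow]
  push_cast
  have e1 : (-((y : K) * t)) ^ a = (y : K) ^ a * (-t) ^ a := by
    rw [← mul_pow]
    congr 1
    ring
  rw [e1, mul_pow]
  calc (x : K) * (y : K) ^ a * (z : K) ^ b * (C : K) * ((y : K) ^ a * (-t) ^ a) * ((z : K) ^ b * u ^ b)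
      = (x : K) * ((y : K) ^ a * (y : K) ^ a) * ((z : K) ^ b * (z : K) ^ b) * ((C : K) * (-t) ^ a * u ^ b) := by ring
    _ = _ := by rw [hy2, hz2]; ring

/-- Conjugation by `n̄_p`. -/
theorem nB_conjC {i : ℕ} (hi : i < D.rank) {s : ℕ} (hs : s < D.nroots) (u : K) :
    nBC D K (D.simple i) 1 * D.scGen K s u * (nBC D K (D.simple i) 1)⁻¹ = D.scGen K (G.W i s) (((G.S i s : ℤ) : K) * u) := by
  have hp := G.simple_lt hi
  refine G.all_conjC hi (G.nB_mem_LBC hi 1) (G.W i) (fun s => ((G.S i s : ℤ) : K)) (fun s h => G.QP_WC hi h)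
    (fun s hs => G.W_neg hi hs) ?_ ?_ ?_ hs u
  · intro s hs u
    have e : G.thetaGC (nBC D K (D.simple i) 1) = G.toGood2.nG ⟨i, hi⟩ := Units.ext (G.theta_nBC _ 1)
    rw [e, G.xgt_ofC hs, G.xgt_ofC (G.W_lt hi hs)]
    exact G.toGood2.nG_conj_x ⟨i, hi⟩ hs u
  · intro r s hr hs h1 h2
    refine ⟨G.W_lt hi hr, G.W_lt hi hs, ?_, ?_⟩
    · intro h
      apply h1
      rw [← G.W_W hi hs, h, G.W_W hi hr]
    · intro h
      apply h2
      rw [← G.W_W hi hs, h, G.W_neg hi (G.W_lt hi hr), G.W_W hi hr]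
  · intro r s hr hs h1 h2 t u
    simp only [ChevalleyDatum.commWord]
    rw [G.t3 i r s hi hr hs h1 h2, List.map_map, List.map_map]
    apply List.map_congr_left
    intro c _
    simp only [Function.comp_apply, Prod.mk.injEq, true_and]
    exact signsC _ _ _ (G.S_cases hi hr) (G.S_cases hi hs) _ _ _ _ _

/-- Conjugation by `h̄_p(t)`. -/
theorem hB_conjC {i : ℕ} (hi : i < D.rank) {t : K} (ht : t ≠ 0) {s : ℕ} (hs : s < D.nroots) (u : K) :
    hBC D K (D.simple i) t * D.scGen K s u * (hBC D K (D.simple i) t)⁻¹ =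
      D.scGen K s (chiP D (D.simple i) t s * u) := by
  have hp := G.simple_lt hi
  have hχ := G.chiP_isChi (D.simple i) ht
  refine G.all_conjC hi (G.hB_mem_LBC hi t) (fun s => s) (chiP D (D.simple i) t) (fun s h => h)
    (fun s hs => rfl) ?_ ?_ ?_ hs u
  · intro s hs u
    have e : G.thetaGC (hBC D K (D.simple i) t) = G.toGood2.hG hp ht := by
      apply Units.ext
      rw [G.theta_hBC]
      exact (G.toGood2.hG_val hp ht).symm
    rw [e, G.xgt_ofC hs, G.xgt_ofC hs, mul_inv_eq_iff_eq_mul]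
    apply Units.ext
    simp only [Units.val_mul, Good0.xg_val, Good2.hG_val]
    rw [G.h_eq hp ht]
    change dgM D _ * _ = _ * dgM D _
    exact G.dgM_mul_x hχ hs u
  · intro r s hr hs h1 h2
    exact ⟨hr, hs, h1, h2⟩
  · intro r s hr hs h1 h2 a b
    simp only [ChevalleyDatum.commWord, List.map_map]
    apply List.map_congr_left
    intro c hc
    simp only [Function.comp_apply, Prod.mk.injEq, true_and]
    rw [G.chi_commTermsC hχ hr hs hc]
    have e1 : (-(chiP D (D.simple i) t r * a)) ^ c.2.2.1 = chiP D (D.simple i) t r ^ c.2.2.1 * (-a) ^ c.2.2.1 := by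
      rw [← mul_pow]
      congr 1
      ring
    rw [e1, mul_pow]
    ring

end Good5

end Cfsg.Agent.Lib.Chev
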