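import Cfsg.Agent.Lib.Chev.Cov.Stein3

/-!
Steinberg's presentation: the subgroups `H̄`, `N̄`, `Ū`, their action on root elements.
-/

set_option autoImplicit false
set_option linter.unusedSimpArgs false
set_option linter.unusedVariables false
set_option linter.unusedSectionVars false

namespace Cfsg.Agent.Lib.Chev

open Cfsg Cfsg.Lie
open Good2 (rBC gen_mem_rBC rB_leC rB_inductionC rB_monoC wB_memC NN)

variable {D : ChevalleyDatum} {K : Type*} [Field K]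

/-- The generators of `H̄`. -/
def hGensC (D : ChevalleyDatum) (K : Type*) [Field K] : Set (D.SteinbergCover K) :=
  {h | ∃ (i : ℕ) (t : K), i < D.rank ∧ t ≠ 0 ∧ h = hBC D K (D.simple i) t}

/-- The subgroup `H̄`. -/
def HBC (D : ChevalleyDatum) (K : Type*) [Field K] : Subgroup (D.SteinbergCover K) :=
  Subgroup.closure (hGensC D K)

/-- The subgroup `N̄`. -/
def NBC (D : ChevalleyDatum) (K : Type*) [Field K] : Subgroup (D.SteinbergCover K) :=
  Subgroup.closure (hGensC D K ∪ {h | ∃ i, i < D.rank ∧ h = nBC D K (D.simple i) 1})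

/-- The subgroup `Ū`. -/
abbrev UBC (D : ChevalleyDatum) (K : Type*) [Field K] : Subgroup (D.SteinbergCover K) :=
  rBC D K (NN D ≤ ·)

theorem HB_le_NBC : HBC D K ≤ NBC D K := Subgroup.closure_mono Set.subset_union_left

theorem hB_mem_HBC {i : ℕ} (hi : i < D.rank) {t : K} (ht : t ≠ 0) : hBC D K (D.simple i) t ∈ HBC D K :=
  Subgroup.subset_closure ⟨i, t, hi, ht, rfl⟩

theorem nB_one_mem_NBC {i : ℕ} (hi : i < D.rank) : nBC D K (D.simple i) 1 ∈ NBC D K :=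
  Subgroup.subset_closure (Or.inr ⟨i, hi, rfl⟩)

/-- `n̄(a) = h̄(a) n̄(1)`. -/
theorem nB_eq_hBC {r : ℕ} (hr : r < D.nroots) (hn : D.neg r < D.nroots) (a : K) :
    nBC D K r a = hBC D K r a * nBC D K r 1 := by
  rw [hB_eqC, nB_neg_oneC hr hn]
  simp

theorem nB_inv_eqC {r : ℕ} (hr : r < D.nroots) (hn : D.neg r < D.nroots) :
    (nBC D K r 1)⁻¹ = hBC D K r (-1) * nBC D K r 1 := by
  rw [hB_eqC, nB_neg_oneC hr hn]
  simp

/-- Conjugating `n̄` by something acting on the two root groups by scalars. -/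
theorem conj_nBC (y : D.SteinbergCover K) {p : ℕ} (c : K)
    (h1 : ∀ u : K, y * D.scGen K p u * y⁻¹ = D.scGen K p (c * u))
    (h2 : ∀ u : K, y * D.scGen K (D.neg p) u * y⁻¹ = D.scGen K (D.neg p) (c⁻¹ * u)) (a : K) :
    y * nBC D K p a * y⁻¹ = nBC D K p (c * a) := by
  rw [nB_eqC, nB_eqC]
  have e : y * (D.scGen K p a * D.scGen K (D.neg p) (-a⁻¹) * D.scGen K p a) * y⁻¹ =
      (y * D.scGen K p a * y⁻¹) * (y * D.scGen K (D.neg p) (-a⁻¹) * y⁻¹) * (y * D.scGen K p a * y⁻¹) := by group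
  rw [e, h1, h2]
  congr 3
  rw [mul_inv]
  ring

/-- Elements of the presented group which act on the root elements by scalars. -/
def actBC (D : ChevalleyDatum) (K : Type*) [Field K] : Subgroup (D.SteinbergCover K) where
  carrier := {y | ∃ χ : ℕ → K, IsChi D χ ∧ ∀ s, s < D.nroots → ∀ u : K, y * D.scGen K s u * y⁻¹ = D.scGen K s (χ s * u)}
  one_mem' := ⟨fun _ => 1, isChi_one, by simp⟩
  mul_mem' := by
    rintro a b ⟨χ, h1, h2⟩ ⟨χ', h3, h4⟩
    refine ⟨fun s => χ s * χ' s, h1.mul h3, fun s hs u => ?_⟩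
    rw [_root_.mul_inv_rev]
    calc a * b * D.scGen K s u * (b⁻¹ * a⁻¹) = a * (b * D.scGen K s u * b⁻¹) * a⁻¹ := by group
      _ = _ := by rw [h4 s hs, h2 s hs, mul_assoc]
  inv_mem' := by
    rintro a ⟨χ, h1, h2⟩
    refine ⟨fun s => (χ s)⁻¹, ?_, fun s hs u => ?_⟩
    · exact h1.inv
    · have e := h2 s hs ((χ s)⁻¹ * u)
      rw [← mul_assoc, mul_inv_cancel₀ (h1.ne s hs), one_mul] at e
      rw [← e]
      simp only [inv_inv]
      group

namespace Good5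

variable (G : Good5 D)
include G

theorem hB_mem_actBC {i : ℕ} (hi : i < D.rank) {t : K} (ht : t ≠ 0) : hBC D K (D.simple i) t ∈ actBC D K :=
  ⟨chiP D (D.simple i) t, G.chiP_isChi _ ht, fun s hs u => G.hB_conjC hi ht hs u⟩

theorem HB_le_actBC : HBC D K ≤ actBC D K := by
  apply (Subgroup.closure_le _).mpr
  rintro _ ⟨i, t, hi, ht, rfl⟩
  exact G.hB_mem_actBC hi ht

/-- Elements of the presented group which permute the root elements. -/
def monoBC (K : Type*) [Field K] : Subgroup (D.SteinbergCover K) where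
  carrier := {y | ∃ (π : Equiv.Perm (Fin D.nroots)) (c : Fin D.nroots → K), (∀ s, c s ≠ 0) ∧
    (∀ s, π (G.nf s) = G.nf (π s)) ∧ ∀ (s : Fin D.nroots) (u : K),
      y * D.scGen K s u * y⁻¹ = D.scGen K (π s) (c s * u)}
  one_mem' := ⟨1, fun _ => 1, fun _ => one_ne_zero, fun _ => rfl, by simp⟩
  mul_mem' := by
    rintro a b ⟨π, c, h1, h2, h3⟩ ⟨π', c', h4, h5, h6⟩
    refine ⟨π * π', fun s => c (π' s) * c' s, fun s => mul_ne_zero (h1 _) (h4 _), fun s => ?_, fun s u => ?_⟩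
    · simp only [Equiv.Perm.mul_apply]
      rw [h5, h2]
    · rw [_root_.mul_inv_rev]
      calc a * b * D.scGen K s u * (b⁻¹ * a⁻¹) = a * (b * D.scGen K s u * b⁻¹) * a⁻¹ := by group
        _ = _ := by
          rw [h6 s, h3 (π' s), mul_assoc]
          rfl
  inv_mem' := by
    rintro a ⟨π, c, h1, h2, h3⟩
    refine ⟨π⁻¹, fun s => (c (π⁻¹ s))⁻¹, fun s => inv_ne_zero (h1 _), fun s => ?_, fun s u => ?_⟩
    · have e := h2 (π⁻¹ s)
      have e0 : π (π⁻¹ s) = s := by simp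
      rw [e0] at e
      rw [← e]
      simp
    · have e := h3 (π⁻¹ s) ((c (π⁻¹ s))⁻¹ * u)
      have e0 : π (π⁻¹ s) = s := by simp
      rw [← mul_assoc, mul_inv_cancel₀ (h1 _), one_mul, e0] at e
      rw [← e]
      simp only [inv_inv]
      group

theorem hB_mem_monoBC {i : ℕ} (hi : i < D.rank) {t : K} (ht : t ≠ 0) : hBC D K (D.simple i) t ∈ G.monoBC K :=
  ⟨1, fun s => chiP D (D.simple i) t s, fun s => (G.chiP_isChi _ ht).ne s s.isLt, fun _ => rfl,
    fun s u => G.hB_conjC hi ht s.isLt u⟩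

theorem nB_mem_monoBC {i : ℕ} (hi : i < D.rank) : nBC D K (D.simple i) 1 ∈ G.monoBC K :=
  ⟨G.toGood2.Wp ⟨i, hi⟩, fun s => ((G.S i s : ℤ) : K), fun s => G.S_ne_zero hi s.isLt,
    fun s => Fin.ext (G.W_neg hi s.isLt), fun s u => G.nB_conjC hi s.isLt u⟩

theorem NB_le_monoBC : NBC D K ≤ G.monoBC K := by
  apply (Subgroup.closure_le _).mpr
  rintro _ (⟨i, t, hi, ht, rfl⟩ | ⟨i, hi, rfl⟩)
  · exact G.hB_mem_monoBC hi ht
  · exact G.nB_mem_monoBC hi

/-- `h̄ n̄_p(a) h̄⁻¹`. -/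
theorem act_nBC {y : D.SteinbergCover K} {χ : ℕ → K} (h1 : IsChi D χ)
    (h2 : ∀ s, s < D.nroots → ∀ u : K, y * D.scGen K s u * y⁻¹ = D.scGen K s (χ s * u)) {p : ℕ} (hp : p < D.nroots) (a : K) :
    y * nBC D K p a * y⁻¹ = nBC D K p (χ p * a) := by
  refine conj_nBC y (χ p) (h2 p hp) (fun u => ?_) a
  rw [h2 _ (G.neg_lt hp)]
  congr 2
  exact eq_inv_of_mul_eq_one_left (h1.neg p hp)

/-- `n̄_i` normalises `H̄`. -/
theorem nB_conj_HBC {i : ℕ} (hi : i < D.rank) {h : D.SteinbergCover K} (hh : h ∈ HBC D K) :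
    nBC D K (D.simple i) 1 * h * (nBC D K (D.simple i) 1)⁻¹ ∈ HBC D K := by
  have hp := G.simple_lt hi
  have hn := G.neg_lt hp
  have key : ∀ y ∈ HBC D K, nBC D K (D.simple i) 1 * y * (nBC D K (D.simple i) 1)⁻¹ ∈ HBC D K := by
    intro y hy
    obtain ⟨χ, h1, h2⟩ := G.HB_le_actBC hy
    have e1 := G.act_nBC h1 h2 hp ((χ (D.simple i))⁻¹)
    rw [mul_inv_cancel₀ (h1.ne _ hp)] at e1
    have e2 : y⁻¹ * nBC D K (D.simple i) 1 * y = nBC D K (D.simple i) (χ (D.simple i))⁻¹ := by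
      rw [← e1]
      group
    have e3 : nBC D K (D.simple i) 1 * y * (nBC D K (D.simple i) 1)⁻¹ =
        y * (y⁻¹ * nBC D K (D.simple i) 1 * y) * (nBC D K (D.simple i) 1)⁻¹ := by group
    rw [e3, e2, mul_assoc, ← nB_neg_oneC hp hn, ← hB_eqC]
    exact Subgroup.mul_mem _ hy (hB_mem_HBC hi (inv_ne_zero (h1.ne _ hp)))
  exact key h hh

theorem nB_inv_conj_HBC {i : ℕ} (hi : i < D.rank) {h : D.SteinbergCover K} (hh : h ∈ HBC D K) :
    (nBC D K (D.simple i) 1)⁻¹ * h * nBC D K (D.simple i) 1 ∈ HBC D K := by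
  have hp := G.simple_lt hi
  have hn := G.neg_lt hp
  have hmm : hBC D K (D.simple i) (-1 : K) ∈ HBC D K := hB_mem_HBC hi (by simp)
  have e : (nBC D K (D.simple i) 1)⁻¹ * h * nBC D K (D.simple i) 1 =
      hBC D K (D.simple i) (-1) * (nBC D K (D.simple i) 1 * h * (nBC D K (D.simple i) 1)⁻¹) * (hBC D K (D.simple i) (-1))⁻¹ := by
    have h2 := nB_inv_eqC (K := K) hp hn
    calc (nBC D K (D.simple i) 1)⁻¹ * h * nBC D K (D.simple i) 1
        = (hBC D K (D.simple i) (-1) * nBC D K (D.simple i) 1) * h * (hBC D K (D.simple i) (-1) * nBC D K (D.simple i) 1)⁻¹ := by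
          rw [← h2, inv_inv]
      _ = _ := by group
  rw [e]
  exact Subgroup.mul_mem _ (Subgroup.mul_mem _ hmm (G.nB_conj_HBC hi hh)) (Subgroup.inv_mem _ hmm)

/-- `H̄` is normal in `N̄`. -/
theorem NB_conj_HBC {ν : D.SteinbergCover K} (hν : ν ∈ NBC D K) :
    ∀ h ∈ HBC D K, ν * h * ν⁻¹ ∈ HBC D K := by
  refine (Subgroup.closure_induction (p := fun ν _ => (∀ h ∈ HBC D K, ν * h * ν⁻¹ ∈ HBC D K) ∧
    (∀ h ∈ HBC D K, ν⁻¹ * h * ν ∈ HBC D K)) ?_ ?_ ?_ ?_ hν).1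
  · rintro _ (⟨i, t, hi, ht, rfl⟩ | ⟨i, hi, rfl⟩)
    · have hm := hB_mem_HBC hi ht
      exact ⟨fun h hh => Subgroup.mul_mem _ (Subgroup.mul_mem _ hm hh) (Subgroup.inv_mem _ hm),
        fun h hh => Subgroup.mul_mem _ (Subgroup.mul_mem _ (Subgroup.inv_mem _ hm) hh) hm⟩
    · exact ⟨fun h hh => G.nB_conj_HBC hi hh, fun h hh => G.nB_inv_conj_HBC hi hh⟩
  · exact ⟨fun h hh => by simpa using hh, fun h hh => by simpa using hh⟩
  · rintro a b _ _ ⟨h1, h2⟩ ⟨h3, h4⟩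
    refine ⟨fun h hh => ?_, fun h hh => ?_⟩
    · have e : a * b * h * (a * b)⁻¹ = a * (b * h * b⁻¹) * a⁻¹ := by group
      rw [e]
      exact h1 _ (h3 _ hh)
    · have e : (a * b)⁻¹ * h * (a * b) = b⁻¹ * (a⁻¹ * h * a) * b := by group
      rw [e]
      exact h4 _ (h2 _ hh)
  · rintro a _ ⟨h1, h2⟩
    exact ⟨fun h hh => by simpa using h2 h hh, fun h hh => by simpa using h1 h hh⟩

/-- The word `n̄_w`. -/
noncomputable def nBwC (D : ChevalleyDatum) (K : Type*) [Field K] (l : List (Fin D.rank)) : D.SteinbergCover K :=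
  (l.map fun i => nBC D K (D.simple i) 1).prod

omit G in
@[simp] theorem nBw_nilC : nBwC D K [] = 1 := rfl

omit G in
@[simp] theorem nBw_consC (i : Fin D.rank) (l : List (Fin D.rank)) :
    nBwC D K (i :: l) = nBC D K (D.simple i) 1 * nBwC D K l := by
  simp [nBwC]

omit G in
theorem nBw_mem_NBC (l : List (Fin D.rank)) : nBwC D K l ∈ NBC D K := by
  induction l with
  | nil => exact Subgroup.one_mem _
  | cons i l ih =>
    rw [nBw_consC]
    exact Subgroup.mul_mem _ (nB_one_mem_NBC i.isLt) ih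

/-- Elements of `N̄`. -/
theorem NB_formC {ν : D.SteinbergCover K} (hν : ν ∈ NBC D K) : ∃ h ∈ HBC D K, ∃ l, ν = h * nBwC D K l := by
  have step : ∀ (i : Fin D.rank) (y : D.SteinbergCover K), (∃ h ∈ HBC D K, ∃ l, y = h * nBwC D K l) →
      ∃ h ∈ HBC D K, ∃ l, nBC D K (D.simple i) 1 * y = h * nBwC D K l := by
    rintro i y ⟨h, hh, l, rfl⟩
    refine ⟨nBC D K (D.simple i) 1 * h * (nBC D K (D.simple i) 1)⁻¹, G.nB_conj_HBC i.isLt hh, i :: l, ?_⟩
    rw [nBw_consC]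
    group
  refine Subgroup.closure_induction_left (p := fun ν _ => ∃ h ∈ HBC D K, ∃ l, ν = h * nBwC D K l) ?_ ?_ ?_ hν
  · exact ⟨1, Subgroup.one_mem _, [], by simp⟩
  · rintro x (⟨i, t, hi, ht, rfl⟩ | ⟨i, hi, rfl⟩) y _ ⟨h, hh, l, rfl⟩
    · exact ⟨hBC D K (D.simple i) t * h, Subgroup.mul_mem _ (hB_mem_HBC hi ht) hh, l, by group⟩
    · exact step ⟨i, hi⟩ _ ⟨h, hh, l, rfl⟩
  · rintro x (⟨i, t, hi, ht, rfl⟩ | ⟨i, hi, rfl⟩) y _ ⟨h, hh, l, rfl⟩
    · exact ⟨(hBC D K (D.simple i) t)⁻¹ * h, Subgroup.mul_mem _ (Subgroup.inv_mem _ (hB_mem_HBC hi ht)) hh, l, by group⟩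
    · have hp := G.simple_lt hi
      rw [nB_inv_eqC hp (G.neg_lt hp), mul_assoc]
      obtain ⟨h1, hh1, l1, e⟩ := step ⟨i, hi⟩ _ ⟨h, hh, l, rfl⟩
      refine ⟨hBC D K (D.simple i) (-1) * h1, Subgroup.mul_mem _ (hB_mem_HBC hi (by simp)) hh1, l1, ?_⟩
      rw [mul_assoc, ← e]

/-- `Ū` is `Ū_i` times the root group of `p_i`. -/
theorem UB_decompC {i : ℕ} (hi : i < D.rank) {u : D.SteinbergCover K} (hu : u ∈ UBC D K) :
    ∃ u' ∈ rBC D K (QP D i), ∃ t : K, u = u' * D.scGen K (D.simple i) t := by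
  have hp := G.simple_lt hi
  have hNp := G.simple_pos hi
  refine Subgroup.closure_induction_right (p := fun u _ => ∃ u' ∈ rBC D K (QP D i), ∃ t : K, u = u' * D.scGen K (D.simple i) t) ?_ ?_ ?_ hu
  · exact ⟨1, Subgroup.one_mem _, 0, by simp [Good2.stGen_zeroC hp]⟩
  · rintro y _ x ⟨r, a, h1, h2, rfl⟩ ⟨u', hu', t, rfl⟩
    by_cases hr : r = D.simple i
    · subst hr
      exact ⟨u', hu', t + a, by rw [mul_assoc, stGen_R1C hp]⟩
    · have hQ := G.QP_of h2 h1 hr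
      refine ⟨u' * (D.scGen K (D.simple i) t * D.scGen K r a * (D.scGen K (D.simple i) t)⁻¹),
        Subgroup.mul_mem _ hu' (G.xp_conjBC hi h2 hQ t a), t, by group⟩
  · rintro y _ x ⟨r, a, h1, h2, rfl⟩ ⟨u', hu', t, rfl⟩
    rw [Good2.stGen_invC h2]
    by_cases hr : r = D.simple i
    · subst hr
      exact ⟨u', hu', t + -a, by rw [mul_assoc, stGen_R1C hp]⟩
    · have hQ := G.QP_of h2 h1 hr
      refine ⟨u' * (D.scGen K (D.simple i) t * D.scGen K r (-a) * (D.scGen K (D.simple i) t)⁻¹),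
        Subgroup.mul_mem _ hu' (G.xp_conjBC hi h2 hQ t _), t, by group⟩

/-- `n̄_i` normalises `Ū_i`. -/
theorem nB_conj_QPC {i : ℕ} (hi : i < D.rank) {g : D.SteinbergCover K} (hg : g ∈ rBC D K (QP D i)) :
    nBC D K (D.simple i) 1 * g * (nBC D K (D.simple i) 1)⁻¹ ∈ rBC D K (QP D i) := by
  refine G.conj_rB_ofC (fun s hs hQ u => ?_) hg
  rw [G.nB_conjC hi hs]
  exact gen_mem_rBC (G.QP_WC hi hQ) (G.W_lt hi hs) _

omit G in
theorem rB_QP_le_UBC {i : ℕ} (G : Good5 D) : rBC D K (QP D i) ≤ UBC D K :=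
  rB_monoC fun r hr => (G.pos_iff hr.1.1).mp hr.1

/-- `H̄` normalises `Ū`. -/
theorem HB_conj_UBC {h u : D.SteinbergCover K} (hh : h ∈ HBC D K) (hu : u ∈ UBC D K) : h * u * h⁻¹ ∈ UBC D K := by
  obtain ⟨χ, h1, h2⟩ := G.HB_le_actBC hh
  refine rB_inductionC (P := (NN D ≤ ·)) (Q := fun u => h * u * h⁻¹ ∈ UBC D K) ?_ ?_ ?_ u hu
  · simp [Subgroup.one_mem]
  · intro a b ha hb
    have e : h * (a * b) * h⁻¹ = (h * a * h⁻¹) * (h * b * h⁻¹) := by group
    rw [e]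
    exact Subgroup.mul_mem _ ha hb
  · intro r t h3 h4
    rw [h2 r h4]
    exact gen_mem_rBC h3 h4 _

/-- The Bruhat set. -/
def BSC (D : ChevalleyDatum) (K : Type*) [Field K] : Set (D.SteinbergCover K) :=
  {g | ∃ u₁ ∈ UBC D K, ∃ ν ∈ NBC D K, ∃ u₂ ∈ UBC D K, g = u₁ * ν * u₂}

omit G in
theorem one_mem_BSC : (1 : D.SteinbergCover K) ∈ BSC D K :=
  ⟨1, Subgroup.one_mem _, 1, Subgroup.one_mem _, 1, Subgroup.one_mem _, by simp⟩

omit G in
theorem BS_UC {u g : D.SteinbergCover K} (hu : u ∈ UBC D K) (hg : g ∈ BSC D K) : u * g ∈ BSC D K := by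
  obtain ⟨u₁, h1, ν, h2, u₂, h3, rfl⟩ := hg
  exact ⟨u * u₁, Subgroup.mul_mem _ hu h1, ν, h2, u₂, h3, by group⟩

theorem BS_HC {h g : D.SteinbergCover K} (hh : h ∈ HBC D K) (hg : g ∈ BSC D K) : h * g ∈ BSC D K := by
  obtain ⟨u₁, h1, ν, h2, u₂, h3, rfl⟩ := hg
  exact ⟨h * u₁ * h⁻¹, G.HB_conj_UBC hh h1, h * ν, Subgroup.mul_mem _ (HB_le_NBC hh) h2, u₂, h3, by group⟩

/-- The crucial step of the Bruhat decomposition. -/
theorem BS_n_stepC {i : ℕ} (hi : i < D.rank) (t : K) {ν u : D.SteinbergCover K} (hν : ν ∈ NBC D K) (hu : u ∈ UBC D K) :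
    nBC D K (D.simple i) 1 * D.scGen K (D.simple i) t * ν * u ∈ BSC D K := by
  have hp := G.simple_lt hi
  have hNp := G.simple_pos hi
  have hnp := G.neg_lt hp
  obtain ⟨π, c, h1, h2, h3⟩ := G.NB_le_monoBC hν
  set pf : Fin D.nroots := ⟨D.simple i, hp⟩ with hpf
  set q : Fin D.nroots := π⁻¹ pf with hq
  have hπq : π q = pf := by simp [hq]
  have hq' : π (G.nf q) = G.nf pf := by rw [h2, hπq]
  -- moving root elements of `±p` through `ν`
  have m1 : ∀ a : K, D.scGen K (D.simple i) a * ν = ν * D.scGen K q ((c q)⁻¹ * a) := by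
    intro a
    have := h3 q ((c q)⁻¹ * a)
    rw [← mul_assoc, mul_inv_cancel₀ (h1 _), one_mul, hπq] at this
    rw [show ((pf : Fin D.nroots) : ℕ) = D.simple i from rfl] at this
    rw [← this]
    group
  have m2 : ∀ a : K, D.scGen K (D.neg (D.simple i)) a * ν = ν * D.scGen K (G.nf q) ((c (G.nf q))⁻¹ * a) := by
    intro a
    have := h3 (G.nf q) ((c (G.nf q))⁻¹ * a)
    rw [← mul_assoc, mul_inv_cancel₀ (h1 _), one_mul, hq'] at this
    rw [show ((G.nf pf : Fin D.nroots) : ℕ) = D.neg (D.simple i) from rfl] at this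
    rw [← this]
    group
  by_cases hqpos : NN D ≤ (q : ℕ)
  · -- the easy case
    refine ⟨1, Subgroup.one_mem _, nBC D K (D.simple i) 1 * ν,
      Subgroup.mul_mem _ (nB_one_mem_NBC hi) hν, D.scGen K q ((c q)⁻¹ * t) * u,
      Subgroup.mul_mem _ (gen_mem_rBC hqpos q.isLt _) hu, ?_⟩
    rw [mul_assoc (nBC D K (D.simple i) 1), m1]
    group
  by_cases ht : t = 0
  · subst ht
    rw [Good2.stGen_zeroC hp, mul_one]
    exact ⟨1, Subgroup.one_mem _, nBC D K (D.simple i) 1 * ν,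
      Subgroup.mul_mem _ (nB_one_mem_NBC hi) hν, u, hu, by simp⟩
  -- the other case
  have hSp := G.S_cases hi hp
  set S0 : K := ((G.S i (D.simple i) : ℤ) : K) with hS0
  have hS0sq : S0 * S0 = 1 := sign_sq hSp
  have hS0ne : S0 ≠ 0 := G.S_ne_zero hi hp
  set v : K := S0 * t with hv
  have hvne : v ≠ 0 := mul_ne_zero hS0ne ht
  -- `n̄_i x̄_p(t) n̄_i⁻¹ = x̄_{-p}(v)`
  have e1 : nBC D K (D.simple i) 1 * D.scGen K (D.simple i) t = D.scGen K (D.neg (D.simple i)) v * nBC D K (D.simple i) 1 := by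
    have := G.nB_conjC hi hp t
    rw [G.W_simple hi] at this
    rw [← hv] at this
    rw [← this]
    group
  -- `x̄_{-p}(v) = x̄_p(1/v) n̄_p(-1/v) x̄_p(1/v)`
  have e2 : D.scGen K (D.neg (D.simple i)) v = D.scGen K (D.simple i) v⁻¹ * nBC D K (D.simple i) (-v⁻¹) * D.scGen K (D.simple i) v⁻¹ := by
    rw [nB_eqC]
    simp only [inv_neg, inv_inv, neg_neg]
    rw [← Good2.stGen_invC hp]
    group
  -- `x̄_p(w) n̄_i = n̄_i x̄_{-p}(w')`
  have hSn := G.S_neg hi hp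
  have e3 : ∀ w : K, D.scGen K (D.simple i) w * nBC D K (D.simple i) 1 = nBC D K (D.simple i) 1 * D.scGen K (D.neg (D.simple i)) (S0 * w) := by
    intro w
    have := G.nB_conjC hi hnp (S0 * w)
    rw [G.W_neg hi hp, G.W_simple hi, G.neg_neg hp, hSn, ← mul_assoc, hS0sq, one_mul] at this
    rw [← this]
    group
  have e4 : nBC D K (D.simple i) (-v⁻¹) = hBC D K (D.simple i) (-v⁻¹) * nBC D K (D.simple i) 1 := nB_eq_hBC hp hnp _
  have hnegq : NN D ≤ ((G.nf q : Fin D.nroots) : ℕ) := by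
    have h5 : ¬ (NN D ≤ (q : ℕ)) := hqpos
    have h6 := G.neg_eq q.isLt
    have h7 := G.n_even
    show D.nroots / 2 ≤ D.neg q
    rw [h6]
    have h8 : (q : ℕ) < D.nroots / 2 := by
      have : ¬ (D.nroots / 2 ≤ (q : ℕ)) := h5
      omega
    omega
  refine ⟨D.scGen K (D.simple i) v⁻¹, gen_mem_rBC hNp hp _,
    hBC D K (D.simple i) (-v⁻¹) * (nBC D K (D.simple i) 1 * nBC D K (D.simple i) 1) * ν,
    Subgroup.mul_mem _ (Subgroup.mul_mem _ (HB_le_NBC (hB_mem_HBC hi (neg_ne_zero.mpr (inv_ne_zero hvne))))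
      (Subgroup.mul_mem _ (nB_one_mem_NBC hi) (nB_one_mem_NBC hi))) hν,
    D.scGen K (G.nf q) ((c (G.nf q))⁻¹ * (S0 * v⁻¹)) * u, Subgroup.mul_mem _ (gen_mem_rBC hnegq (G.nf q).isLt _) hu, ?_⟩
  rw [e1, e2, e4]
  calc D.scGen K (D.simple i) v⁻¹ * (hBC D K (D.simple i) (-v⁻¹) * nBC D K (D.simple i) 1) * D.scGen K (D.simple i) v⁻¹ * nBC D K (D.simple i) 1 * ν * u
      = D.scGen K (D.simple i) v⁻¹ * (hBC D K (D.simple i) (-v⁻¹) * nBC D K (D.simple i) 1) * (D.scGen K (D.simple i) v⁻¹ * nBC D K (D.simple i) 1) * ν * u := by group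
    _ = D.scGen K (D.simple i) v⁻¹ * (hBC D K (D.simple i) (-v⁻¹) * nBC D K (D.simple i) 1) * (nBC D K (D.simple i) 1 * D.scGen K (D.neg (D.simple i)) (S0 * v⁻¹)) * ν * u := by rw [e3]
    _ = D.scGen K (D.simple i) v⁻¹ * (hBC D K (D.simple i) (-v⁻¹) * nBC D K (D.simple i) 1) * nBC D K (D.simple i) 1 * (D.scGen K (D.neg (D.simple i)) (S0 * v⁻¹) * ν) * u := by group
    _ = _ := by rw [m2]; group

theorem BS_nC {i : ℕ} (hi : i < D.rank) {g : D.SteinbergCover K} (hg : g ∈ BSC D K) :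
    nBC D K (D.simple i) 1 * g ∈ BSC D K := by
  obtain ⟨u₁, h1, ν, h2, u₂, h3, rfl⟩ := hg
  obtain ⟨u', hu', t, rfl⟩ := G.UB_decompC hi h1
  have h4 := G.BS_n_stepC hi t h2 h3
  have h5 := G.nB_conj_QPC hi hu'
  have e : nBC D K (D.simple i) 1 * (u' * D.scGen K (D.simple i) t * ν * u₂) =
      (nBC D K (D.simple i) 1 * u' * (nBC D K (D.simple i) 1)⁻¹) * (nBC D K (D.simple i) 1 * D.scGen K (D.simple i) t * ν * u₂) := by group
  rw [e]
  exact BS_UC (rB_QP_le_UBC G h5) h4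

/-- The left stabiliser of the Bruhat set. -/
def BSstabC (D : ChevalleyDatum) (K : Type*) [Field K] : Subgroup (D.SteinbergCover K) where
  carrier := {y | (∀ g ∈ BSC D K, y * g ∈ BSC D K) ∧ (∀ g ∈ BSC D K, y⁻¹ * g ∈ BSC D K)}
  one_mem' := ⟨fun g hg => by simpa using hg, fun g hg => by simpa using hg⟩
  mul_mem' := by
    rintro a b ⟨h1, h2⟩ ⟨h3, h4⟩
    refine ⟨fun g hg => ?_, fun g hg => ?_⟩
    · rw [mul_assoc]
      exact h1 _ (h3 _ hg)
    · rw [_root_.mul_inv_rev, mul_assoc]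
      exact h4 _ (h2 _ hg)
  inv_mem' := by
    rintro a ⟨h1, h2⟩
    exact ⟨h2, fun g hg => by simpa using h1 g hg⟩

theorem hB_mem_BSstabC {i : ℕ} (hi : i < D.rank) {t : K} (ht : t ≠ 0) : hBC D K (D.simple i) t ∈ BSstabC D K := by
  have hm := hB_mem_HBC hi ht
  exact ⟨fun g hg => G.BS_HC hm hg, fun g hg => G.BS_HC (Subgroup.inv_mem _ hm) hg⟩

theorem nB_mem_BSstabC {i : ℕ} (hi : i < D.rank) : nBC D K (D.simple i) 1 ∈ BSstabC D K := by
  have hp := G.simple_lt hi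
  refine ⟨fun g hg => G.BS_nC hi hg, fun g hg => ?_⟩
  rw [nB_inv_eqC hp (G.neg_lt hp), mul_assoc]
  exact G.BS_HC (hB_mem_HBC hi (by simp)) (G.BS_nC hi hg)

/-- The Bruhat decomposition of the presented group. -/
theorem BS_allC (g : D.SteinbergCover K) : g ∈ BSC D K := by
  have hpos : ∀ r (t : K), r < D.nroots → NN D ≤ r → D.scGen K r t ∈ BSstabC D K := by
    intro r t hr hN
    have hm : D.scGen K r t ∈ UBC D K := gen_mem_rBC hN hr t
    exact ⟨fun g hg => BS_UC hm hg, fun g hg => BS_UC (Subgroup.inv_mem _ hm) hg⟩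
  have hconj : ∀ i r (t : K), i < D.rank → r < D.nroots → (∀ t : K, D.scGen K r t ∈ BSstabC D K) →
      D.scGen K (G.W i r) t ∈ BSstabC D K := by
    intro i r t hi hr h
    have e := G.nB_conjC hi hr (((G.S i r : ℤ) : K) * t)
    rw [← mul_assoc, sign_sq (G.S_cases hi hr), one_mul] at e
    rw [← e]
    have hm := G.nB_mem_BSstabC (K := K) hi
    exact Subgroup.mul_mem _ (Subgroup.mul_mem _ hm (h _)) (Subgroup.inv_mem _ hm)
  have hneg : ∀ v, v < D.nroots → NN D ≤ v → ∀ t : K, D.scGen K (D.neg v) t ∈ BSstabC D K := by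
    refine G.pos_induct ?_ ?_
    · intro i hi t
      have hp := G.simple_lt hi
      have := hconj i (D.simple i) t hi hp (fun t => hpos _ t hp (G.simple_pos hi))
      rwa [G.W_simple hi] at this
    · intro i v hi hv hN hN' hlt h t
      have hnW := G.neg_lt (G.W_lt hi hv)
      have := hconj i (D.neg (G.W i v)) t hi hnW h
      rwa [G.W_neg hi (G.W_lt hi hv), G.W_W hi hv] at this
  have hall : ∀ r (t : K), r < D.nroots → D.scGen K r t ∈ BSstabC D K := by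
    intro r t hr
    by_cases hN : NN D ≤ r
    · exact hpos r t hr hN
    · have hn := G.neg_lt hr
      have h5 : NN D ≤ D.neg r := by
        rw [G.neg_eq hr]
        have := G.n_even
        show D.nroots / 2 ≤ D.nroots - 1 - r
        have h2 : r < D.nroots / 2 := by
          have : ¬ (D.nroots / 2 ≤ r) := hN
          omega
        omega
      have := hneg _ hn h5 t
      rwa [G.neg_neg hr] at this
  have htop : BSstabC D K = ⊤ := by
    rw [eq_top_iff, ← PresentedGroup.closure_range_of (D.steinbergRelsAB K)]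
    apply (Subgroup.closure_le _).mpr
    rintro _ ⟨x, rfl⟩
    rw [of_eq_stGenC]
    exact hall x.1 x.2 x.1.isLt
  have h1 : g ∈ BSstabC D K := by
    rw [htop]
    trivial
  have := h1.1 1 one_mem_BSC
  simpa using this

end Good5

end Cfsg.Agent.Lib.Chev
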