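import Cfsg.Agent.Lib.Chev.Cov.Stein4
import Cfsg.Agent.Lib.Chev.Long

/-!
Steinberg's presentation: the kernel of the map onto the Chevalley group.
-/

set_option autoImplicit false
set_option linter.unusedSimpArgs false
set_option linter.unusedVariables false
set_option linter.unusedSectionVars false

namespace Cfsg.Agent.Lib.Chev

open Cfsg Cfsg.Lie
open Good2 (rBC gen_mem_rBC rB_leC rB_inductionC rB_monoC wB_memC NN)

variable {D : ChevalleyDatum} {K : Type*} [Field K]

namespace Good5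

variable (G : Good5 D)
include G

/-- Conjugating `n̄_r(t)` by `n̄_i`. -/
theorem nB_conj_nC {i : ℕ} (hi : i < D.rank) {r : ℕ} (hr : r < D.nroots) (t : K) :
    nBC D K (D.simple i) 1 * nBC D K r t * (nBC D K (D.simple i) 1)⁻¹ = nBC D K (G.W i r) (((G.S i r : ℤ) : K) * t) := by
  set y := nBC D K (D.simple i) 1 with hy
  have hn := G.neg_lt hr
  have hS := sign_sq (F := K) (G.S_cases hi hr)
  have e : y * (D.scGen K r t * D.scGen K (D.neg r) (-t⁻¹) * D.scGen K r t) * y⁻¹ =
      (y * D.scGen K r t * y⁻¹) * (y * D.scGen K (D.neg r) (-t⁻¹) * y⁻¹) * (y * D.scGen K r t * y⁻¹) := by group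
  rw [nB_eqC, e, nB_eqC, hy, G.nB_conjC hi hr, G.nB_conjC hi hn, G.W_neg hi hr, G.S_neg hi hr]
  congr 3
  have hS2 : (((G.S i r : ℤ) : K))⁻¹ = ((G.S i r : ℤ) : K) := inv_eq_of_mul_eq_one_left hS
  rw [mul_inv, hS2]
  ring

/-- Conjugating `n̄_r(t)` by `n̄_A`. -/
theorem nBw_conj_nC (A : List (Fin D.rank)) (r : Fin D.nroots) (t : K) :
    ∃ e : K, (e = 1 ∨ e = -1) ∧
      nBwC D K A * nBC D K r t * (nBwC D K A)⁻¹ = nBC D K (G.toGood2.pp A r) (e * t) := by
  induction A generalizing t with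
  | nil => exact ⟨1, Or.inl rfl, by simp⟩
  | cons i A ih =>
    obtain ⟨e, he, h⟩ := ih t
    refine ⟨((G.S i (G.toGood2.pp A r) : ℤ) : K) * e, ?_, ?_⟩
    · rcases G.S_cases i.isLt (G.toGood2.pp A r).isLt with h1 | h1 <;> rcases he with rfl | rfl <;> simp [h1]
    · rw [nBw_consC, G.toGood2.pp_cons, Equiv.Perm.mul_apply, G.toGood2.Wp_val, mul_assoc _ e t, ← G.nB_conj_nC i.isLt (G.toGood2.pp A r).isLt, ← h]
      group

/-- What the braid data gives in the presented group. -/
theorem nBw_braidC {A : List (Fin D.rank)} {x j : Fin D.rank} (h : G.toGood2.pp A (G.ps x) = G.ps j) :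
    ∃ h' ∈ HBC D K, nBwC D K A * nBC D K (D.simple x) 1 = h' * nBC D K (D.simple j) 1 * nBwC D K A := by
  obtain ⟨e, he, h1⟩ := G.nBw_conj_nC (K := K) A (G.ps x) 1
  rw [h, G.ps_val, G.ps_val, mul_one] at h1
  have hj := G.simple_lt j.isLt
  have he0 : e ≠ 0 := by
    rcases he with rfl | rfl <;> simp
  rw [nB_eq_hBC hj (G.neg_lt hj)] at h1
  refine ⟨hBC D K (D.simple j) e, hB_mem_HBC j.isLt he0, ?_⟩
  rw [← h1]
  group

omit G in
theorem HB_normal_auxC (G : Good5 D) : ((HBC D K).subgroupOf (NBC D K)).Normal := by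
  constructor
  intro a ha b
  rw [Subgroup.mem_subgroupOf] at ha ⊢
  exact G.NB_conj_HBC b.2 _ ha

omit G in
theorem algebra_braidC {Q : Type*} [Group Q] (a b : Q) (ha : a * a = 1) (hb : b * b = 1) (m : ℕ)
    (hm : m = 2 ∨ m = 3 ∨ m = 4 ∨ m = 6)
    (h2 : m = 2 → a * b = b * a)
    (h3 : m = 3 → a * (b * a) = b * (a * b))
    (h4 : m = 4 → a * (b * (a * b)) = b * (a * (b * a)))
    (h6 : m = 6 → a * (b * (a * (b * (a * b)))) = b * (a * (b * (a * (b * a))))) :
    (a * b) ^ m = 1 := by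
  have ha2 : ∀ x, a * (a * x) = x := fun x => by rw [← mul_assoc, ha, one_mul]
  have hb2 : ∀ x, b * (b * x) = x := fun x => by rw [← mul_assoc, hb, one_mul]
  rcases hm with rfl | rfl | rfl | rfl
  · have hh : ∀ y, a * (b * y) = b * (a * y) := fun y => by
      rw [← mul_assoc, h2 rfl, mul_assoc]
    simp only [pow_succ, pow_zero, one_mul, mul_assoc, hh, ha2, hb2, hb]
  · have hh : ∀ y, a * (b * (a * y)) = b * (a * (b * y)) := fun y => by
      have := congrArg (· * y) (h3 rfl)
      simpa only [mul_assoc] using this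
    simp only [pow_succ, pow_zero, one_mul, mul_assoc, hh, ha2, hb2, hb]
  · have hh : ∀ y, a * (b * (a * (b * y))) = b * (a * (b * (a * y))) := fun y => by
      have := congrArg (· * y) (h4 rfl)
      simpa only [mul_assoc] using this
    simp only [pow_succ, pow_zero, one_mul, mul_assoc, hh, ha2, hb2, hb]
  · have hh : ∀ y, a * (b * (a * (b * (a * (b * y))))) = b * (a * (b * (a * (b * (a * y))))) := fun y => by
      have := congrArg (· * y) (h6 rfl)
      simpa only [mul_assoc] using this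
    simp only [pow_succ, pow_zero, one_mul, mul_assoc, hh, ha2, hb2, hb]

/-- Words in the Weyl group which are trivial give elements of `H̄`. -/
theorem nBw_mem_HBC (M : CoxeterMatrix (Fin D.rank)) (hM : ∀ i j : Fin D.rank, G.cm i j = M i j)
    (l : List (Fin D.rank)) (h : G.toGood2.pp l = 1) : nBwC D K l ∈ HBC D K := by
  haveI hN := HB_normal_auxC (K := K) G
  let φ := QuotientGroup.mk' ((HBC D K).subgroupOf (NBC D K))
  let qw : List (Fin D.rank) → NBC D K ⧸ ((HBC D K).subgroupOf (NBC D K)) := fun l => φ ⟨nBwC D K l, nBw_mem_NBC l⟩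
  let f : Fin D.rank → NBC D K ⧸ ((HBC D K).subgroupOf (NBC D K)) := fun i => φ ⟨nBC D K (D.simple i) 1, nB_one_mem_NBC i.isLt⟩
  have qw_cons : ∀ i l, qw (i :: l) = f i * qw l := by
    intro i l
    show φ _ = φ _ * φ _
    rw [← map_mul]
    refine congrArg φ (Subtype.ext (nBw_consC i l))
  have qw_nil : qw [] = 1 := by
    show φ _ = 1
    have : (⟨nBwC D K [], nBw_mem_NBC []⟩ : NBC D K) = 1 := rfl
    rw [this, map_one]
  have hH : ∀ (h' : D.SteinbergCover K) (hh : h' ∈ HBC D K), φ ⟨h', HB_le_NBC hh⟩ = 1 := by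
    intro h' hh
    rw [QuotientGroup.mk'_apply, QuotientGroup.eq_one_iff, Subgroup.mem_subgroupOf]
    exact hh
  have hff : ∀ i, f i * f i = 1 := by
    intro i
    have hp := G.simple_lt i.isLt
    have e : f i * f i = (φ ⟨_, HB_le_NBC (hB_mem_HBC (K := K) i.isLt (t := -1) (by simp))⟩)⁻¹ := by
      show φ _ * φ _ = _
      rw [← map_mul, ← map_inv]
      congr 1
      apply Subtype.ext
      exact nB_sqC hp (G.neg_lt hp)
    rw [e, hH _ (hB_mem_HBC i.isLt (by simp)), inv_one]
  have hbr : ∀ (A : List (Fin D.rank)) (x j : Fin D.rank), G.toGood2.pp A (G.ps x) = G.ps j →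
      qw A * f x = f j * qw A := by
    intro A x j e
    obtain ⟨h', hh', e'⟩ := G.nBw_braidC (K := K) e
    show φ _ * φ _ = φ _ * φ _
    rw [← map_mul, ← map_mul]
    have e2 : (⟨nBwC D K A, nBw_mem_NBC A⟩ * ⟨nBC D K (D.simple x) 1, nB_one_mem_NBC x.isLt⟩ : NBC D K) =
        ⟨h', HB_le_NBC hh'⟩ * (⟨nBC D K (D.simple j) 1, nB_one_mem_NBC j.isLt⟩ * ⟨nBwC D K A, nBw_mem_NBC A⟩) := by
      apply Subtype.ext
      simp only [Subgroup.coe_mul]
      rw [e', mul_assoc]
    rw [e2, map_mul, hH _ hh', one_mul]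
  have hlift : M.IsLiftable f := by
    intro i j
    by_cases hij : i = j
    · subst hij
      rw [M.diagonal, pow_one, hff]
    · rw [← hM]
      have hb := G.braid i.isLt j.isLt (fun e => hij (Fin.ext e))
      have hb2 := hb.2
      refine algebra_braidC (f i) (f j) (hff i) (hff j) _ hb.1 ?_ ?_ ?_ ?_
      · intro hm
        rw [hm] at hb2
        have := hbr [i] j j (Fin.ext (by simpa [altW, ppT] using hb2))
        simpa only [qw_cons, qw_nil, mul_one, mul_assoc] using this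
      · intro hm
        rw [hm] at hb2
        have := hbr [i, j] i j (Fin.ext (by simpa [altW, ppT] using hb2))
        simpa only [qw_cons, qw_nil, mul_one, mul_assoc] using this
      · intro hm
        rw [hm] at hb2
        have := hbr [i, j, i] j j (Fin.ext (by simpa [altW, ppT] using hb2))
        simpa only [qw_cons, qw_nil, mul_one, mul_assoc] using this
      · intro hm
        rw [hm] at hb2
        have := hbr [i, j, i, j, i] j j (Fin.ext (by simpa [altW, ppT] using hb2))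
        simpa only [qw_cons, qw_nil, mul_one, mul_assoc] using this
  let L := M.toCoxeterSystem.lift ⟨f, hlift⟩
  have hL : ∀ l : List (Fin D.rank), L (l.map M.simple).prod = qw l := by
    intro l
    induction l with
    | nil => simp [qw_nil]
    | cons i l ih =>
      rw [List.map_cons, List.prod_cons, map_mul, ih, qw_cons]
      congr 1
      exact M.toCoxeterSystem.lift_apply_simple _ i
  obtain ⟨e, he⟩ := G.weyl_equiv M hM
  have hval : ∀ l : List (Fin D.rank), ((e (l.map M.simple).prod : G.toGood2.WP) : Equiv.Perm (Fin D.nroots)) = G.toGood2.pp l := by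
    intro l
    induction l with
    | nil => simp [Good2.pp]
    | cons a l ih =>
      rw [List.map_cons, List.prod_cons, map_mul, Subgroup.coe_mul, ih, he, G.toGood2.pp_cons]
      rfl
  have h1 : (l.map M.simple).prod = 1 := by
    apply e.injective
    rw [map_one]
    apply Subtype.ext
    rw [hval, h]
    rfl
  have h2 : qw l = 1 := by
    rw [← hL, h1, map_one]
  have h3 : (⟨nBwC D K l, nBw_mem_NBC l⟩ : NBC D K) ∈ (HBC D K).subgroupOf (NBC D K) := by
    have : ((⟨nBwC D K l, nBw_mem_NBC l⟩ : NBC D K) : NBC D K ⧸ ((HBC D K).subgroupOf (NBC D K))) = 1 := h2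
    rwa [QuotientGroup.eq_one_iff] at this
  exact Subgroup.mem_subgroupOf.mp h3

theorem theta_UBC {u : D.SteinbergCover K} (hu : u ∈ UBC D K) : G.thetaGC u ∈ D.posUnipotent K := by
  refine rB_inductionC (P := (NN D ≤ ·)) (Q := fun u => G.thetaGC u ∈ D.posUnipotent K) ?_ ?_ ?_ u hu
  · simp [Subgroup.one_mem]
  · intro a b ha hb
    rw [map_mul]
    exact Subgroup.mul_mem _ ha hb
  · intro r t h1 h2
    rw [G.thetaG_genC, G.xgt_ofC h2]
    exact G.xg_mem h2 ((G.pos_iff h2).mpr h1) t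

theorem theta_hB'C {i : ℕ} (hi : i < D.rank) {t : K} (ht : t ≠ 0) :
    G.thetaGC (hBC D K (D.simple i) t) = G.toGood2.hG (G.simple_lt hi) ht := by
  apply Units.ext
  rw [G.theta_hBC]
  exact (G.toGood2.hG_val (G.simple_lt hi) ht).symm

theorem theta_nB'C {i : ℕ} (hi : i < D.rank) :
    G.thetaGC (nBC D K (D.simple i) 1) = G.toGood2.nG ⟨i, hi⟩ :=
  Units.ext (G.theta_nBC _ 1)

theorem theta_HBC {h : D.SteinbergCover K} (hh : h ∈ HBC D K) : G.thetaGC h ∈ D.diagonalSubgroup K := by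
  have : (HBC D K).map G.thetaGC ≤ D.diagonalSubgroup K := by
    rw [HBC, MonoidHom.map_closure]
    apply (Subgroup.closure_le _).mpr
    rintro _ ⟨_, ⟨i, t, hi, ht, rfl⟩, rfl⟩
    rw [G.theta_hB'C hi ht]
    exact G.toGood2.hG_mem _ _
  exact this ⟨h, hh, rfl⟩

theorem theta_NBC {ν : D.SteinbergCover K} (hν : ν ∈ NBC D K) : G.thetaGC ν ∈ G.toGood2.N0 K := by
  have : (NBC D K).map G.thetaGC ≤ G.toGood2.N0 K := by
    rw [NBC, MonoidHom.map_closure]
    apply (Subgroup.closure_le _).mpr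
    rintro _ ⟨_, (⟨i, t, hi, ht, rfl⟩ | ⟨i, hi, rfl⟩), rfl⟩
    · rw [G.theta_hB'C hi ht]
      exact G.toGood2.H_le_N0 (G.toGood2.hG_mem _ _)
    · rw [G.theta_nB'C hi]
      exact G.toGood2.nG_mem_N0 _
  exact this ⟨ν, hν, rfl⟩

theorem theta_nBwC (l : List (Fin D.rank)) : G.thetaGC (nBwC D K l) = G.toGood2.nw l := by
  induction l with
  | nil => simp
  | cons i l ih =>
    rw [nBw_consC, map_mul, ih, G.toGood2.nw_cons, G.theta_nB'C i.isLt]

/-- An element of `N̄` whose image is in `H` lies in `H̄`. -/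
theorem NB_of_thetaC (M : CoxeterMatrix (Fin D.rank)) (hM : ∀ i j : Fin D.rank, G.cm i j = M i j)
    {ν : D.SteinbergCover K} (hν : ν ∈ NBC D K) (h : G.thetaGC ν ∈ D.diagonalSubgroup K) : ν ∈ HBC D K := by
  obtain ⟨h', hh', l, rfl⟩ := G.NB_formC hν
  rw [map_mul, G.theta_nBwC] at h
  have h1 : G.toGood2.nw l ∈ D.diagonalSubgroup K := by
    have := Subgroup.mul_mem _ (Subgroup.inv_mem _ (G.theta_HBC hh')) h
    simpa using this
  have h2 : G.toGood2.pp l = 1 := (G.toGood2.nw_isMono (F := K) l).uniq (G.toGood2.H_isMono h1)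
  exact Subgroup.mul_mem _ hh' (G.nBw_mem_HBC M hM l h2)

/-- The kernel of the map onto the Chevalley group lies in `H̄`. -/
theorem ker_le_HBC (M : CoxeterMatrix (Fin D.rank)) (hM : ∀ i j : Fin D.rank, G.cm i j = M i j)
    {z : D.SteinbergCover K} (hz : G.thetaGC z = 1) : z ∈ HBC D K := by
  obtain ⟨u₁, h1, ν, h2, u₂, h3, rfl⟩ := G.BS_allC z
  rw [map_mul, map_mul] at hz
  have hU1 := G.theta_UBC h1
  have hU2 := G.theta_UBC h3
  have hBC : G.thetaGC ν ∈ D.borelSubgroup K := by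
    have e : G.thetaGC ν = (G.thetaGC u₁)⁻¹ * (G.thetaGC u₂)⁻¹ := by
      calc G.thetaGC ν = (G.thetaGC u₁)⁻¹ * (G.thetaGC u₁ * G.thetaGC ν * G.thetaGC u₂) * (G.thetaGC u₂)⁻¹ := by group
        _ = _ := by rw [hz]; group
    rw [e]
    exact Subgroup.mem_sup_left (Subgroup.mul_mem _ (Subgroup.inv_mem _ hU1) (Subgroup.inv_mem _ hU2))
  have hH : G.thetaGC ν ∈ D.diagonalSubgroup K := by
    rw [← G.toGood2.B_inf_N0]
    exact ⟨hBC, G.theta_NBC h2⟩
  have hνH := G.NB_of_thetaC M hM h2 hH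
  have hu' : ν⁻¹ * u₁ * ν ∈ UBC D K := by
    have := G.HB_conj_UBC (Subgroup.inv_mem _ hνH) h1
    simpa using this
  set ū := ν⁻¹ * u₁ * ν * u₂ with hū
  have hūU : ū ∈ UBC D K := Subgroup.mul_mem _ hu' h3
  have e1 : u₁ * ν * u₂ = ν * ū := by
    rw [hū]
    group
  have hθ : G.thetaGC ū = (G.thetaGC ν)⁻¹ := by
    apply eq_inv_of_mul_eq_one_right
    rw [← map_mul, ← e1, map_mul, map_mul, hz]
  have hθ1 : G.thetaGC ū = 1 := by
    have h4 : G.thetaGC ū ∈ D.posUnipotent K ⊓ D.diagonalSubgroup K :=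
      ⟨G.theta_UBC hūU, by rw [hθ]; exact Subgroup.inv_mem _ hH⟩
    rw [G.toGood2.U_inf_H] at h4
    exact h4
  have hū1 : ū = 1 := G.toGood2.theta_inj_posC hūU (Subgroup.one_mem _) (by rw [hθ1, map_one])
  rw [e1, hū1, mul_one]
  exact hνH

/-- Elements of the kernel are central. -/
theorem central_of_kerC {z : D.SteinbergCover K} (hh : z ∈ HBC D K) (hz : G.thetaGC z = 1) :
    z ∈ Subgroup.center (D.SteinbergCover K) := by
  obtain ⟨χ, h1, h2⟩ := G.HB_le_actBC hh
  have hχ : ∀ s, s < D.nroots → χ s = 1 := by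
    intro s hs
    have e := congrArg G.thetaGC (h2 s hs 1)
    rw [map_mul, map_mul, map_inv, hz, G.thetaG_genC, G.thetaG_genC, G.xgt_ofC hs, G.xgt_ofC hs] at e
    simp only [one_mul, inv_one, mul_one] at e
    have e2 : G.xg hs (1 - χ s) = 1 := by
      have h3 : G.xg hs (1 - χ s) = G.xg hs 1 * G.xg hs (-χ s) := by
        rw [G.xg_mul, sub_eq_add_neg]
      rw [h3, e, G.xg_mul, add_neg_cancel, G.xg_zero]
    have := G.toGood2.xg_eq_one hs e2
    linear_combination -this
  have hC : Subgroup.centralizer ({z} : Set (D.SteinbergCover K)) = ⊤ := by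
    rw [eq_top_iff, ← PresentedGroup.closure_range_of (D.steinbergRelsAB K)]
    apply (Subgroup.closure_le _).mpr
    rintro _ ⟨x, rfl⟩
    rw [of_eq_stGenC]
    have e := h2 x.1 x.1.isLt x.2
    rw [hχ x.1 x.1.isLt, one_mul, mul_inv_eq_iff_eq_mul] at e
    rw [SetLike.mem_coe, Subgroup.mem_centralizer_singleton_iff]
    exact e.symm
  rw [Subgroup.mem_center_iff]
  intro g
  have : g ∈ Subgroup.centralizer ({z} : Set (D.SteinbergCover K)) := by
    rw [hC]
    trivial
  rwa [Subgroup.mem_centralizer_singleton_iff] at this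

/-- The image of `θ` is the Chevalley group. -/
theorem theta_rangeC : G.thetaGC.range = (D.group K : Subgroup (GL D.Idx K)) := by
  apply le_antisymm
  · rw [MonoidHom.range_eq_map, ← PresentedGroup.closure_range_of (D.steinbergRelsAB K), MonoidHom.map_closure]
    apply (Subgroup.closure_le _).mpr
    rintro _ ⟨_, ⟨x, rfl⟩, rfl⟩
    rw [of_eq_stGenC, G.thetaG_genC, G.xgt_ofC x.1.isLt, group_eq_rG]
    exact G.xg_mem x.1.isLt x.1.isLt _
  · rw [group_eq_rG]
    apply G.rG_le (fun r h => h)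
    intro r hr t _
    exact ⟨D.scGen K r t, by rw [G.thetaG_genC, G.xgt_ofC hr]⟩

/-- Central elements are in the kernel. -/
theorem center_le_kerC {z : D.SteinbergCover K} (hz : z ∈ Subgroup.center (D.SteinbergCover K)) : G.thetaGC z = 1 := by
  have hmem : G.thetaGC z ∈ D.group K := by
    rw [← G.theta_rangeC]
    exact ⟨z, rfl⟩
  set g : ↥(D.group K) := ⟨G.thetaGC z, hmem⟩ with hg
  have hcomm : ∀ x : ↥(D.group K), x * g * x⁻¹ = g := by
    rintro ⟨x, hx⟩
    rw [← G.theta_rangeC] at hx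
    obtain ⟨y, rfl⟩ := hx
    apply Subtype.ext
    simp only [Subgroup.coe_mul, Subgroup.coe_inv, hg]
    rw [← map_inv, ← map_mul, ← map_mul]
    congr 1
    rw [mul_inv_eq_iff_eq_mul]
    exact (Subgroup.mem_center_iff.mp hz) y
  have hcomm2 : ∀ x : ↥(D.group K), g * x * g⁻¹ = x := by
    intro x
    have := hcomm x
    rw [mul_inv_eq_iff_eq_mul] at this ⊢
    exact this.symm
  have h1 : g ∈ Subgroup.normalizer ((G.toGood2.bnPair K).parabolic ∅ : Set ↥(D.group K)) := by
    rw [Subgroup.mem_normalizer_iff]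
    intro x
    rw [hcomm2]
  rw [Cfsg.Agent.Lib.BN.normalizer_parabolic] at h1
  have h2 : g ∈ (G.toGood2.bnPair K).B := by
    have e : (G.toGood2.bnPair K).parabolic ∅ = (G.toGood2.bnPair K).B := by
      simp [BNPair.parabolic]
    rwa [e] at h1
  have h3 : g ∈ ((D.borelSubgroup K).subgroupOf (D.group K)).normalCore := by
    intro x
    rw [hcomm x]
    exact h2
  rw [G.core_eq_bot, Subgroup.mem_bot] at h3
  exact congrArg Subtype.val h3

end Good5

end Cfsg.Agent.Lib.Chev
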