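import Cfsg.Agent.Lib.Chev.Cov.R3

/-!
Universality of the group presented by (R1), (R2) over fields with more than four elements: the field lemma,
commutators in central extensions, the canonical lifts of root elements.
-/

set_option autoImplicit false
set_option linter.unusedSimpArgs false
set_option linter.unusedVariables false
set_option linter.unusedSectionVars false

namespace Cfsg.Agent.Lib.CT

/-- An alternating biadditive form on a field invariant under all scalars vanishes. -/
theorem bil_zero {K : Type*} [Field K] {A : Type*} [AddCommGroup A] (hz : ∃ z : K, z ≠ 0 ∧ z ^ 3 ≠ 1)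
    (B : K → K → A) (h1 : ∀ t t' u, B (t + t') u = B t u + B t' u) (h2 : ∀ t u u', B t (u + u') = B t u + B t u')
    (h3 : ∀ t, B t t = 0) (h4 : ∀ d t u : K, d ≠ 0 → B (d * t) (d * u) = B t u) (t u : K) : B t u = 0 := by
  set f : K → A := fun x => B x 1 with hf
  have fadd : ∀ x y, f (x + y) = f x + f y := fun x y => h1 x y 1
  have f0 : f 0 = 0 := by
    have := fadd 0 0
    simpa using this
  have fneg : ∀ x, f (-x) = - f x := by
    intro x
    have := fadd x (-x)
    rw [add_neg_cancel, f0] at this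
    exact (neg_eq_of_add_eq_zero_right this.symm).symm
  have f1 : f 1 = 0 := h3 1
  have anti : ∀ a b, B a b = - B b a := by
    intro a b
    have := h3 (a + b)
    rw [h1, h2, h2, h3, h3] at this
    simp only [zero_add, add_zero] at this
    exact eq_neg_of_add_eq_zero_left this
  have hB : ∀ x y, y ≠ 0 → B x y = f (x / y) := by
    intro x y hy
    have := h4 y⁻¹ x y (inv_ne_zero hy)
    rw [inv_mul_cancel₀ hy] at this
    rw [← this]
    simp only [hf, div_eq_inv_mul]
  have finv : ∀ x, x ≠ 0 → f x⁻¹ = - f x := by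
    intro x hx
    have e1 : f x⁻¹ = B 1 x := by
      rw [hB 1 x hx]
      simp
    rw [e1, anti]
  have hsum : ∀ x, f (x ^ 2 + x) = 0 := by
    intro x
    by_cases hx : x = 0
    · subst hx
      simpa using f0
    by_cases hx1 : x + 1 = 0
    · have e : x ^ 2 + x = 0 := by
        have : x = -1 := by linear_combination hx1
        rw [this]
        ring
      rw [e, f0]
    have hne : x ^ 2 + x ≠ 0 := by
      have : x ^ 2 + x = x * (x + 1) := by ring
      rw [this]
      exact mul_ne_zero hx hx1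
    have e : (x ^ 2 + x)⁻¹ = x⁻¹ + -(x + 1)⁻¹ := by
      field_simp
      ring
    have e2 := finv _ hne
    rw [e, fadd, fneg, finv _ hx, finv _ hx1, fadd, f1] at e2
    simp only [neg_neg, add_zero, neg_add_cancel] at e2
    exact neg_eq_zero.mp e2.symm
  have hsq : ∀ x, f (x ^ 2) = - f x := by
    intro x
    have := hsum x
    rw [fadd] at this
    exact eq_neg_of_add_eq_zero_left this
  have h2f : ∀ x, f x + f x = 0 := by
    intro x
    have e1 := hsq (x + 1)
    have e2 : (x + 1) ^ 2 = x ^ 2 + (x + (x + 1)) := by ring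
    rw [e2, fadd, fadd, fadd, f1, hsq] at e1
    simp only [add_zero, neg_add_rev] at e1
    have e5 : - f x + (f x + f x) = f x := by abel
    rw [e5] at e1
    have e6 : f x - (- f x) = 0 := sub_eq_zero.mpr e1
    calc f x + f x = f x - (- f x) := by abel
      _ = 0 := e6
  have hf0 : ∀ x, f x = 0 := by
    by_cases h2 : (2 : K) = 0
    · obtain ⟨z, hz0, hz3⟩ := hz
      have hneg1 : (-1 : K) = 1 := by
        linear_combination -h2
      have key : ∀ d z : K, d ≠ 0 → z ≠ 0 → z ≠ 1 → f (d * z ^ 2) + f (d * z) = f d := by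
        intro d z hd hz0 hz1
        have hz1' : z + 1 ≠ 0 := by
          intro h
          apply hz1
          have : z = -1 := by linear_combination h
          rw [this, hneg1]
        set y := d * z with hy
        have hy0 : y ≠ 0 := mul_ne_zero hd hz0
        have hyd : y + d ≠ 0 := by
          have : y + d = d * (z + 1) := by rw [hy]; ring
          rw [this]
          exact mul_ne_zero hd hz1'
        set N := d * z ^ 2 + d * z with hN
        have hN0 : N ≠ 0 := by
          have : N = d * z * (z + 1) := by rw [hN]; ring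
          rw [this]
          exact mul_ne_zero hy0 hz1'
        have e : N⁻¹ = y⁻¹ + (y + d)⁻¹ := by
          have e0 : y + (y + d) = d := by
            have : y + (y + d) = 2 * y + d := by ring
            rw [this, h2]
            ring
          have e1 : N * y⁻¹ = z + 1 := by
            rw [hN, hy]
            field_simp
          have e2 : N * (y + d)⁻¹ = z := by
            have e3 : N = z * (y + d) := by
              rw [hN, hy]
              ring
            rw [e3]
            field_simp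
          have e4 : N * (y⁻¹ + (y + d)⁻¹) = 1 := by
            rw [mul_add, e1, e2]
            have : z + 1 + z = 2 * z + 1 := by ring
            rw [this, h2]
            ring
          exact inv_eq_of_mul_eq_one_right e4
        have e2 := finv N hN0
        rw [e, fadd, finv _ hy0, finv _ hyd, fadd] at e2
        have e3 : f N = f d := by
          have e4 := h2f y
          have e5 : - f y + - (f y + f d) = - f d - (f y + f y) := by abel
          rw [e5, e4, sub_zero] at e2
          exact (neg_injective e2).symm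
        rw [hN, fadd] at e3
        exact e3
      have hd3 : ∀ d : K, d ≠ 0 → f (d * z ^ 3) = f d := by
        intro d hd
        have hz1 : z ≠ 1 := by
          rintro rfl
          simp at hz3
        have e1 := key d z hd hz0 hz1
        have e2 := key (d * z) z (mul_ne_zero hd hz0) hz0 hz1
        have e3 : d * z * z ^ 2 = d * z ^ 3 := by ring
        have e4 : d * z * z = d * z ^ 2 := by ring
        rw [e3, e4] at e2
        have e5 := h2f (d * z ^ 2)
        calc f (d * z ^ 3) = (f (d * z ^ 3) + f (d * z ^ 2)) + f (d * z ^ 2) - (f (d * z ^ 2) + f (d * z ^ 2)) := by abel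
          _ = f (d * z) + f (d * z ^ 2) := by rw [e2, e5]; abel
          _ = f (d * z ^ 2) + f (d * z) := by abel
          _ = f d := e1
      intro x
      by_cases hx : x = 0
      · rw [hx, f0]
      have hz31 : z ^ 3 - 1 ≠ 0 := sub_ne_zero.mpr hz3
      set d := x / (z ^ 3 - 1) with hd
      have hd0 : d ≠ 0 := div_ne_zero hx hz31
      have e : x = d * z ^ 3 + -d := by
        have h5 : d * (z ^ 3 - 1) = x := div_mul_cancel₀ x hz31
        linear_combination -h5
      rw [e, fadd, fneg, hd3 d hd0]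
      abel
    · intro x
      have e : x = x / 2 + x / 2 := by
        field_simp
        ring
      rw [e, fadd, h2f]
  by_cases hu : u = 0
  · subst hu
    have := h2 t 0 0
    rw [add_zero] at this
    simpa using this
  · rw [hB t u hu, hf0]

/-- In a field with more than four elements, powers `t ^ m` are non-trivial for small `m`. -/
theorem exists_pow_ne {K : Type*} [Field K] (hK : ∃ s : Finset K, 4 < s.card) {m : ℕ} (hm : 0 < m) (hm3 : m ≤ 3) :
    ∃ t : K, t ≠ 0 ∧ t ^ m ≠ 1 := by
  classical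
  obtain ⟨s, hs⟩ := hK
  by_contra hcon
  push Not at hcon
  have h1 : s ⊆ insert 0 (Polynomial.nthRoots m (1 : K)).toFinset := by
    intro t _
    by_cases ht : t = 0
    · simp [ht]
    · apply Finset.mem_insert_of_mem
      rw [Multiset.mem_toFinset, Polynomial.mem_nthRoots hm]
      exact hcon t ht
  have h2 := Finset.card_le_card h1
  have h3 := Finset.card_insert_le (0 : K) (Polynomial.nthRoots m (1 : K)).toFinset
  have h4 := Multiset.toFinset_card_le (Polynomial.nthRoots m (1 : K))
  have h5 := Polynomial.card_nthRoots m (1 : K)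
  omega

/-- The same for integer exponents. -/
theorem exists_zpow_ne {K : Type*} [Field K] (hK : ∃ s : Finset K, 4 < s.card) {m : ℤ} (hm : m ≠ 0) (hm3 : m.natAbs ≤ 3) :
    ∃ t : K, t ≠ 0 ∧ t ^ m ≠ 1 := by
  obtain ⟨t, h0, h1⟩ := exists_pow_ne hK (m := m.natAbs) (by omega) hm3
  refine ⟨t, h0, ?_⟩
  rcases Int.natAbs_eq m with e | e
  · rw [e, zpow_natCast]
    exact h1
  · rw [e, zpow_neg, zpow_natCast]
    intro h
    exact h1 (inv_eq_one.mp h)

end Cfsg.Agent.Lib.CT

namespace Cfsg.Agent.Lib.Chev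

open Cfsg Cfsg.Lie Cfsg.Agent.Lib.CT

variable {D : ChevalleyDatum} {K : Type*} [Field K]

/-- An element of the cover acting on all root elements by scalars. -/
structure TA (D : ChevalleyDatum) (K : Type*) [Field K] (χ : ℕ → K) (y : D.SteinbergCover K) : Prop where
  ne : ∀ s, s < D.nroots → χ s ≠ 0
  act : ∀ s, s < D.nroots → ∀ u : K, y * D.scGen K s u * y⁻¹ = D.scGen K s (χ s * u)

theorem central_of_gens {z : D.SteinbergCover K} (h : ∀ (s : ℕ) (u : K), s < D.nroots → z * D.scGen K s u = D.scGen K s u * z)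
    (g : D.SteinbergCover K) : z * g = g * z := by
  have hC : Subgroup.centralizer ({z} : Set (D.SteinbergCover K)) = ⊤ := by
    rw [eq_top_iff, ← PresentedGroup.closure_range_of (D.steinbergRelsAB K)]
    apply (Subgroup.closure_le _).mpr
    rintro _ ⟨x, rfl⟩
    rw [of_eq_stGenC, SetLike.mem_coe, Subgroup.mem_centralizer_singleton_iff]
    exact (h x.1 x.2 x.1.isLt).symm
  have : g ∈ Subgroup.centralizer ({z} : Set (D.SteinbergCover K)) := by
    rw [hC]
    trivial
  rw [Subgroup.mem_centralizer_singleton_iff] at this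
  exact this.symm

/-- Two elements acting by scalars commute up to a central element. -/
theorem TA_comm {χ₁ χ₂ : ℕ → K} {y₁ y₂ : D.SteinbergCover K} (h1 : TA D K χ₁ y₁) (h2 : TA D K χ₂ y₂) (g : D.SteinbergCover K) :
    (y₁ * y₂ * y₁⁻¹ * y₂⁻¹) * g = g * (y₁ * y₂ * y₁⁻¹ * y₂⁻¹) := by
  have hs : ∀ (s : ℕ) (u : K), s < D.nroots →
      (y₁ * y₂ * y₁⁻¹ * y₂⁻¹) * D.scGen K s u = D.scGen K s u * (y₁ * y₂ * y₁⁻¹ * y₂⁻¹) := by
    intro s u hs
    have a1 : ∀ v : K, y₁ * y₂ * D.scGen K s v = D.scGen K s (χ₁ s * (χ₂ s * v)) * (y₁ * y₂) := by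
      intro v
      calc y₁ * y₂ * D.scGen K s v = y₁ * (y₂ * D.scGen K s v * y₂⁻¹) * y₁⁻¹ * (y₁ * y₂) := by group
        _ = _ := by rw [h2.act s hs, h1.act s hs]
    have a2 : ∀ v : K, y₂ * y₁ * D.scGen K s v = D.scGen K s (χ₁ s * (χ₂ s * v)) * (y₂ * y₁) := by
      intro v
      calc y₂ * y₁ * D.scGen K s v = y₂ * (y₁ * D.scGen K s v * y₁⁻¹) * y₂⁻¹ * (y₂ * y₁) := by group
        _ = D.scGen K s (χ₂ s * (χ₁ s * v)) * (y₂ * y₁) := by rw [h1.act s hs, h2.act s hs]
        _ = _ := by
          congr 2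
          ring
    have n1 := h1.ne s hs
    have n2 := h2.ne s hs
    set u₀ := (χ₁ s * χ₂ s)⁻¹ * u with hu₀
    have e0 : χ₁ s * (χ₂ s * u₀) = u := by
      rw [hu₀]
      field_simp
    have a1' := a1 u₀
    have a2' := a2 u₀
    rw [e0] at a1' a2'
    have e : y₁ * y₂ * y₁⁻¹ * y₂⁻¹ = y₁ * y₂ * (y₂ * y₁)⁻¹ := by group
    rw [e]
    have a3 : (y₂ * y₁)⁻¹ * D.scGen K s u = D.scGen K s u₀ * (y₂ * y₁)⁻¹ := by
      calc (y₂ * y₁)⁻¹ * D.scGen K s u = (y₂ * y₁)⁻¹ * (D.scGen K s u * (y₂ * y₁)) * (y₂ * y₁)⁻¹ := by group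
        _ = (y₂ * y₁)⁻¹ * (y₂ * y₁ * D.scGen K s u₀) * (y₂ * y₁)⁻¹ := by rw [a2']
        _ = _ := by group
    calc y₁ * y₂ * (y₂ * y₁)⁻¹ * D.scGen K s u = y₁ * y₂ * ((y₂ * y₁)⁻¹ * D.scGen K s u) := by group
      _ = y₁ * y₂ * D.scGen K s u₀ * (y₂ * y₁)⁻¹ := by rw [a3]; group
      _ = _ := by rw [a1']; group
  exact central_of_gens hs g

/-- `y x(v) y⁻¹ x(v)⁻¹ = x((χ - 1) v)`. -/
theorem cc_TA {χ : ℕ → K} {y : D.SteinbergCover K} (h : TA D K χ y) {c : ℕ} (hc : c < D.nroots) (v : K) :
    cc y (D.scGen K c v) = D.scGen K c ((χ c - 1) * v) := by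
  unfold cc
  rw [h.act c hc, Good2.stGen_invC hc, stGen_R1C hc]
  congr 1
  ring

section CE

variable {E G₁ : Type*} [Group E] [Group G₁]

/-- Data for lifting a homomorphism from the cover through a central extension. -/
structure UD (D : ChevalleyDatum) (K : Type*) [Field K] (π : E →* G₁) (σ : D.SteinbergCover K →* G₁) where
  hc : π.ker ≤ Subgroup.center E
  L : D.SteinbergCover K → E
  hL : ∀ a, π (L a) = σ a
  Y : ℕ → D.SteinbergCover K
  C : ℕ → ℕ → K
  hY : ∀ c, c < D.nroots → TA D K (C c) (Y c)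
  hC : ∀ c, c < D.nroots → C c c ≠ 1
  hab : ∀ c, c < D.nroots → ∀ t u : K, cc (L (D.scGen K c t)) (L (D.scGen K c u)) = 1

namespace UD

variable {π : E →* G₁} {σ : D.SteinbergCover K →* G₁} (U : UD D K π σ)
include U

theorem central_of {z : E} (hz : π z = 1) (g : E) : z * g = g * z :=
  ((Subgroup.mem_center_iff.mp (U.hc (MonoidHom.mem_ker.mpr hz))) g).symm

theorem cc_lf {e e' f f' : E} (h1 : π e = π e') (h2 : π f = π f') : cc e f = cc e' f' := by
  have hz1 : π (e * e'⁻¹) = 1 := by
    rw [map_mul, map_inv, h1, mul_inv_cancel]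
  have hz2 : π (f * f'⁻¹) = 1 := by
    rw [map_mul, map_inv, h2, mul_inv_cancel]
  have e1 : e = (e * e'⁻¹) * e' := by group
  have e2 : f = (f * f'⁻¹) * f' := by group
  rw [e1, e2, cc_central_left (U.central_of hz1), cc_central_right (U.central_of hz2)]

theorem cc_L {e f : E} {a b : D.SteinbergCover K} (h1 : π e = σ a) (h2 : π f = σ b) : cc e f = cc (U.L a) (U.L b) :=
  U.cc_lf (by rw [h1, U.hL]) (by rw [h2, U.hL])

theorem conj_cc (e f g : E) : e * cc f g * e⁻¹ = cc (e * f * e⁻¹) (e * g * e⁻¹) := by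
  unfold cc
  group

/-- An element commuting with `y` and `h` commutes with the lift of their commutator. -/
theorem comm1 {a y h : D.SteinbergCover K} (h1 : a * y = y * a) (h2 : a * h = h * a) {e f g : E} (he : π e = σ a)
    (hf : π f = σ y) (hg : π g = σ h) : e * cc f g = cc f g * e := by
  have e1 : e * cc f g * e⁻¹ = cc f g := by
    rw [U.conj_cc]
    apply U.cc_lf
    · rw [map_mul, map_mul, map_inv, he, hf, ← map_inv, ← map_mul, ← map_mul]
      congr 1
      rw [h1]
      group
    · rw [map_mul, map_mul, map_inv, he, hg, ← map_inv, ← map_mul, ← map_mul]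
      congr 1
      rw [h2]
      group
  calc e * cc f g = (e * cc f g * e⁻¹) * e := by group
    _ = _ := by rw [e1]

omit U in
theorem comm_of_cc {a b : E} (h : cc a b = 1) : a * b = b * a := by
  calc a * b = cc a b * b * a := by
        unfold cc
        group
    _ = _ := by rw [h, one_mul]

/-- The canonical lift of a root element. -/
def X (c : ℕ) (t : K) : E := cc (U.L (U.Y c)) (U.L (D.scGen K c (t / (U.C c c - 1))))

theorem C_sub {c : ℕ} (hc : c < D.nroots) : U.C c c - 1 ≠ 0 := sub_ne_zero.mpr (U.hC c hc)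

theorem cc_lf_root {χ : ℕ → K} {y : D.SteinbergCover K} (hy : TA D K χ y) {c : ℕ} (hc : c < D.nroots) (hne : χ c ≠ 1)
    {e g : E} {t : K} (he : π e = σ y) (hg : π g = σ (D.scGen K c (t / (χ c - 1)))) :
    π (cc e g) = σ (D.scGen K c t) := by
  rw [map_cc, he, hg, ← map_cc, cc_TA hy hc]
  congr 2
  have := sub_ne_zero.mpr hne
  field_simp

theorem X_lf {c : ℕ} (hc : c < D.nroots) (t : K) : π (U.X c t) = σ (D.scGen K c t) :=
  U.cc_lf_root (U.hY c hc) hc (U.hC c hc) (U.hL _) (U.hL _)

/-- Lifts of central elements commute with lifts of root elements. -/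
theorem central_comm {z : D.SteinbergCover K} (hz : ∀ g, z * g = g * z) {e g : E} {c : ℕ} (hc : c < D.nroots) {t : K}
    (he : π e = σ z) (hg : π g = σ (D.scGen K c t)) : e * g = g * e := by
  have e1 := U.comm1 (hz (U.Y c)) (hz (D.scGen K c (t / (U.C c c - 1)))) he (U.hL _) (U.hL _)
  have hz1 : π (g * (U.X c t)⁻¹) = 1 := by
    rw [map_mul, map_inv, hg, U.X_lf hc, mul_inv_cancel]
  have e2 : g = (g * (U.X c t)⁻¹) * U.X c t := by group
  have e3 : e * U.X c t = U.X c t * e := e1
  rw [e2]
  have e4 := U.central_of hz1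
  calc e * (g * (U.X c t)⁻¹ * U.X c t) = e * (g * (U.X c t)⁻¹) * U.X c t := by group
    _ = (g * (U.X c t)⁻¹) * (e * U.X c t) := by rw [← e4 e]; group
    _ = _ := by rw [e3]; group

theorem X_add {c : ℕ} (hc : c < D.nroots) (t u : K) : U.X c t * U.X c u = U.X c (t + u) := by
  set l := U.L (U.Y c) with hl
  set a := U.L (D.scGen K c (t / (U.C c c - 1))) with ha
  set b := U.L (D.scGen K c (u / (U.C c c - 1))) with hb
  have e1 : U.X c (t + u) = cc l (a * b) := by
    apply U.cc_lf rfl
    rw [map_mul, ha, hb, U.hL, U.hL, U.hL, ← map_mul, stGen_R1C hc, add_div]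
  have e2 : a * cc l b = cc l b * a := by
    have h3 : π (cc l b) = σ (D.scGen K c u) := U.cc_lf_root (U.hY c hc) hc (U.hC c hc) (U.hL _) (U.hL _)
    have h4 : cc a (cc l b) = 1 := by
      rw [U.cc_L (a := D.scGen K c (t / (U.C c c - 1))) (b := D.scGen K c u) (U.hL _) h3]
      exact U.hab c hc _ _
    exact comm_of_cc h4
  rw [e1]
  show cc l a * cc l b = _
  have e3 : cc l (a * b) = cc l a * (a * cc l b * a⁻¹) := by
    unfold cc
    group
  rw [e3, e2]
  group

theorem X_comm {c : ℕ} (hc : c < D.nroots) (t u : K) : U.X c t * U.X c u = U.X c u * U.X c t := by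
  rw [U.X_add hc, U.X_add hc, add_comm]

theorem X_zero {c : ℕ} (hc : c < D.nroots) : U.X c 0 = 1 := by
  have := U.X_add hc 0 0
  rw [add_zero] at this
  exact mul_eq_left.mp this

theorem X_neg {c : ℕ} (hc : c < D.nroots) (t : K) : (U.X c t)⁻¹ = U.X c (-t) := by
  rw [inv_eq_iff_mul_eq_one, U.X_add hc, add_neg_cancel, U.X_zero hc]

/-- Conjugation of the canonical lifts by lifts of elements acting by scalars. -/
theorem X_conj_TA {χ : ℕ → K} {y : D.SteinbergCover K} (hy : TA D K χ y) {e : E} (he : π e = σ y) {c : ℕ}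
    (hc : c < D.nroots) (t : K) : e * U.X c t * e⁻¹ = U.X c (χ c * t) := by
  unfold X
  rw [U.conj_cc]
  set z := y * U.Y c * y⁻¹ * (U.Y c)⁻¹ with hz
  have hzc : ∀ g, z * g = g * z := TA_comm hy (U.hY c hc)
  set v := t / (U.C c c - 1) with hv
  have e1 : y * U.Y c * y⁻¹ = z * U.Y c := by
    rw [hz]
    group
  have h1 : π (e * U.L (U.Y c) * e⁻¹) = π (U.L z * U.L (U.Y c)) := by
    rw [map_mul, map_mul, map_mul, map_inv, he, U.hL, U.hL, ← map_inv, ← map_mul, ← map_mul, ← map_mul, e1]
  have h2 : π (e * U.L (D.scGen K c v) * e⁻¹) = π (U.L (D.scGen K c (χ c * v))) := by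
    rw [map_mul, map_mul, map_inv, he, U.hL, U.hL, ← map_inv, ← map_mul, ← map_mul, (hy.act c hc)]
  rw [U.cc_lf h1 h2]
  set f := U.L (D.scGen K c (χ c * v)) with hf
  set l := U.L (U.Y c) with hl
  set a := U.L z with ha
  have h3 : a * f = f * a := U.central_comm hzc hc (U.hL _) (U.hL _)
  have h4 : π (cc l f) = σ (D.scGen K c ((χ c * t))) := by
    apply U.cc_lf_root (U.hY c hc) hc (U.hC c hc) (U.hL _)
    rw [hf, U.hL, hv, mul_div_assoc]
  have h5 : a * cc l f = cc l f * a := U.central_comm hzc hc (U.hL _) h4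
  have e2 : cc (a * l) f = cc l f := by
    have e3 : cc (a * l) f = a * cc l f * a⁻¹ * cc a f := by
      unfold cc
      group
    have e4 : cc a f = 1 := by
      unfold cc
      rw [h3]
      group
    rw [e3, e4, h5]
    group
  rw [e2]
  have e5 : χ c * t / (U.C c c - 1) = χ c * v := by rw [hv, mul_div_assoc]
  rw [e5]

/-- The canonical lift does not depend on the element acting by scalars. -/
theorem X_indep {χ : ℕ → K} {y : D.SteinbergCover K} (hy : TA D K χ y) {e g : E} (he : π e = σ y) {c : ℕ}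
    (hc : c < D.nroots) (hne : χ c ≠ 1) {t : K} (hg : π g = σ (D.scGen K c (t / (χ c - 1)))) : cc e g = U.X c t := by
  set s := t / (χ c - 1) with hs
  have h1 := U.X_lf hc s
  have e1 : cc e g = cc e (U.X c s) := U.cc_lf rfl (by rw [hg, h1])
  have e2 := U.X_conj_TA hy he hc s
  have e3 : χ c * s = s + t := by
    have := sub_ne_zero.mpr hne
    rw [hs]
    field_simp
    ring
  rw [e1]
  unfold cc
  rw [e2, e3, ← U.X_add hc, U.X_comm hc]
  group

end UD

end CE

end Cfsg.Agent.Lib.Chev
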