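import Cfsg.Agent.Lib.Chev.Cov.Uni1

/-!
Universality of the group presented by (R1), (R2): elements acting by scalars, conjugation by the `n̄_i`,
commutativity of the lifts of a root group.
-/

set_option autoImplicit false
set_option linter.unusedSimpArgs false
set_option linter.unusedVariables false
set_option linter.unusedSectionVars false

namespace Cfsg.Agent.Lib.Chev

open Cfsg Cfsg.Lie Cfsg.Agent.Lib.CT
open Good2 (NN)

variable {D : ChevalleyDatum} {K : Type*} [Field K]

namespace Good5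

variable (G : Good5 D)
include G

theorem nC_inv_act {i s : ℕ} (hi : i < D.rank) (hs : s < D.nroots) (u : K) :
    (nBC D K (D.simple i) 1)⁻¹ * D.scGen K s u * nBC D K (D.simple i) 1 =
      D.scGen K (G.W i s) (((G.S i (G.W i s) : ℤ) : K) * u) := by
  have hW := G.W_lt hi hs
  have e := G.nB_conjC (K := K) hi hW (((G.S i (G.W i s) : ℤ) : K) * u)
  have hS := sign_sq (F := K) (G.S_cases hi hW)
  rw [← mul_assoc, hS, one_mul, G.W_W hi hs] at e
  rw [← e]
  group

theorem TA_conjW {χ : ℕ → K} {y : D.SteinbergCover K} (h : TA D K χ y) {i : ℕ} (hi : i < D.rank) :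
    TA D K (fun s => χ (G.W i s)) (nBC D K (D.simple i) 1 * y * (nBC D K (D.simple i) 1)⁻¹) := by
  refine ⟨fun s hs => h.ne _ (G.W_lt hi hs), fun s hs u => ?_⟩
  set n := nBC D K (D.simple i) 1 with hn
  have hW := G.W_lt hi hs
  have hS := sign_sq (F := K) (G.S_cases hi hW)
  have e1 : n * y * n⁻¹ * D.scGen K s u * (n * y * n⁻¹)⁻¹ = n * (y * (n⁻¹ * D.scGen K s u * n) * y⁻¹) * n⁻¹ := by group
  rw [e1, hn, G.nC_inv_act hi hs, h.act _ hW, G.nB_conjC hi hW, G.W_W hi hs]
  congr 1
  calc ((G.S i (G.W i s) : ℤ) : K) * (χ (G.W i s) * (((G.S i (G.W i s) : ℤ) : K) * u))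
      = (((G.S i (G.W i s) : ℤ) : K) * ((G.S i (G.W i s) : ℤ) : K)) * (χ (G.W i s) * u) := by ring
    _ = _ := by rw [hS, one_mul]

theorem TA_chi_W {l : ℕ} (hl : l < D.nroots) {t : K} {y : D.SteinbergCover K} {i : ℕ} (hi : i < D.rank)
    (h : TA D K (chiP D l t) y) : TA D K (chiP D (G.W i l) t) (nBC D K (D.simple i) 1 * y * (nBC D K (D.simple i) 1)⁻¹) := by
  have h2 := G.TA_conjW h hi
  refine ⟨fun s hs => ?_, fun s hs u => ?_⟩
  · have e : chiP D (G.W i l) t s = chiP D l t (G.W i s) := by
      unfold chiP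
      rw [← G.pairing_W hi hl (G.W_lt hi hs), G.W_W hi hs]
    rw [e]
    exact h2.ne s hs
  · have e : chiP D (G.W i l) t s = chiP D l t (G.W i s) := by
      unfold chiP
      rw [← G.pairing_W hi hl (G.W_lt hi hs), G.W_W hi hs]
    rw [e]
    exact h2.act s hs u

/-- For each root `l` and each `t ≠ 0` there is an element acting by the character `s ↦ t ^ ⟨s, l⟩`. -/
theorem tor_exists {l : ℕ} (hl : l < D.nroots) {t : K} (ht : t ≠ 0) : ∃ y, TA D K (chiP D l t) y := by
  have hsimple : ∀ i, i < D.rank → ∃ y, TA D K (chiP D (D.simple i) t) y := by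
    intro i hi
    exact ⟨hBC D K (D.simple i) t, fun s hs => (G.chiP_isChi _ ht).ne s hs, fun s hs u => G.hB_conjC hi ht hs u⟩
  have hpos : ∀ r, r < D.nroots → NN D ≤ r → ∃ y, TA D K (chiP D r t) y := by
    refine G.pos_induct hsimple ?_
    intro i r hi hr hN hN' hlt hP
    obtain ⟨y, hy⟩ := hP
    have := G.TA_chi_W (G.W_lt hi hr) hi hy
    rw [G.W_W hi hr] at this
    exact ⟨_, this⟩
  have hneg : ∀ r, r < D.nroots → NN D ≤ r → ∃ y, TA D K (chiP D (D.neg r) t) y := by
    refine G.pos_induct ?_ ?_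
    · intro i hi
      obtain ⟨y, hy⟩ := hsimple i hi
      have := G.TA_chi_W (G.simple_lt hi) hi hy
      rw [G.W_simple hi] at this
      exact ⟨_, this⟩
    · intro i r hi hr hN hN' hlt hP
      obtain ⟨y, hy⟩ := hP
      have := G.TA_chi_W (G.neg_lt (G.W_lt hi hr)) hi hy
      rw [G.W_neg hi (G.W_lt hi hr), G.W_W hi hr] at this
      exact ⟨_, this⟩
  by_cases hN : NN D ≤ l
  · exact hpos l hl hN
  · have hn := G.neg_lt hl
    have h5 : NN D ≤ D.neg l := by
      rw [G.neg_eq hl]
      have := G.n_even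
      show D.nroots / 2 ≤ D.nroots - 1 - l
      have h2 : l < D.nroots / 2 := by
        have : ¬ (D.nroots / 2 ≤ l) := hN
        omega
      omega
    have := hneg _ hn h5
    rwa [G.neg_neg hl] at this

/-- The commutator words transform under the Weyl group. -/
theorem commWord_W {i : ℕ} (hi : i < D.rank) {r s : ℕ} (hr : r < D.nroots) (hs : s < D.nroots) (h1 : s ≠ r) (h2 : s ≠ D.neg r)
    (t u : K) : D.commWord K (G.W i r) (G.W i s) (((G.S i r : ℤ) : K) * t) (((G.S i s : ℤ) : K) * u) =
      (D.commWord K r s t u).map fun q => (G.W i q.1, ((G.S i q.1 : ℤ) : K) * q.2) := by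
  simp only [ChevalleyDatum.commWord]
  rw [G.t3 i r s hi hr hs h1 h2, List.map_map, List.map_map]
  apply List.map_congr_left
  intro c _
  simp only [Function.comp_apply, Prod.mk.injEq, true_and]
  exact signsC _ _ _ (G.S_cases hi hr) (G.S_cases hi hs) _ _ _ _ _

end Good5

section CE

variable {E G₁ : Type*} [Group E] [Group G₁] {π : E →* G₁} {σ : D.SteinbergCover K →* G₁}

/-- The lifts of a root group commute, when all scalars act on the root group. -/
theorem hab_of (hc : π.ker ≤ Subgroup.center E) {L : D.SteinbergCover K → E} (hL : ∀ a, π (L a) = σ a)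
    (hz : ∃ z : K, z ≠ 0 ∧ z ^ 3 ≠ 1) {c : ℕ} (hr : c < D.nroots)
    (hd : ∀ d : K, d ≠ 0 → ∃ (y : D.SteinbergCover K) (χ : ℕ → K), TA D K χ y ∧ χ c = d) (t u : K) :
    cc (L (D.scGen K c t)) (L (D.scGen K c u)) = 1 := by
  have hcen : ∀ (z : E), π z = 1 → z ∈ Subgroup.center E := fun z h => hc (MonoidHom.mem_ker.mpr h)
  have hlf : ∀ {e e' f f' : E}, π e = π e' → π f = π f' → cc e f = cc e' f' := by
    intro e e' f f' h1 h2
    have hz1 : π (e * e'⁻¹) = 1 := by
      rw [map_mul, map_inv, h1, mul_inv_cancel]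
    have hz2 : π (f * f'⁻¹) = 1 := by
      rw [map_mul, map_inv, h2, mul_inv_cancel]
    have e1 : e = (e * e'⁻¹) * e' := by group
    have e2 : f = (f * f'⁻¹) * f' := by group
    rw [e1, e2, cc_central_left (fun w => ((Subgroup.mem_center_iff.mp (hcen _ hz1)) w).symm),
      cc_central_right (fun w => ((Subgroup.mem_center_iff.mp (hcen _ hz2)) w).symm)]
  have hB : ∀ t u : K, cc (L (D.scGen K c t)) (L (D.scGen K c u)) ∈ Subgroup.center E := by
    intro t u
    apply hcen
    rw [map_cc, hL, hL, ← map_cc]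
    have : cc (D.scGen K c t) (D.scGen K c u) = 1 := by
      unfold cc
      have e : D.scGen K c t * D.scGen K c u = D.scGen K c u * D.scGen K c t := by
        rw [stGen_R1C hr, stGen_R1C hr, add_comm]
      rw [e]
      group
    rw [this, map_one]
  have hBc : ∀ (t u : K) (w : E), cc (L (D.scGen K c t)) (L (D.scGen K c u)) * w = w * cc (L (D.scGen K c t)) (L (D.scGen K c u)) :=
    fun t u w => ((Subgroup.mem_center_iff.mp (hB t u)) w).symm
  letI : CommGroup (Subgroup.center E) :=
    { (inferInstance : Group (Subgroup.center E)) with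
      mul_comm := fun a b => Subtype.ext (Subgroup.mem_center_iff.mp a.2 b.1).symm }
  let B : K → K → Additive (Subgroup.center E) := fun t u => Additive.ofMul ⟨_, hB t u⟩
  have hB0 := bil_zero hz B ?_ ?_ ?_ ?_ t u
  · have := congrArg (fun x : Additive (Subgroup.center E) => ((Additive.toMul x : Subgroup.center E) : E)) hB0
    exact this
  · intro t t' u
    apply Additive.toMul.injective
    apply Subtype.ext
    show cc (L (D.scGen K c (t + t'))) _ = cc _ _ * cc _ _
    have e : cc (L (D.scGen K c (t + t'))) (L (D.scGen K c u)) = cc (L (D.scGen K c t) * L (D.scGen K c t')) (L (D.scGen K c u)) :=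
      hlf (by rw [map_mul, hL, hL, hL, ← map_mul, stGen_R1C hr]) rfl
    rw [e, cc_mul_left (hBc t' u)]
  · intro t u u'
    apply Additive.toMul.injective
    apply Subtype.ext
    show cc _ (L (D.scGen K c (u + u'))) = cc _ _ * cc _ _
    have e : cc (L (D.scGen K c t)) (L (D.scGen K c (u + u'))) = cc (L (D.scGen K c t)) (L (D.scGen K c u) * L (D.scGen K c u')) :=
      hlf rfl (by rw [map_mul, hL, hL, hL, ← map_mul, stGen_R1C hr])
    rw [e, cc_mul_right (hBc t u')]
  · intro t
    apply Additive.toMul.injective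
    apply Subtype.ext
    show cc _ _ = 1
    unfold cc
    group
  · intro d t u hd0
    apply Additive.toMul.injective
    apply Subtype.ext
    show cc _ _ = cc _ _
    obtain ⟨y, χ, hy, hχ⟩ := hd d hd0
    have e1 : L y * cc (L (D.scGen K c t)) (L (D.scGen K c u)) * (L y)⁻¹ =
        cc (L y * L (D.scGen K c t) * (L y)⁻¹) (L y * L (D.scGen K c u) * (L y)⁻¹) := by
      unfold cc
      group
    have e2 : ∀ v : K, π (L y * L (D.scGen K c v) * (L y)⁻¹) = π (L (D.scGen K c (d * v))) := by
      intro v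
      rw [map_mul, map_mul, map_inv, hL, hL, hL, ← map_inv, ← map_mul, ← map_mul, hy.act c hr, hχ]
    have e3 := hlf (e2 t) (e2 u)
    rw [← e3, ← e1, ← hBc t u (L y)]
    group

namespace UD

variable (U : UD D K π σ) (G : Good5 D)
include U G

/-- Conjugating the canonical lifts by lifts of the `n̄_i`. -/
theorem X_W {i : ℕ} (hi : i < D.rank) {e : E} (he : π e = σ (nBC D K (D.simple i) 1)) {c : ℕ} (hc : c < D.nroots) (t : K) :
    e * U.X c t * e⁻¹ = U.X (G.W i c) (((G.S i c : ℤ) : K) * t) := by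
  have hW := G.W_lt hi hc
  have hy := G.TA_conjW (U.hY c hc) (K := K) hi
  have hne : (fun s => U.C c (G.W i s)) (G.W i c) ≠ 1 := by
    simp only [G.W_W hi hc]
    exact U.hC c hc
  unfold X
  rw [U.conj_cc]
  refine U.X_indep hy ?_ hW hne ?_
  · rw [map_mul, map_mul, map_inv, he, U.hL, ← map_inv, ← map_mul, ← map_mul]
  · rw [map_mul, map_mul, map_inv, he, U.hL, ← map_inv, ← map_mul, ← map_mul, G.nB_conjC hi hc]
    simp only [G.W_W hi hc]
    rw [mul_div_assoc]

end UD

end CE

end Cfsg.Agent.Lib.Chev
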