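import Cfsg.Agent.Lib.Chev.Cov.Uni2

/-!
Universality of the group presented by (R1), (R2): the lift of the positive part.
-/

set_option autoImplicit false
set_option linter.unusedSimpArgs false
set_option linter.unusedVariables false
set_option linter.unusedSectionVars false

namespace Cfsg.Agent.Lib.Chev

open Cfsg Cfsg.Lie Cfsg.Agent.Lib.CT
open Good2 (NN rBC gen_mem_rBC rB_leC rB_inductionC wB_memC)

variable {D : ChevalleyDatum} {K : Type*} [Field K]
variable {E G₁ : Type*} [Group E] [Group G₁] {π : E →* G₁} {σ : D.SteinbergCover K →* G₁}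

theorem theta_tail (G : Good5 D) {m : ℕ} {g : D.SteinbergCover K} (hg : g ∈ rBC D K (m ≤ ·)) :
    G.thetaGC g ∈ Good2.Ut D K m := by
  refine rB_inductionC (P := (m ≤ ·)) (Q := fun g => G.thetaGC g ∈ Good2.Ut D K m) ?_ ?_ ?_ g hg
  · simp [Subgroup.one_mem]
  · intro a b ha hb
    rw [map_mul]
    exact Subgroup.mul_mem _ ha hb
  · intro r t h1 h2
    rw [G.thetaG_genC, G.xgt_ofC h2]
    exact G.xg_mem h2 ⟨h1, h2⟩ t

theorem tail_zero (G : Good5 D) {m : ℕ} (hm : m < D.nroots) (hN : NN D ≤ m) {t : K} (h : D.scGen K m t ∈ rBC D K (m + 1 ≤ ·)) :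
    t = 0 := by
  have := theta_tail G h
  rw [G.thetaG_genC, G.xgt_ofC hm] at this
  exact G.toGood2.xg_mem_Ut_eq hm hN this

namespace UD

variable (U : UD D K π σ)

/-- A lift of a tail subgroup. -/
structure IsSec (U : UD D K π σ) (m : ℕ) (sf : D.SteinbergCover K → E) : Prop where
  mul : ∀ a b, a ∈ rBC D K (m ≤ ·) → b ∈ rBC D K (m ≤ ·) → sf (a * b) = sf a * sf b
  gen : ∀ r, m ≤ r → r < D.nroots → ∀ t : K, sf (D.scGen K r t) = U.X r t
  lf : ∀ a, a ∈ rBC D K (m ≤ ·) → π (sf a) = σ a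

include U in
theorem sec_top : U.IsSec D.nroots (fun _ => 1) := by
  have hbot : rBC D K (D.nroots ≤ ·) = ⊥ := by
    apply le_bot_iff.mp
    apply rB_leC
    intro r t h h2
    omega
  refine ⟨fun a b _ _ => by simp, fun r h1 h2 => by omega, fun a ha => ?_⟩
  rw [hbot, Subgroup.mem_bot] at ha
  subst ha
  simp

variable {U}

theorem IsSec.one {m : ℕ} {sf : D.SteinbergCover K → E} (h : U.IsSec m sf) : sf 1 = 1 := by
  have := h.mul 1 1 (Subgroup.one_mem _) (Subgroup.one_mem _)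
  rw [mul_one] at this
  exact left_eq_mul.mp this

/-- Equivariance of the section under elements acting by scalars. -/
theorem IsSec.equiv {m : ℕ} {sf : D.SteinbergCover K → E} (h : U.IsSec m sf) {χ : ℕ → K} {y : D.SteinbergCover K}
    (hy : TA D K χ y) {e : E} (he : π e = σ y) {g : D.SteinbergCover K} (hg : g ∈ rBC D K (m ≤ ·)) :
    y * g * y⁻¹ ∈ rBC D K (m ≤ ·) ∧ e * sf g * e⁻¹ = sf (y * g * y⁻¹) := by
  have key := rB_inductionC (P := (m ≤ ·))
    (Q := fun g => g ∈ rBC D K (m ≤ ·) ∧ y * g * y⁻¹ ∈ rBC D K (m ≤ ·) ∧ e * sf g * e⁻¹ = sf (y * g * y⁻¹)) ?_ ?_ ?_ g hg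
  · exact key.2
  · refine ⟨Subgroup.one_mem _, by simp [Subgroup.one_mem], ?_⟩
    simp [h.one]
  · rintro a b ⟨h1, h2, h3⟩ ⟨h4, h5, h6⟩
    have e1 : y * (a * b) * y⁻¹ = (y * a * y⁻¹) * (y * b * y⁻¹) := by group
    refine ⟨Subgroup.mul_mem _ h1 h4, ?_, ?_⟩
    · rw [e1]
      exact Subgroup.mul_mem _ h2 h5
    · rw [e1, h.mul _ _ h2 h5, h.mul _ _ h1 h4, ← h3, ← h6]
      group
  · intro r t h1 h2
    rw [hy.act r h2]
    refine ⟨gen_mem_rBC h1 h2 t, gen_mem_rBC h1 h2 _, ?_⟩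
    rw [h.gen r h1 h2, h.gen r h1 h2, U.X_conj_TA hy he h2]

/-- One step: conjugation of the lifted tail by the lift of the next root element. -/
theorem IsSec.compat (G : Good5 D) {m : ℕ} (hm : m < D.nroots) (hN : NN D ≤ m) {sf : D.SteinbergCover K → E}
    (h : U.IsSec (m + 1) sf)
    (hsep : ∀ e, m < e → e < D.nroots → (∃ (y : D.SteinbergCover K) (χ : ℕ → K), TA D K χ y ∧ χ m = 1 ∧ χ e ≠ 1) ∨
      ∀ t v : K, D.scGen K m t * D.scGen K e v = D.scGen K e v * D.scGen K m t ∧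
        cc (U.L (D.scGen K m t)) (U.L (D.scGen K e v)) = 1) (t : K)
    {g : D.SteinbergCover K} (hg : g ∈ rBC D K (m + 1 ≤ ·)) :
    D.scGen K m t * g * (D.scGen K m t)⁻¹ ∈ rBC D K (m + 1 ≤ ·) ∧
      U.X m t * sf g * (U.X m t)⁻¹ = sf (D.scGen K m t * g * (D.scGen K m t)⁻¹) := by
  have hconj : ∀ g, g ∈ rBC D K (m + 1 ≤ ·) → D.scGen K m t * g * (D.scGen K m t)⁻¹ ∈ rBC D K (m + 1 ≤ ·) := by
    intro g hg
    have := G.conj_mem_tBC hm hN (Nat.lt_succ_self m) (-t) hg
    rw [neg_neg] at this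
    rwa [Good2.stGen_invC hm]
  refine ⟨hconj g hg, ?_⟩
  have key := rB_inductionC (P := (m + 1 ≤ ·))
    (Q := fun g => g ∈ rBC D K (m + 1 ≤ ·) ∧ U.X m t * sf g * (U.X m t)⁻¹ = sf (D.scGen K m t * g * (D.scGen K m t)⁻¹)) ?_ ?_ ?_ g hg
  · exact key.2
  · refine ⟨Subgroup.one_mem _, ?_⟩
    simp [h.one]
  · rintro a b ⟨h1, h3⟩ ⟨h4, h6⟩
    have e1 : D.scGen K m t * (a * b) * (D.scGen K m t)⁻¹ =
        (D.scGen K m t * a * (D.scGen K m t)⁻¹) * (D.scGen K m t * b * (D.scGen K m t)⁻¹) := by group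
    refine ⟨Subgroup.mul_mem _ h1 h4, ?_⟩
    rw [e1, h.mul _ _ (hconj a h1) (hconj b h4), h.mul _ _ h1 h4, ← h3, ← h6]
    group
  · intro e' v h1 h2
    refine ⟨gen_mem_rBC h1 h2 v, ?_⟩
    have hlt : m < e' := h1
    rcases hsep e' hlt h2 with ⟨y, χ, hy, hχ1, hχ2⟩ | hblk
    swap
    · obtain ⟨hb1, hb2⟩ := hblk t v
      have e1 : D.scGen K m t * D.scGen K e' v * (D.scGen K m t)⁻¹ = D.scGen K e' v := by
        rw [hb1]
        group
      have e2 : cc (U.X m t) (U.X e' v) = 1 := by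
        rw [U.cc_L (U.X_lf hm t) (U.X_lf h2 v)]
        exact hb2
      have e3 := UD.comm_of_cc e2
      rw [e1, h.gen e' h1 h2, e3]
      group
    have hyc : y * D.scGen K m t = D.scGen K m t * y := by
      have := hy.act m hm t
      rw [hχ1, one_mul, mul_inv_eq_iff_eq_mul] at this
      exact this
    set v' := v / (χ e' - 1) with hv'
    have hd := sub_ne_zero.mpr hχ2
    have hvv : χ e' * v' = v + v' := by
      rw [hv']
      field_simp
      ring
    have e1 : U.X e' v = cc (U.L y) (U.X e' v') :=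
      (U.X_indep hy (U.hL y) h2 hχ2 (U.X_lf h2 v')).symm
    rw [h.gen e' h1 h2, e1, U.conj_cc]
    set β := D.scGen K m t * D.scGen K e' v' * (D.scGen K m t)⁻¹ with hβ
    have hβm : β ∈ rBC D K (m + 1 ≤ ·) := hconj _ (gen_mem_rBC h1 h2 v')
    have e2 : cc (U.X m t * U.L y * (U.X m t)⁻¹) (U.X m t * U.X e' v' * (U.X m t)⁻¹) = cc (U.L y) (sf β) := by
      apply U.cc_lf
      · rw [map_mul, map_mul, map_inv, U.X_lf hm, U.hL, ← map_inv, ← map_mul, ← map_mul, ← hyc]
        congr 1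
        group
      · rw [map_mul, map_mul, map_inv, U.X_lf hm, U.X_lf h2, ← map_inv, ← map_mul, ← map_mul, h.lf _ hβm]
    rw [e2]
    obtain ⟨h3, h4⟩ := h.equiv hy (U.hL y) hβm
    set γ := D.scGen K m t * D.scGen K e' v * (D.scGen K m t)⁻¹ with hγ
    have hγm : γ ∈ rBC D K (m + 1 ≤ ·) := hconj _ (gen_mem_rBC h1 h2 v)
    have e3 : y * β * y⁻¹ = γ * β := by
      have e4 : y * β * y⁻¹ = D.scGen K m t * (y * D.scGen K e' v' * y⁻¹) * (D.scGen K m t)⁻¹ := by
        have e5 : (D.scGen K m t)⁻¹ * y = y * (D.scGen K m t)⁻¹ := by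
          calc (D.scGen K m t)⁻¹ * y = (D.scGen K m t)⁻¹ * (y * D.scGen K m t) * (D.scGen K m t)⁻¹ := by group
            _ = (D.scGen K m t)⁻¹ * (D.scGen K m t * y) * (D.scGen K m t)⁻¹ := by rw [hyc]
            _ = _ := by group
        rw [hβ]
        calc y * (D.scGen K m t * D.scGen K e' v' * (D.scGen K m t)⁻¹) * y⁻¹
            = (y * D.scGen K m t) * D.scGen K e' v' * ((D.scGen K m t)⁻¹ * y⁻¹) := by group
          _ = (D.scGen K m t * y) * D.scGen K e' v' * (y⁻¹ * (D.scGen K m t)⁻¹) := by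
              rw [hyc]
              have e6 : (D.scGen K m t)⁻¹ * y⁻¹ = y⁻¹ * (D.scGen K m t)⁻¹ := by
                calc (D.scGen K m t)⁻¹ * y⁻¹ = y⁻¹ * (y * (D.scGen K m t)⁻¹) * y⁻¹ := by group
                  _ = y⁻¹ * ((D.scGen K m t)⁻¹ * y) * y⁻¹ := by rw [e5]
                  _ = _ := by group
              rw [e6]
          _ = _ := by group
      rw [e4, hy.act e' h2, hvv, ← stGen_R1C h2, hγ, hβ]
      group
    have e5 : sf (y * β * y⁻¹) = sf γ * sf β := by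
      rw [e3, h.mul _ _ hγm hβm]
    unfold cc
    rw [h4, e5]
    group

/-- Extension of the section by one root. -/
theorem IsSec.step (G : Good5 D) {m : ℕ} (hm : m < D.nroots) (hN : NN D ≤ m) {sf : D.SteinbergCover K → E}
    (h : U.IsSec (m + 1) sf)
    (hsep : ∀ e, m < e → e < D.nroots → (∃ (y : D.SteinbergCover K) (χ : ℕ → K), TA D K χ y ∧ χ m = 1 ∧ χ e ≠ 1) ∨
      ∀ t v : K, D.scGen K m t * D.scGen K e v = D.scGen K e v * D.scGen K m t ∧
        cc (U.L (D.scGen K m t)) (U.L (D.scGen K e v)) = 1) :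
    ∃ sf', U.IsSec m sf' := by
  have hdec : ∀ g, g ∈ rBC D K (m ≤ ·) → ∃ (t : K) (g' : D.SteinbergCover K), g' ∈ rBC D K (m + 1 ≤ ·) ∧ g = D.scGen K m t * g' :=
    fun g hg => G.tB_decompC hm hN hg
  choose! τ g₀ hg₀ hg₁ using hdec
  have huniq : ∀ t t' : K, ∀ g g' : D.SteinbergCover K, g ∈ rBC D K (m + 1 ≤ ·) → g' ∈ rBC D K (m + 1 ≤ ·) →
      D.scGen K m t * g = D.scGen K m t' * g' → t = t' ∧ g = g' := by
    intro t t' g g' hg hg' e
    have e1 : D.scGen K m (t + -t') = g' * g⁻¹ := by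
      have e0 : D.scGen K m (t + -t') = D.scGen K m (-t') * D.scGen K m t := by
        rw [stGen_R1C hm, add_comm]
      have e2 : D.scGen K m t = D.scGen K m t' * g' * g⁻¹ := by
        rw [← e]
        group
      rw [e0, e2, ← Good2.stGen_invC hm]
      group
    have e3 : t + -t' = 0 := tail_zero G hm hN (by
      rw [e1]
      exact Subgroup.mul_mem _ hg' (Subgroup.inv_mem _ hg))
    have e4 : t = t' := by linear_combination e3
    subst e4
    exact ⟨rfl, mul_left_cancel e⟩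
  have hmem : ∀ g, g ∈ rBC D K (m + 1 ≤ ·) → g ∈ rBC D K (m ≤ ·) :=
    fun g hg => Good2.rB_monoC (fun r hr => by omega) hg
  have hxm : ∀ t : K, D.scGen K m t ∈ rBC D K (m ≤ ·) := fun t => gen_mem_rBC le_rfl hm t
  have hval : ∀ t g, g ∈ rBC D K (m + 1 ≤ ·) → U.X m (τ (D.scGen K m t * g)) * sf (g₀ (D.scGen K m t * g)) = U.X m t * sf g := by
    intro t g hg
    have hin : D.scGen K m t * g ∈ rBC D K (m ≤ ·) := Subgroup.mul_mem _ (hxm t) (hmem g hg)
    obtain ⟨e1, e2⟩ := huniq _ _ _ _ (hg₀ _ hin) hg (hg₁ _ hin).symm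
    rw [e1, e2]
  refine ⟨fun g => U.X m (τ g) * sf (g₀ g), ?_, ?_, ?_⟩
  · intro a b ha hb
    have ea := hg₁ a ha
    have eb := hg₁ b hb
    set t := τ a
    set u := τ b
    set a' := g₀ a with ha'
    set b' := g₀ b with hb'
    have ha0 : a' ∈ rBC D K (m + 1 ≤ ·) := hg₀ a ha
    have hb0 : b' ∈ rBC D K (m + 1 ≤ ·) := hg₀ b hb
    obtain ⟨h1, h2⟩ := h.compat G hm hN hsep (-u) ha0
    rw [Good2.stGen_invC hm, neg_neg, ← U.X_neg hm, inv_inv] at h2
    rw [Good2.stGen_invC hm, neg_neg] at h1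
    have e1 : a * b = D.scGen K m (t + u) * (D.scGen K m (-u) * a' * D.scGen K m u * b') := by
      rw [ea, eb, ← stGen_R1C hm t u]
      have e2 : D.scGen K m u * D.scGen K m (-u) = 1 := by
        rw [stGen_R1C hm, add_neg_cancel, Good2.stGen_zeroC hm]
      calc D.scGen K m t * a' * (D.scGen K m u * b')
          = D.scGen K m t * (1 * a') * (D.scGen K m u * b') := by rw [one_mul]
        _ = D.scGen K m t * ((D.scGen K m u * D.scGen K m (-u)) * a') * (D.scGen K m u * b') := by rw [e2]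
        _ = _ := by simp only [mul_assoc]
    have h3 : D.scGen K m (-u) * a' * D.scGen K m u * b' ∈ rBC D K (m + 1 ≤ ·) := Subgroup.mul_mem _ h1 hb0
    rw [e1, hval _ _ h3, h.mul _ _ h1 hb0, ← h2, ← U.X_add hm]
    group
  · intro r h1 h2 t
    by_cases hr : r = m
    · subst hr
      have := hval t 1 (Subgroup.one_mem _)
      rw [mul_one, h.one, mul_one] at this
      exact this
    · have h3 : m + 1 ≤ r := by
        have : m ≤ r := h1
        omega
      have := hval 0 (D.scGen K r t) (gen_mem_rBC h3 h2 t)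
      rw [Good2.stGen_zeroC hm, one_mul, U.X_zero hm, one_mul, h.gen r h3 h2] at this
      exact this
  · intro a ha
    rw [map_mul, U.X_lf hm, h.lf _ (hg₀ a ha), ← map_mul, ← hg₁ a ha]

/-- The section on the whole positive part. -/
theorem exists_sec (U : UD D K π σ) (G : Good5 D)
    (hsep : ∀ c e, NN D ≤ c → c < e → e < D.nroots → (∃ (y : D.SteinbergCover K) (χ : ℕ → K), TA D K χ y ∧ χ c = 1 ∧ χ e ≠ 1) ∨
      ∀ t v : K, D.scGen K c t * D.scGen K e v = D.scGen K e v * D.scGen K c t ∧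
        cc (U.L (D.scGen K c t)) (U.L (D.scGen K e v)) = 1) :
    ∃ sf, U.IsSec (NN D) sf := by
  have key : ∀ k m, m + k = D.nroots → NN D ≤ m → ∃ sf, U.IsSec m sf := by
    intro k
    induction k with
    | zero =>
      intro m hm hN
      have : m = D.nroots := by omega
      subst this
      exact ⟨_, U.sec_top⟩
    | succ k ih =>
      intro m hm hN
      obtain ⟨sf, hsf⟩ := ih (m + 1) (by omega) (by omega)
      exact hsf.step G (by omega) hN (fun e h1 h2 => hsep m e hN h1 h2)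
  exact key (NN D) (NN D) G.NN_add le_rfl

/-- The commutator relations among positive roots. -/
theorem R2_pos (G : Good5 D) {sf : D.SteinbergCover K → E} (h : U.IsSec (NN D) sf) {r s : ℕ} (hr : r < D.nroots)
    (hs : s < D.nroots) (h1 : NN D ≤ r) (h2 : NN D ≤ s) (h3 : s ≠ r) (t u : K) :
    U.X s u * U.X r t = U.X r t * U.X s u * wX U.X (D.commWord K r s t u) := by
  have hn : s ≠ D.neg r := by
    intro e
    have := (G.neg_pos hr).mp h1
    omega
  have hword : ∀ w : List (ℕ × K), (∀ a ∈ w, NN D ≤ a.1 ∧ a.1 < D.nroots) →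
      wBC D K w ∈ rBC D K (NN D ≤ ·) ∧ sf (wBC D K w) = wX U.X w := by
    intro w
    induction w with
    | nil =>
      intro _
      exact ⟨Subgroup.one_mem _, by simpa [wBC, wX] using h.one⟩
    | cons a w ih =>
      intro hw
      obtain ⟨h4, h5⟩ := ih fun b hb => hw b (List.mem_cons_of_mem _ hb)
      obtain ⟨h6, h7⟩ := hw a List.mem_cons_self
      have h8 := gen_mem_rBC (K := K) (D := D) (P := (NN D ≤ ·)) h6 h7 a.2
      rw [wB_consC, wX_cons]
      refine ⟨Subgroup.mul_mem _ h8 h4, ?_⟩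
      rw [h.mul _ _ h8 h4, h.gen _ h6 h7, h5]
  have hw : ∀ a ∈ D.commWord K r s t u, NN D ≤ a.1 ∧ a.1 < D.nroots := by
    intro a ha
    simp only [ChevalleyDatum.commWord, List.mem_map] at ha
    obtain ⟨c, hc, rfl⟩ := ha
    have h5 := G.comm_up hr hs h1 h2 h3 hc
    exact ⟨by simp only; omega, G.commTerms_lt hr hs c hc⟩
  obtain ⟨h4, h5⟩ := hword _ hw
  have e := stGen_R2C hr hs h3 hn t u
  have gr := gen_mem_rBC (K := K) (D := D) (P := (NN D ≤ ·)) h1 hr t
  have gs := gen_mem_rBC (K := K) (D := D) (P := (NN D ≤ ·)) h2 hs u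
  have e2 := congrArg sf e
  rw [h.mul _ _ gs gr, h.mul _ _ (Subgroup.mul_mem _ gr gs) h4, h.mul _ _ gr gs, h.gen _ h1 hr, h.gen _ h2 hs, h5] at e2
  exact e2

end UD

end Cfsg.Agent.Lib.Chev
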