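import Cfsg.Agent.Lib.Chev.Cov.Uni3

/-!
Universality of the group presented by (R1), (R2): the commutator relations for all pairs of roots, the lift.
-/

set_option autoImplicit false
set_option linter.unusedSimpArgs false
set_option linter.unusedVariables false
set_option linter.unusedSectionVars false

namespace Cfsg.Agent.Lib.Chev

open Cfsg Cfsg.Lie Cfsg.Agent.Lib.CT
open Good2 (NN rBC gen_mem_rBC rB_leC rB_inductionC wB_memC)

variable {D : ChevalleyDatum} {K : Type*} [Field K]
variable {E G₁ : Type*} [Group E] [Group G₁] {π : E →* G₁} {σ : D.SteinbergCover K →* G₁}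

namespace UD

variable (U : UD D K π σ) (G : Good5 D)

/-- The commutator relation for a pair of roots. -/
def PP (r s : ℕ) : Prop :=
  ∀ t u : K, U.X s u * U.X r t = U.X r t * U.X s u * wX U.X (D.commWord K r s t u)

include G in
theorem conj_wX {i : ℕ} (hi : i < D.rank) {e : E} (he : π e = σ (nBC D K (D.simple i) 1)) (w : List (ℕ × K))
    (hw : ∀ a ∈ w, a.1 < D.nroots) :
    e * wX U.X w * e⁻¹ = wX U.X (w.map fun q => (G.W i q.1, ((G.S i q.1 : ℤ) : K) * q.2)) := by
  induction w with
  | nil => simp [wX]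
  | cons a w ih =>
    have h2 := ih fun b hb => hw b (List.mem_cons_of_mem _ hb)
    rw [wX_cons, List.map_cons, wX_cons, ← h2, ← U.X_W G hi he (hw a List.mem_cons_self)]
    group

include G in
theorem PP_W {i : ℕ} (hi : i < D.rank) {r s : ℕ} (hr : r < D.nroots) (hs : s < D.nroots) (h1 : s ≠ r) (h2 : s ≠ D.neg r)
    (h : U.PP r s) : U.PP (G.W i r) (G.W i s) := by
  intro t' u'
  set e := U.L (nBC D K (D.simple i) 1) with he
  have hlf : π e = σ (nBC D K (D.simple i) 1) := U.hL _
  set t := ((G.S i r : ℤ) : K) * t' with ht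
  set u := ((G.S i s : ℤ) : K) * u' with hu
  have hS1 := sign_sq (F := K) (G.S_cases hi hr)
  have hS2 := sign_sq (F := K) (G.S_cases hi hs)
  have e1 : ((G.S i r : ℤ) : K) * t = t' := by
    rw [ht, ← mul_assoc, hS1, one_mul]
  have e2 : ((G.S i s : ℤ) : K) * u = u' := by
    rw [hu, ← mul_assoc, hS2, one_mul]
  have h3 := h t u
  have h4 := congrArg (fun g => e * g * e⁻¹) h3
  have hw : ∀ a ∈ D.commWord K r s t u, a.1 < D.nroots := by
    intro a ha
    simp only [ChevalleyDatum.commWord, List.mem_map] at ha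
    obtain ⟨c, hc, rfl⟩ := ha
    exact G.commTerms_lt hr hs c hc
  have e3 : e * (U.X s u * U.X r t) * e⁻¹ = (e * U.X s u * e⁻¹) * (e * U.X r t * e⁻¹) := by group
  have e4 : e * (U.X r t * U.X s u * wX U.X (D.commWord K r s t u)) * e⁻¹ =
      (e * U.X r t * e⁻¹) * (e * U.X s u * e⁻¹) * (e * wX U.X (D.commWord K r s t u) * e⁻¹) := by group
  rw [e3, e4, U.X_W G hi hlf hs, U.X_W G hi hlf hr, U.conj_wX G hi hlf _ hw, ← G.commWord_W hi hr hs h1 h2, e1, e2] at h4
  exact h4

include G in
theorem PP_W_iff {i : ℕ} (hi : i < D.rank) {r s : ℕ} (hr : r < D.nroots) (hs : s < D.nroots) (h1 : s ≠ r) (h2 : s ≠ D.neg r)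
    (h : U.PP (G.W i r) (G.W i s)) : U.PP r s := by
  have hWr := G.W_lt hi hr
  have hWs := G.W_lt hi hs
  have := U.PP_W G hi hWr hWs (by
    intro e
    apply h1
    rw [← G.W_W hi hs, e, G.W_W hi hr]) (by
    intro e
    apply h2
    rw [← G.W_W hi hs, e, G.W_neg hi hWr, G.W_W hi hr]) h
  rwa [G.W_W hi hr, G.W_W hi hs] at this

omit U in
include G in
theorem foldr_lt (l : List ℕ) (hl : ∀ i ∈ l, i < D.rank) {x : ℕ} (hx : x < D.nroots) : l.foldr G.W x < D.nroots := by
  induction l with
  | nil => exact hx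
  | cons a l ih =>
    exact G.W_lt (hl a List.mem_cons_self) (ih fun i hi => hl i (List.mem_cons_of_mem _ hi))

omit U in
include G in
theorem foldr_inj (l : List ℕ) (hl : ∀ i ∈ l, i < D.rank) {x y : ℕ} (hx : x < D.nroots) (hy : y < D.nroots)
    (h : l.foldr G.W x = l.foldr G.W y) : x = y := by
  induction l with
  | nil => exact h
  | cons a l ih =>
    have hl' : ∀ i ∈ l, i < D.rank := fun i hi => hl i (List.mem_cons_of_mem _ hi)
    have ha := hl a List.mem_cons_self
    apply ih hl'
    have e2 := congrArg (G.W a) h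
    simp only [List.foldr_cons] at e2
    rwa [G.W_W ha (foldr_lt G l hl' hx), G.W_W ha (foldr_lt G l hl' hy)] at e2

omit U in
include G in
theorem foldr_neg (l : List ℕ) (hl : ∀ i ∈ l, i < D.rank) {x : ℕ} (hx : x < D.nroots) :
    l.foldr G.W (D.neg x) = D.neg (l.foldr G.W x) := by
  induction l with
  | nil => rfl
  | cons a l ih =>
    have hl' : ∀ i ∈ l, i < D.rank := fun i hi => hl i (List.mem_cons_of_mem _ hi)
    simp only [List.foldr_cons]
    rw [ih hl', G.W_neg (hl a List.mem_cons_self) (foldr_lt G l hl' hx)]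

include G in
/-- Moving along a word in the Weyl group. -/
theorem PP_fold (l : List ℕ) (hl : ∀ i ∈ l, i < D.rank) {r s : ℕ} (hr : r < D.nroots) (hs : s < D.nroots) (h1 : s ≠ r)
    (h2 : s ≠ D.neg r) (h : U.PP (l.foldr G.W r) (l.foldr G.W s)) : U.PP r s := by
  induction l with
  | nil => exact h
  | cons a l ih =>
    have hl' : ∀ i ∈ l, i < D.rank := fun i hi => hl i (List.mem_cons_of_mem _ hi)
    apply ih hl'
    refine U.PP_W_iff G (hl a List.mem_cons_self) (foldr_lt G l hl' hr) (foldr_lt G l hl' hs) ?_ ?_ h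
    · intro e
      exact h1 (foldr_inj G l hl' hs hr e)
    · intro e
      rw [← foldr_neg G l hl' hr] at e
      exact h2 (foldr_inj G l hl' hs (G.neg_lt hr) e)

include G in
/-- Pairs of negative roots. -/
theorem PP_negneg (hpos : ∀ r s, r < D.nroots → s < D.nroots → NN D ≤ r → NN D ≤ s → s ≠ r → U.PP r s) {r s : ℕ}
    (hr : r < D.nroots) (hs : s < D.nroots) (h3 : r < NN D) (h4 : s < NN D) (h1 : s ≠ r) : U.PP r s := by
  have hl : ∀ i ∈ G.w0, i < D.rank := fun i hi => G.w0_lt hi
  have h2 : s ≠ D.neg r := by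
    have hp : NN D ≤ D.neg r := by
      have := (G.neg_pos (G.neg_lt hr)).not.mp
      by_contra hc
      have h5 := this hc
      rw [G.neg_neg hr] at h5
      omega
    omega
  have hp : ∀ x, x < D.nroots → x < NN D → NN D ≤ G.w0.foldr G.W x := by
    intro x hx hxN
    have hpx : NN D ≤ D.neg x := by
      by_contra hc
      have h5 := (G.neg_pos (G.neg_lt hx)).not.mp hc
      rw [G.neg_neg hx] at h5
      omega
    have h5 := G.w0_neg ⟨D.neg x, G.neg_lt hx⟩ hpx
    rw [G.pp_w0F_val] at h5
    simp only at h5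
    rw [foldr_neg G _ hl hx] at h5
    have h6 := foldr_lt G G.w0 hl hx
    exact (G.neg_pos h6).mpr h5
  refine U.PP_fold G G.w0 hl hr hs h1 h2 (hpos _ _ (foldr_lt G _ hl hr) (foldr_lt G _ hl hs) (hp r hr h3) (hp s hs h4) ?_)
  intro e
  exact h1 (foldr_inj G _ hl hs hr e)

include G in
/-- Pairs of roots of opposite signs. -/
theorem PP_mixed (hpos : ∀ r s, r < D.nroots → s < D.nroots → NN D ≤ r → NN D ≤ s → s ≠ r → U.PP r s) :
    ∀ c, c < D.nroots → NN D ≤ c → ∀ a, a < D.nroots → NN D ≤ a → a ≠ c → U.PP a (D.neg c) ∧ U.PP (D.neg c) a := by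
  have hnegneg := fun r s hr hs h3 h4 h1 => U.PP_negneg G hpos (r := r) (s := s) hr hs h3 h4 h1
  have hsign : ∀ x, x < D.nroots → NN D ≤ x → D.neg x < NN D := fun x hx h => (G.neg_pos hx).mp h
  refine G.pos_induct ?_ ?_
  · intro i hi a ha hN hne
    have hp := G.simple_lt hi
    have hNp := G.simple_pos hi
    have hWa := G.W_lt hi ha
    have hWaN := G.W_pos hi ha hN hne
    have hne2 : D.simple i ≠ G.W i a := by
      intro e
      have e2 : a = G.W i (D.simple i) := by
        rw [e, G.W_W hi ha]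
      rw [G.W_simple hi] at e2
      have := hsign _ hp hNp
      omega
    have hne3 : G.W i a ≠ D.simple i := fun e => hne2 e.symm
    have hn1 := hsign _ hWa hWaN
    have hn2 := hsign _ hp hNp
    constructor
    · have h5 := hpos (G.W i a) (D.simple i) hWa hp hWaN hNp hne2
      have h6 := U.PP_W G hi hWa hp hne2 (by omega) h5
      rwa [G.W_W hi ha, G.W_simple hi] at h6
    · have h5 := hpos (D.simple i) (G.W i a) hp hWa hNp hWaN hne3
      have h6 := U.PP_W G hi hp hWa hne3 (by omega) h5
      rwa [G.W_W hi ha, G.W_simple hi] at h6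
  · intro i r hi hr hN hN' hlt hP a ha hNa hne
    have hp := G.simple_lt hi
    have hNp := G.simple_pos hi
    have hWr := G.W_lt hi hr
    have hnWr := G.neg_lt hWr
    have hnr := G.neg_lt hr
    have eWn : G.W i (D.neg (G.W i r)) = D.neg r := by
      rw [G.W_neg hi hWr, G.W_W hi hr]
    by_cases hai : a = D.simple i
    · subst hai
      have hnp := G.neg_lt hp
      have h3 := hsign _ hp hNp
      have h4 := hsign _ hWr hN'
      have eW : G.W i (D.neg (D.simple i)) = D.simple i := by
        rw [G.W_neg hi hp, G.W_simple hi, G.neg_neg hp]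
      have hne1 : D.neg (G.W i r) ≠ D.neg (D.simple i) := by
        intro e
        have e2 := congrArg D.neg e
        rw [G.neg_neg hWr, G.neg_neg hp] at e2
        have e3 : r = G.W i (D.simple i) := by
          rw [← e2, G.W_W hi hr]
        rw [G.W_simple hi] at e3
        omega
      have hne4 : D.neg (D.simple i) ≠ D.neg (G.W i r) := fun e => hne1 e.symm
      constructor
      · have h5 := hnegneg _ _ hnp hnWr h3 h4 hne1
        have h6 := U.PP_W G hi hnp hnWr hne1 (by
          rw [G.neg_neg hp]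
          omega) h5
        rwa [eW, eWn] at h6
      · have h5 := hnegneg _ _ hnWr hnp h4 h3 hne4
        have h6 := U.PP_W G hi hnWr hnp hne4 (by
          rw [G.neg_neg hWr]
          omega) h5
        rwa [eW, eWn] at h6
    · have hWa := G.W_lt hi ha
      have hWaN := G.W_pos hi ha hNa hai
      have hne1 : G.W i a ≠ G.W i r := by
        intro e
        apply hne
        rw [← G.W_W hi ha, e, G.W_W hi hr]
      obtain ⟨h5, h6⟩ := hP (G.W i a) hWa hWaN hne1
      have h3 := hsign _ hWa hWaN
      have h4 := hsign _ hWr hN'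
      constructor
      · have h7 := U.PP_W G hi hWa hnWr (by omega) (by
          intro e
          have e2 := congrArg D.neg e
          rw [G.neg_neg hWr, G.neg_neg hWa] at e2
          exact hne1 e2.symm) h5
        rwa [G.W_W hi ha, eWn] at h7
      · have h7 := U.PP_W G hi hnWr hWa (by omega) (by
          rw [G.neg_neg hWr]
          exact hne1) h6
        rwa [G.W_W hi ha, eWn] at h7

include G in
/-- All pairs of roots. -/
theorem PP_all (hpos : ∀ r s, r < D.nroots → s < D.nroots → NN D ≤ r → NN D ≤ s → s ≠ r → U.PP r s) {r s : ℕ}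
    (hr : r < D.nroots) (hs : s < D.nroots) (h1 : s ≠ r) (h2 : s ≠ D.neg r) : U.PP r s := by
  have hmix := U.PP_mixed G hpos
  have hn : ∀ x, x < D.nroots → x < NN D → NN D ≤ D.neg x := by
    intro x hx hxN
    by_contra hc
    have h5 := (G.neg_pos (G.neg_lt hx)).not.mp hc
    rw [G.neg_neg hx] at h5
    omega
  by_cases h3 : NN D ≤ r
  · by_cases h4 : NN D ≤ s
    · exact hpos r s hr hs h3 h4 h1
    · have h4' : s < NN D := by omega
      have := (hmix (D.neg s) (G.neg_lt hs) (hn s hs h4') r hr h3 (by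
        intro e
        apply h2
        rw [e, G.neg_neg hs])).1
      rwa [G.neg_neg hs] at this
  · have h3' : r < NN D := by omega
    by_cases h4 : NN D ≤ s
    · have := (hmix (D.neg r) (G.neg_lt hr) (hn r hr h3') s hs h4 h2).2
      rwa [G.neg_neg hr] at this
    · exact U.PP_negneg G hpos hr hs h3' (by omega) h1

omit G in
theorem X_lift_stX (U : UD D K π σ) {r : ℕ} (hr : r < D.nroots) (t : K) :
    FreeGroup.lift (fun p : Fin D.nroots × K => U.X p.1 p.2) (D.stX r t) = U.X r t := by
  unfold ChevalleyDatum.stX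
  rw [dif_pos hr, FreeGroup.lift_apply_of]

omit G in
theorem X_lift_stWord (U : UD D K π σ) (w : List (ℕ × K)) (hw : ∀ a ∈ w, a.1 < D.nroots) :
    FreeGroup.lift (fun p : Fin D.nroots × K => U.X p.1 p.2) (D.stWord w) = wX U.X w := by
  induction w with
  | nil => simp [ChevalleyDatum.stWord, wX]
  | cons a w ih =>
    have := ih (fun b hb => hw b (List.mem_cons_of_mem _ hb))
    simp only [ChevalleyDatum.stWord] at this ⊢
    simp only [List.map_cons, List.prod_cons, map_mul, wX_cons]
    rw [this, X_lift_stX U (hw a List.mem_cons_self)]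

include U G in
/-- The lift to a central extension. -/
theorem exists_lift (hsep : ∀ c e, NN D ≤ c → c < e → e < D.nroots → (∃ (y : D.SteinbergCover K) (χ : ℕ → K), TA D K χ y ∧ χ c = 1 ∧ χ e ≠ 1) ∨
      ∀ t v : K, D.scGen K c t * D.scGen K e v = D.scGen K e v * D.scGen K c t ∧
        cc (U.L (D.scGen K c t)) (U.L (D.scGen K e v)) = 1) :
    ∃ τ : D.SteinbergCover K →* E, π.comp τ = σ := by
  obtain ⟨sf, hsf⟩ := exists_sec U G hsep
  have hpos : ∀ r s, r < D.nroots → s < D.nroots → NN D ≤ r → NN D ≤ s → s ≠ r → U.PP r s :=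
    fun r s hr hs h3 h4 h1 t u => R2_pos G hsf hr hs h3 h4 h1 t u
  have hrels : ∀ g ∈ D.steinbergRelsAB K, FreeGroup.lift (fun p : Fin D.nroots × K => U.X p.1 p.2) g = 1 := by
    rintro g (⟨r, t, u, hr, rfl⟩ | ⟨r, s, t, u, hr, hs, h1, h2, rfl⟩)
    · rw [map_mul, map_mul, map_inv, X_lift_stX U hr, X_lift_stX U hr, X_lift_stX U hr, mul_inv_eq_one, U.X_add hr]
    · have hw : ∀ a ∈ D.commWord K r s t u, a.1 < D.nroots := by
        intro a ha
        simp only [ChevalleyDatum.commWord, List.mem_map] at ha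
        obtain ⟨c, hc, rfl⟩ := ha
        exact G.commTerms_lt hr hs c hc
      simp only [map_mul, map_inv, X_lift_stX U hr, X_lift_stX U hs, X_lift_stWord U _ hw, mul_inv_eq_one]
      have h5 := U.PP_all G hpos hr hs h1 h2 t u
      calc (U.X s u)⁻¹ * (U.X r t)⁻¹ * U.X s u * U.X r t
          = (U.X s u)⁻¹ * (U.X r t)⁻¹ * (U.X s u * U.X r t) := by group
        _ = _ := by rw [h5]; group
  refine ⟨PresentedGroup.toGroup hrels, ?_⟩
  apply PresentedGroup.ext
  intro x
  rw [of_eq_stGenC]
  simp only [MonoidHom.comp_apply]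
  have : (PresentedGroup.toGroup hrels) (D.scGen K x.1 x.2) = U.X x.1 x.2 := by
    show FreeGroup.lift _ (D.stX x.1 x.2) = _
    exact X_lift_stX U x.1.isLt x.2
  rw [this, U.X_lf x.1.isLt]

end UD

end Cfsg.Agent.Lib.Chev
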