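import Cfsg.Agent.Lib.Chev.Cov.Uni4

/-!
Universality of the group presented by (R1), (R2) over fields with more than four elements.
-/

set_option autoImplicit false
set_option linter.unusedSimpArgs false
set_option linter.unusedVariables false
set_option linter.unusedSectionVars false

namespace Cfsg.Agent.Lib.Chev

open Cfsg Cfsg.Lie Cfsg.Agent.Lib.CT
open Good2 (NN rBC gen_mem_rBC rB_leC rB_inductionC wB_memC)

variable {D : ChevalleyDatum} {K : Type*} [Field K]

/-- Combinatorial data for long roots which are not scaled by all of the field. -/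
def HLong (D : ChevalleyDatum) (c : ℕ) : Prop :=
  ∃ (a b f : ℕ) (C₁ C₂ : ℤ) (l : ℕ), a < D.nroots ∧ b < D.nroots ∧ f < D.nroots ∧ l < D.nroots ∧ b ≠ a ∧ b ≠ D.neg a ∧
    D.commTerms a b = [(f, C₁, 1, 1), (c, C₂, 2, 1)] ∧ (C₂ = 1 ∨ C₂ = -1) ∧ c ≠ a ∧ c ≠ D.neg a ∧ c ≠ b ∧ c ≠ D.neg b ∧
    c ≠ f ∧ c ≠ D.neg f ∧ D.commTerms a c = [] ∧ D.commTerms b c = [] ∧ D.commTerms f c = [] ∧
    D.pairing l c = 0 ∧ D.pairing l f ≠ 0 ∧ (D.pairing l f).natAbs ≤ 3

section CE

variable {E G₁ : Type*} [Group E] [Group G₁] {π : E →* G₁} {σ : D.SteinbergCover K →* G₁}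

theorem cc_lf0 (hc : π.ker ≤ Subgroup.center E) {e e' f f' : E} (h1 : π e = π e') (h2 : π f = π f') : cc e f = cc e' f' := by
  have hcen : ∀ (z : E), π z = 1 → ∀ w, z * w = w * z :=
    fun z h w => ((Subgroup.mem_center_iff.mp (hc (MonoidHom.mem_ker.mpr h))) w).symm
  have hz1 : π (e * e'⁻¹) = 1 := by
    rw [map_mul, map_inv, h1, mul_inv_cancel]
  have hz2 : π (f * f'⁻¹) = 1 := by
    rw [map_mul, map_inv, h2, mul_inv_cancel]
  have e1 : e = (e * e'⁻¹) * e' := by group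
  have e2 : f = (f * f'⁻¹) * f' := by group
  rw [e1, e2, cc_central_left (hcen _ hz1), cc_central_right (hcen _ hz2)]

theorem comm0 (hc : π.ker ≤ Subgroup.center E) {a y h : D.SteinbergCover K} (h1 : a * y = y * a) (h2 : a * h = h * a)
    {e f g : E} (he : π e = σ a) (hf : π f = σ y) (hg : π g = σ h) : e * cc f g = cc f g * e := by
  have e1 : e * cc f g * e⁻¹ = cc f g := by
    have e2 : e * cc f g * e⁻¹ = cc (e * f * e⁻¹) (e * g * e⁻¹) := by
      unfold cc
      group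
    rw [e2]
    apply cc_lf0 hc
    · rw [map_mul, map_mul, map_inv, he, hf, ← map_inv, ← map_mul, ← map_mul]
      congr 1
      rw [h1]
      group
    · rw [map_mul, map_mul, map_inv, he, hg, ← map_inv, ← map_mul, ← map_mul]
      congr 1
      rw [h2]
      group
  calc e * cc f g = (e * cc f g * e⁻¹) * e := by group
    _ = _ := by rw [e1]

/-- The lifts of a long root group commute. -/
theorem hab_long (G : Good5 D) (hc : π.ker ≤ Subgroup.center E) {L : D.SteinbergCover K → E} (hL : ∀ a, π (L a) = σ a)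
    (hK5 : ∃ s : Finset K, 4 < s.card) {c : ℕ} (hr : c < D.nroots) (hH : HLong D c) (v w : K) :
    cc (L (D.scGen K c v)) (L (D.scGen K c w)) = 1 := by
  obtain ⟨a, b, f, C₁, C₂, l, ha, hb, hf, hl, hba, hbn, hT, hC, h1, h2, h3, h4, h5, h6, hT1, hT2, hT3, hl1, hl2, hl3⟩ := hH
  have hcen : ∀ (z : E), π z = 1 → ∀ w, z * w = w * z :=
    fun z h w => ((Subgroup.mem_center_iff.mp (hc (MonoidHom.mem_ker.mpr h))) w).symm
  -- the root element commutes with three others
  have hcomm : ∀ {x : ℕ}, x < D.nroots → c ≠ x → c ≠ D.neg x → D.commTerms x c = [] → ∀ (t u : K),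
      D.scGen K c u * D.scGen K x t = D.scGen K x t * D.scGen K c u := by
    intro x hx h7 h8 h9 t u
    have := stGen_R2C hx hr h7 h8 t u
    simp only [ChevalleyDatum.commWord, h9, List.map_nil] at this
    rw [this]
    simp [wBC]
  obtain ⟨t₀, ht₀, ht₁⟩ := exists_zpow_ne hK5 hl2 hl3
  obtain ⟨y, hy⟩ := G.tor_exists hl ht₀
  have hy1 : chiP D l t₀ c = 1 := by
    unfold chiP
    rw [hl1, zpow_zero]
  have hy2 : chiP D l t₀ f ≠ 1 := ht₁
  have hyc : ∀ u : K, D.scGen K c u * y = y * D.scGen K c u := by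
    intro u
    have := hy.act c hr u
    rw [hy1, one_mul, mul_inv_eq_iff_eq_mul] at this
    exact this.symm
  set g := D.scGen K c v with hg
  set e := L g with he
  have hlg : π e = σ g := hL _
  have hCs : ((C₂ : ℤ) : K) * (C₂ : K) = 1 := sign_sq hC
  set u : K := (C₂ : K) * w with hu
  have hv : (C₂ : K) * u = w := by
    rw [hu, ← mul_assoc, hCs, one_mul]
  have hR2 := stGen_R2C ha hb hba hbn (-1 : K) u
  have hwd : wBC D K (D.commWord K a b (-1) u) = D.scGen K f ((C₁ : K) * u) * D.scGen K c w := by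
    simp only [ChevalleyDatum.commWord, hT, List.map_cons, List.map_nil, wB_consC, neg_neg, one_pow, mul_one, pow_one]
    rw [hv]
    simp [wBC]
  rw [hwd] at hR2
  set A := D.scGen K a (-1) with hA
  set B := D.scGen K b u with hB
  set z := D.scGen K f ((C₁ : K) * u) with hz
  have hdec : D.scGen K c w = z⁻¹ * cc B⁻¹ A⁻¹ := by
    have : z * D.scGen K c w = cc B⁻¹ A⁻¹ := by
      unfold cc
      simp only [inv_inv]
      calc z * D.scGen K c w = (A * B)⁻¹ * (A * B * (z * D.scGen K c w)) := by group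
        _ = (A * B)⁻¹ * (B * A) := by rw [← hR2]
        _ = _ := by group
    rw [← this]
    group
  have e1 : cc e (L (D.scGen K c w)) = cc e (L z⁻¹ * cc (L B⁻¹) (L A⁻¹)) := by
    apply cc_lf0 hc rfl
    rw [map_mul, map_cc, hL, hL, hL, hL, ← map_cc, ← map_mul, ← hdec]
  have e2 : e * cc (L B⁻¹) (L A⁻¹) = cc (L B⁻¹) (L A⁻¹) * e := by
    apply comm0 hc (a := g) (y := B⁻¹) (h := A⁻¹) ?_ ?_ hlg (hL _) (hL _)
    · have := hcomm hb h3 h4 hT2 u v
      rw [← hB, ← hg] at this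
      calc g * B⁻¹ = B⁻¹ * (B * g) * B⁻¹ := by group
        _ = B⁻¹ * (g * B) * B⁻¹ := by rw [this]
        _ = _ := by group
    · have := hcomm ha h1 h2 hT1 (-1) v
      rw [← hA, ← hg] at this
      calc g * A⁻¹ = A⁻¹ * (A * g) * A⁻¹ := by group
        _ = A⁻¹ * (g * A) * A⁻¹ := by rw [this]
        _ = _ := by group
  have e3 : e * L z⁻¹ = L z⁻¹ * e := by
    have hf' := sub_ne_zero.mpr hy2
    have hz' : z⁻¹ = D.scGen K f (-((C₁ : K) * u)) := Good2.stGen_invC hf _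
    set z' := -((C₁ : K) * u) / (chiP D l t₀ f - 1) with hz''
    have e4 : z⁻¹ = cc y (D.scGen K f z') := by
      rw [cc_TA hy hf, hz', hz'']
      congr 1
      field_simp
    have e5 : e * cc (L y) (L (D.scGen K f z')) = cc (L y) (L (D.scGen K f z')) * e := by
      apply comm0 hc (a := g) (y := y) (h := D.scGen K f z') (hyc v) ?_ hlg (hL _) (hL _)
      exact hcomm hf h5 h6 hT3 z' v
    have hzz : π (L z⁻¹ * (cc (L y) (L (D.scGen K f z')))⁻¹) = 1 := by
      rw [map_mul, map_inv, map_cc, hL, hL, hL, ← map_cc, ← e4, mul_inv_cancel]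
    have e6 : L z⁻¹ = (L z⁻¹ * (cc (L y) (L (D.scGen K f z')))⁻¹) * cc (L y) (L (D.scGen K f z')) := by group
    rw [e6]
    calc e * (L z⁻¹ * (cc (L y) (L (D.scGen K f z')))⁻¹ * cc (L y) (L (D.scGen K f z')))
        = (e * (L z⁻¹ * (cc (L y) (L (D.scGen K f z')))⁻¹)) * cc (L y) (L (D.scGen K f z')) := by group
      _ = (L z⁻¹ * (cc (L y) (L (D.scGen K f z')))⁻¹) * (e * cc (L y) (L (D.scGen K f z'))) := by
          rw [← hcen _ hzz e]
          group
      _ = _ := by rw [e5]; group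
  rw [e1]
  unfold cc
  have e7 : e * (L z⁻¹ * (L B⁻¹ * L A⁻¹ * (L B⁻¹)⁻¹ * (L A⁻¹)⁻¹)) = (L z⁻¹ * (L B⁻¹ * L A⁻¹ * (L B⁻¹)⁻¹ * (L A⁻¹)⁻¹)) * e := by
    have e8 : e * cc (L B⁻¹) (L A⁻¹) = cc (L B⁻¹) (L A⁻¹) * e := e2
    unfold cc at e8
    calc e * (L z⁻¹ * (L B⁻¹ * L A⁻¹ * (L B⁻¹)⁻¹ * (L A⁻¹)⁻¹)) = (e * L z⁻¹) * (L B⁻¹ * L A⁻¹ * (L B⁻¹)⁻¹ * (L A⁻¹)⁻¹) := by group
      _ = L z⁻¹ * (e * (L B⁻¹ * L A⁻¹ * (L B⁻¹)⁻¹ * (L A⁻¹)⁻¹)) := by rw [e3]; group
      _ = _ := by rw [e8]; group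
  rw [e7]
  group

/-- Universality. -/
theorem universal_of (G : Good5 D) (hK5 : ∃ s : Finset K, 4 < s.card)
    (hself : ∀ c, c < D.nroots → (∃ l, l < D.nroots ∧ (D.pairing l c = 1 ∨ D.pairing l c = -1)) ∨ HLong D c)
    (hsep : ∀ c e, NN D ≤ c → c < e → e < D.nroots → ∃ l, l < D.nroots ∧ D.pairing l c = 0 ∧ D.pairing l e ≠ 0 ∧
      (D.pairing l e).natAbs ≤ 3)
    (hperf : commutator (D.SteinbergCover K) = ⊤)
    (hπ : Function.Surjective π) (hc : π.ker ≤ Subgroup.center E) (σ : D.SteinbergCover K →* G₁) :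
    ∃! τ : D.SteinbergCover K →* E, π.comp τ = σ := by
  have hz : ∃ z : K, z ≠ 0 ∧ z ^ 3 ≠ 1 := exists_pow_ne hK5 (by norm_num) le_rfl
  let L : D.SteinbergCover K → E := fun a => Function.surjInv hπ (σ a)
  have hL : ∀ a, π (L a) = σ a := fun a => Function.surjInv_eq hπ _
  have hTor : ∀ c, ∃ (y : D.SteinbergCover K) (χ : ℕ → K), c < D.nroots → TA D K χ y ∧ χ c ≠ 1 := by
    intro c
    by_cases hc' : c < D.nroots
    · obtain ⟨t, h0, h1⟩ := exists_pow_ne hK5 (m := 2) (by norm_num) (by norm_num)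
      obtain ⟨y, hy⟩ := G.tor_exists hc' h0
      refine ⟨y, _, fun _ => ⟨hy, ?_⟩⟩
      rw [G.chi_selfC hc']
      exact h1
    · exact ⟨1, fun _ => 1, fun h => absurd h hc'⟩
  choose Y C hYC using hTor
  have hab : ∀ c, c < D.nroots → ∀ t u : K, cc (L (D.scGen K c t)) (L (D.scGen K c u)) = 1 := by
    intro c hc' t u
    rcases hself c hc' with ⟨l, hl, h1⟩ | h1
    · apply hab_of hc hL hz hc'
      intro d hd
      rcases h1 with h2 | h2
      · obtain ⟨y, hy⟩ := G.tor_exists hl hd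
        refine ⟨y, _, hy, ?_⟩
        unfold chiP
        rw [h2, zpow_one]
      · obtain ⟨y, hy⟩ := G.tor_exists hl (inv_ne_zero hd)
        refine ⟨y, _, hy, ?_⟩
        unfold chiP
        rw [h2, zpow_neg, zpow_one, inv_inv]
    · exact hab_long G hc hL hK5 hc' h1 t u
  let U : UD D K π σ := ⟨hc, L, hL, Y, C, fun c h => (hYC c h).1, fun c h => (hYC c h).2, hab⟩
  have hsep' : ∀ c e, NN D ≤ c → c < e → e < D.nroots →
      ∃ (y : D.SteinbergCover K) (χ : ℕ → K), TA D K χ y ∧ χ c = 1 ∧ χ e ≠ 1 := by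
    intro c e h1 h2 h3
    obtain ⟨l, hl, h4, h5, h6⟩ := hsep c e h1 h2 h3
    obtain ⟨t, h0, h7⟩ := exists_zpow_ne hK5 h5 h6
    obtain ⟨y, hy⟩ := G.tor_exists hl h0
    refine ⟨y, _, hy, ?_, h7⟩
    unfold chiP
    rw [h4, zpow_zero]
  obtain ⟨τ, hτ⟩ := U.exists_lift G (fun c e h1 h2 h3 => Or.inl (hsep' c e h1 h2 h3))
  refine ⟨τ, hτ, fun τ' hτ' => ?_⟩
  -- uniqueness
  have hpt : ∀ x, π (τ' x) = π (τ x) := by
    intro x
    have h1 := DFunLike.congr_fun hτ x
    have h2 := DFunLike.congr_fun hτ' x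
    simp only [MonoidHom.comp_apply] at h1 h2
    rw [h1, h2]
  have hle : commutator (D.SteinbergCover K) ≤ MonoidHom.eqLocus τ' τ := by
    rw [commutator_def, Subgroup.commutator_le]
    intro a _ b _
    show τ' (cc a b) = τ (cc a b)
    rw [map_cc, map_cc]
    exact cc_lf0 hc (hpt a) (hpt b)
  rw [hperf] at hle
  ext x
  exact hle (Subgroup.mem_top (PresentedGroup.of x))

end CE

/-- pairing in a table -/
def pairF (T : Tbl) (r s : ℕ) : ℤ := ((List.range T.l).map fun i => T.cor r i * T.car i s).sum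

theorem pairF_tblOf (D : ChevalleyDatum) (r s : ℕ) : pairF (tblOf D) r s = D.pairing r s := rfl

/-- The check for the elements separating roots. -/
def chkSep (T : Tbl) : Bool :=
  allLt T.n fun c => Nat.blt c (T.n / 2) || allLt T.n fun e => Nat.ble e c || (List.range T.n).any fun l =>
    decide (pairF T l c = 0) && !decide (pairF T l e = 0) && decide ((pairF T l e).natAbs ≤ 3)

/-- The check for the partner of a root. -/
def chkPart (T : Tbl) : Bool :=
  allLt T.n fun c => (List.range T.n).any fun l => decide (pairF T l c = 1) || decide (pairF T l c = -1)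

theorem sep_of_chk (h : chkSep (tblOf D) = true) : ∀ c e, NN D ≤ c → c < e → e < D.nroots →
    ∃ l, l < D.nroots ∧ D.pairing l c = 0 ∧ D.pairing l e ≠ 0 ∧ (D.pairing l e).natAbs ≤ 3 := by
  intro c e h1 h2 h3
  have h4 := (allLt_iff _ _).mp h c (lt_trans h2 h3)
  simp only [Bool.or_eq_true] at h4
  rcases h4 with h4 | h4
  · have : c < D.nroots / 2 := Nat.blt_eq.mp h4
    have h5 : D.nroots / 2 ≤ c := h1
    omega
  · have h5 := (allLt_iff _ _).mp h4 e h3
    simp only [Bool.or_eq_true] at h5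
    rcases h5 with h5 | h5
    · have : e ≤ c := Nat.le_of_ble_eq_true h5
      omega
    · obtain ⟨l, hl, h6⟩ := List.any_eq_true.mp h5
      simp only [Bool.and_eq_true, Bool.not_eq_true', decide_eq_true_eq, decide_eq_false_iff_not] at h6
      exact ⟨l, List.mem_range.mp hl, h6.1.1, h6.1.2, h6.2⟩

theorem part_of_chk (h : chkPart (tblOf D) = true) : ∀ c, c < D.nroots →
    ∃ l, l < D.nroots ∧ (D.pairing l c = 1 ∨ D.pairing l c = -1) := by
  intro c hc
  have h4 := (allLt_iff _ _).mp h c hc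
  obtain ⟨l, hl, h6⟩ := List.any_eq_true.mp h4
  simp only [Bool.or_eq_true, decide_eq_true_eq] at h6
  exact ⟨l, List.mem_range.mp hl, h6⟩

end Cfsg.Agent.Lib.Chev
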