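import Cfsg.Agent.Lib.Chev.Cov.Uni5

/-!
Universality of the group presented by (R1), (R2) over small fields: three and four elements.
-/

set_option autoImplicit false
set_option linter.unusedSimpArgs false
set_option linter.unusedVariables false
set_option linter.unusedSectionVars false

namespace Cfsg.Agent.Lib.CT

theorem exists_zpow_ne4 {K : Type*} [Field K] (hK : ∃ s : Finset K, 3 < s.card) {m : ℤ} (hm : m ≠ 0) (hm3 : m.natAbs ≤ 2) :
    ∃ t : K, t ≠ 0 ∧ t ^ m ≠ 1 := by
  classical
  obtain ⟨s, hs⟩ := hK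
  have hc : (({0, 1, -1} : Finset K)).card < s.card := by
    have : (({0, 1, -1} : Finset K)).card ≤ 3 := Finset.card_le_three
    omega
  obtain ⟨t, ht, ht2⟩ := Finset.exists_mem_notMem_of_card_lt_card hc
  simp only [Finset.mem_insert, Finset.mem_singleton, not_or] at ht2
  obtain ⟨h0, h1, h2⟩ := ht2
  have hsq : t ^ 2 ≠ 1 := by
    intro h
    have : (t - 1) * (t + 1) = 0 := by linear_combination h
    rcases mul_eq_zero.mp this with h3 | h3
    · exact h1 (sub_eq_zero.mp h3)
    · exact h2 (by linear_combination h3)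
  refine ⟨t, h0, ?_⟩
  have hcases : m = 1 ∨ m = 2 ∨ m = -1 ∨ m = -2 := by omega
  rcases hcases with rfl | rfl | rfl | rfl
  · simpa using h1
  · exact_mod_cast hsq
  · intro h
    apply h1
    have := zpow_neg t 1
    rw [h] at this
    simpa using (inv_eq_one.mp (by simpa using this.symm))
  · intro h
    apply hsq
    have := zpow_neg t 2
    rw [h] at this
    have h3 : (t ^ (2 : ℤ))⁻¹ = 1 := this.symm
    have h4 := inv_eq_one.mp h3
    exact_mod_cast h4

end Cfsg.Agent.Lib.CT

namespace Cfsg.Agent.Lib.Chev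

open Cfsg Cfsg.Lie Cfsg.Agent.Lib.CT
open Good2 (NN rBC gen_mem_rBC rB_leC rB_inductionC wB_memC)

variable {D : ChevalleyDatum} {K : Type*} [Field K]

/-- A root which is a sum of two roots commuting with it. -/
def HSum (D : ChevalleyDatum) (c : ℕ) : Prop :=
  ∃ (a b : ℕ) (C : ℤ), a < D.nroots ∧ b < D.nroots ∧ b ≠ a ∧ b ≠ D.neg a ∧ D.commTerms a b = [(c, C, 1, 1)] ∧
    (C = 1 ∨ C = -1) ∧ c ≠ a ∧ c ≠ D.neg a ∧ c ≠ b ∧ c ≠ D.neg b ∧ D.commTerms a c = [] ∧ D.commTerms b c = []

theorem root_commC {x c : ℕ} (hx : x < D.nroots) (hr : c < D.nroots) (h7 : c ≠ x) (h8 : c ≠ D.neg x)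
    (h9 : D.commTerms x c = []) (t u : K) : D.scGen K c u * D.scGen K x t = D.scGen K x t * D.scGen K c u := by
  have := stGen_R2C hx hr h7 h8 t u
  simp only [ChevalleyDatum.commWord, h9, List.map_nil] at this
  rw [this]
  simp [wBC]

section CE

variable {E G₁ : Type*} [Group E] [Group G₁] {π : E →* G₁} {σ : D.SteinbergCover K →* G₁}

/-- The lifts of a root group which lies in a commutator commute. -/
theorem hab_sum (hc : π.ker ≤ Subgroup.center E) {L : D.SteinbergCover K → E} (hL : ∀ a, π (L a) = σ a)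
    {c : ℕ} (hr : c < D.nroots) (hH : HSum D c) (v w : K) :
    cc (L (D.scGen K c v)) (L (D.scGen K c w)) = 1 := by
  obtain ⟨a, b, C, ha, hb, hba, hbn, hT, hC, h1, h2, h3, h4, hT1, hT2⟩ := hH
  set g := D.scGen K c v with hg
  set e := L g with he
  have hlg : π e = σ g := hL _
  have hCs : ((C : ℤ) : K) * (C : K) = 1 := sign_sq hC
  set u : K := (C : K) * w with hu
  have hv : (C : K) * u = w := by
    rw [hu, ← mul_assoc, hCs, one_mul]
  have hR2 := stGen_R2C ha hb hba hbn (-1 : K) u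
  have hwd : wBC D K (D.commWord K a b (-1) u) = D.scGen K c w := by
    simp only [ChevalleyDatum.commWord, hT, List.map_cons, List.map_nil, wB_consC, neg_neg, one_pow, mul_one, pow_one]
    rw [hv]
    simp [wBC]
  rw [hwd] at hR2
  set A := D.scGen K a (-1) with hA
  set B := D.scGen K b u with hB
  have hdec : D.scGen K c w = cc B⁻¹ A⁻¹ := by
    unfold cc
    simp only [inv_inv]
    calc D.scGen K c w = (A * B)⁻¹ * (A * B * D.scGen K c w) := by group
      _ = (A * B)⁻¹ * (B * A) := by rw [← hR2]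
      _ = _ := by group
  have e1 : cc e (L (D.scGen K c w)) = cc e (cc (L B⁻¹) (L A⁻¹)) := by
    apply cc_lf0 hc rfl
    rw [map_cc, hL, hL, hL, ← map_cc, ← hdec]
  have e2 : e * cc (L B⁻¹) (L A⁻¹) = cc (L B⁻¹) (L A⁻¹) * e := by
    apply comm0 hc (a := g) (y := B⁻¹) (h := A⁻¹) ?_ ?_ hlg (hL _) (hL _)
    · have := root_commC hb hr h3 h4 hT2 u v
      rw [← hB, ← hg] at this
      calc g * B⁻¹ = B⁻¹ * (B * g) * B⁻¹ := by group
        _ = B⁻¹ * (g * B) * B⁻¹ := by rw [this]
        _ = _ := by group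
    · have := root_commC ha hr h1 h2 hT1 (-1) v
      rw [← hA, ← hg] at this
      calc g * A⁻¹ = A⁻¹ * (A * g) * A⁻¹ := by group
        _ = A⁻¹ * (g * A) * A⁻¹ := by rw [this]
        _ = _ := by group
  rw [e1]
  have e3 : cc e (cc (L B⁻¹) (L A⁻¹)) = e * cc (L B⁻¹) (L A⁻¹) * e⁻¹ * (cc (L B⁻¹) (L A⁻¹))⁻¹ := rfl
  rw [e3, e2]
  group

/-- The core of universality over small fields. -/
theorem lift_core (G : Good5 D) (h3 : ∃ x : K, x ≠ 0 ∧ x ≠ 1)
    (hpart : ∀ c, c < D.nroots → ∃ l, l < D.nroots ∧ (D.pairing l c = 1 ∨ D.pairing l c = -1))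
    (hab : ∀ c, c < D.nroots → HSum D c)
    (hsep : ∀ (L : D.SteinbergCover K → E), (∀ a, π (L a) = σ a) → ∀ c e, NN D ≤ c → c < e → e < D.nroots →
      (∃ (y : D.SteinbergCover K) (χ : ℕ → K), TA D K χ y ∧ χ c = 1 ∧ χ e ≠ 1) ∨
      ∀ t v : K, D.scGen K c t * D.scGen K e v = D.scGen K e v * D.scGen K c t ∧
        cc (L (D.scGen K c t)) (L (D.scGen K e v)) = 1)
    (hperf : commutator (D.SteinbergCover K) = ⊤)
    (hπ : Function.Surjective π) (hc : π.ker ≤ Subgroup.center E) :
    ∃! τ : D.SteinbergCover K →* E, π.comp τ = σ := by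
  let L : D.SteinbergCover K → E := fun a => Function.surjInv hπ (σ a)
  have hL : ∀ a, π (L a) = σ a := fun a => Function.surjInv_eq hπ _
  obtain ⟨x, hx0, hx1⟩ := h3
  have hTor : ∀ c, ∃ (y : D.SteinbergCover K) (χ : ℕ → K), c < D.nroots → TA D K χ y ∧ χ c ≠ 1 := by
    intro c
    by_cases hc' : c < D.nroots
    · obtain ⟨l, hl, h1⟩ := hpart c hc'
      obtain ⟨y, hy⟩ := G.tor_exists hl hx0
      refine ⟨y, _, fun _ => ⟨hy, ?_⟩⟩
      unfold chiP
      rcases h1 with h1 | h1
      · rw [h1, zpow_one]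
        exact hx1
      · rw [h1, zpow_neg, zpow_one]
        intro h
        exact hx1 (inv_eq_one.mp h)
    · exact ⟨1, fun _ => 1, fun h => absurd h hc'⟩
  choose Y C hYC using hTor
  let U : UD D K π σ := ⟨hc, L, hL, Y, C, fun c h => (hYC c h).1, fun c h => (hYC c h).2,
    fun c hc' t u => hab_sum hc hL hc' (hab c hc') t u⟩
  obtain ⟨τ, hτ⟩ := U.exists_lift G (fun c e h1 h2 h3 => hsep L hL c e h1 h2 h3)
  refine ⟨τ, hτ, fun τ' hτ' => ?_⟩
  have hpt : ∀ x, π (τ' x) = π (τ x) := by
    intro x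
    have h1 := DFunLike.congr_fun hτ x
    have h2 := DFunLike.congr_fun hτ' x
    simp only [MonoidHom.comp_apply] at h1 h2
    rw [h1, h2]
  have hle : commutator (D.SteinbergCover K) ≤ MonoidHom.eqLocus τ' τ := by
    rw [commutator_def, Subgroup.commutator_le]
    intro a _ b _
    show τ' (cc a b) = τ (cc a b)
    rw [map_cc, map_cc]
    exact cc_lf0 hc (hpt a) (hpt b)
  rw [hperf] at hle
  ext x
  exact hle (Subgroup.mem_top (PresentedGroup.of x))

/-- Sign of a word. -/
def foldSf (W : ℕ → ℕ → ℕ) (S : ℕ → ℕ → ℤ) : List ℕ → ℕ → ℤ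
  | [], _ => 1
  | i :: l, c => S i (l.foldr W c) * foldSf W S l c

theorem cc_WC (G : Good5 D) (hc : π.ker ≤ Subgroup.center E) {L : D.SteinbergCover K → E} (hL : ∀ a, π (L a) = σ a)
    {i : ℕ} (hi : i < D.rank) {c e : ℕ} (hc' : c < D.nroots) (he' : e < D.nroots) {t u : K}
    (hcomm : D.scGen K c t * D.scGen K e u = D.scGen K e u * D.scGen K c t) :
    D.scGen K (G.W i c) (((G.S i c : ℤ) : K) * t) * D.scGen K (G.W i e) (((G.S i e : ℤ) : K) * u) =
        D.scGen K (G.W i e) (((G.S i e : ℤ) : K) * u) * D.scGen K (G.W i c) (((G.S i c : ℤ) : K) * t) ∧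
      cc (L (D.scGen K (G.W i c) (((G.S i c : ℤ) : K) * t))) (L (D.scGen K (G.W i e) (((G.S i e : ℤ) : K) * u))) =
        cc (L (D.scGen K c t)) (L (D.scGen K e u)) := by
  have h1 := G.nB_conjC hi hc' (K := K) t
  have h2 := G.nB_conjC hi he' (K := K) u
  set n := nBC D K (D.simple i) 1 with hn
  rw [← h1, ← h2]
  constructor
  · calc n * D.scGen K c t * n⁻¹ * (n * D.scGen K e u * n⁻¹) = n * (D.scGen K c t * D.scGen K e u) * n⁻¹ := by group
      _ = n * (D.scGen K e u * D.scGen K c t) * n⁻¹ := by rw [hcomm]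
      _ = _ := by group
  · have hcen : ∀ w, cc (L (D.scGen K c t)) (L (D.scGen K e u)) * w = w * cc (L (D.scGen K c t)) (L (D.scGen K e u)) := by
      intro w
      have h3 : π (cc (L (D.scGen K c t)) (L (D.scGen K e u))) = 1 := by
        rw [map_cc, hL, hL, ← map_cc]
        have : cc (D.scGen K c t) (D.scGen K e u) = 1 := by
          unfold cc
          rw [hcomm]
          group
        rw [this, map_one]
      exact ((Subgroup.mem_center_iff.mp (hc (MonoidHom.mem_ker.mpr h3))) w).symm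
    have e1 : cc (L (n * D.scGen K c t * n⁻¹)) (L (n * D.scGen K e u * n⁻¹)) =
        cc (L n * L (D.scGen K c t) * (L n)⁻¹) (L n * L (D.scGen K e u) * (L n)⁻¹) := by
      apply cc_lf0 hc
      · simp only [map_mul, map_inv, hL]
      · simp only [map_mul, map_inv, hL]
    rw [e1]
    have e2 : cc (L n * L (D.scGen K c t) * (L n)⁻¹) (L n * L (D.scGen K e u) * (L n)⁻¹) =
        L n * cc (L (D.scGen K c t)) (L (D.scGen K e u)) * (L n)⁻¹ := by
      unfold cc
      group
    rw [e2, ← hcen]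
    group

theorem cc_fold (G : Good5 D) (hc : π.ker ≤ Subgroup.center E) {L : D.SteinbergCover K → E} (hL : ∀ a, π (L a) = σ a)
    (l : List ℕ) (hl : ∀ i ∈ l, i < D.rank) {c e : ℕ} (hc' : c < D.nroots) (he' : e < D.nroots) {t u : K}
    (hcomm : D.scGen K c t * D.scGen K e u = D.scGen K e u * D.scGen K c t) :
    D.scGen K (l.foldr G.W c) (((foldSf G.W G.S l c : ℤ) : K) * t) * D.scGen K (l.foldr G.W e) (((foldSf G.W G.S l e : ℤ) : K) * u) =
        D.scGen K (l.foldr G.W e) (((foldSf G.W G.S l e : ℤ) : K) * u) * D.scGen K (l.foldr G.W c) (((foldSf G.W G.S l c : ℤ) : K) * t) ∧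
      cc (L (D.scGen K (l.foldr G.W c) (((foldSf G.W G.S l c : ℤ) : K) * t)))
        (L (D.scGen K (l.foldr G.W e) (((foldSf G.W G.S l e : ℤ) : K) * u))) =
        cc (L (D.scGen K c t)) (L (D.scGen K e u)) := by
  induction l with
  | nil =>
    simp only [List.foldr_nil, foldSf, Int.cast_one, one_mul]
    exact ⟨hcomm, trivial⟩
  | cons i l ih =>
    have hi := hl i List.mem_cons_self
    obtain ⟨h1, h2⟩ := ih fun j hj => hl j (List.mem_cons_of_mem _ hj)
    have hc1 := UD.foldr_lt G l (fun j hj => hl j (List.mem_cons_of_mem _ hj)) hc'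
    have he1 := UD.foldr_lt G l (fun j hj => hl j (List.mem_cons_of_mem _ hj)) he'
    obtain ⟨h3, h4⟩ := cc_WC G hc hL hi hc1 he1 h1
    simp only [List.foldr_cons, foldSf, Int.cast_mul, mul_assoc]
    exact ⟨h3, h4.trans h2⟩

/-- Pairs of roots which are swapped by a Weyl group element, over the field with three elements. -/
theorem swap_zero (G : Good5 D) (hc : π.ker ≤ Subgroup.center E) {L : D.SteinbergCover K → E} (hL : ∀ a, π (L a) = σ a)
    (h3K : ∀ x : K, x = 0 ∨ x = 1 ∨ x = -1) (h30 : (1 : K) + 1 + 1 = 0) {c e : ℕ} (hc' : c < D.nroots) (he' : e < D.nroots)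
    (hne : e ≠ c) (hne2 : e ≠ D.neg c) (hT : D.commTerms c e = []) (l : List ℕ) (hl : ∀ i ∈ l, i < D.rank)
    (h1 : l.foldr G.W c = e) (h2 : l.foldr G.W e = c) (hs : foldSf G.W G.S l c = foldSf G.W G.S l e)
    (hs1 : foldSf G.W G.S l c = 1 ∨ foldSf G.W G.S l c = -1) (t u : K) :
    D.scGen K c t * D.scGen K e u = D.scGen K e u * D.scGen K c t ∧ cc (L (D.scGen K c t)) (L (D.scGen K e u)) = 1 := by
  have hcomm : ∀ t u : K, D.scGen K c t * D.scGen K e u = D.scGen K e u * D.scGen K c t :=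
    fun t u => (root_commC hc' he' hne hne2 hT t u).symm
  refine ⟨hcomm t u, ?_⟩
  set b : K → K → E := fun t u => cc (L (D.scGen K c t)) (L (D.scGen K e u)) with hb
  have hcen : ∀ t u w, b t u * w = w * b t u := by
    intro t u w
    have h3 : π (b t u) = 1 := by
      simp only [hb]
      rw [map_cc, hL, hL, ← map_cc]
      have : cc (D.scGen K c t) (D.scGen K e u) = 1 := by
        unfold cc
        rw [hcomm]
        group
      rw [this, map_one]
    exact ((Subgroup.mem_center_iff.mp (hc (MonoidHom.mem_ker.mpr h3))) w).symm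
  have hadd1 : ∀ t t' u, b (t + t') u = b t u * b t' u := by
    intro t t' u
    simp only [hb]
    have e1 : cc (L (D.scGen K c (t + t'))) (L (D.scGen K e u)) =
        cc (L (D.scGen K c t) * L (D.scGen K c t')) (L (D.scGen K e u)) := by
      apply cc_lf0 hc _ rfl
      rw [hL, map_mul, hL, hL, ← map_mul, stGen_R1C hc']
    rw [e1, cc_mul_left (hcen t' u)]
  have hadd2 : ∀ t u u', b t (u + u') = b t u * b t u' := by
    intro t u u'
    simp only [hb]
    have e1 : cc (L (D.scGen K c t)) (L (D.scGen K e (u + u'))) =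
        cc (L (D.scGen K c t)) (L (D.scGen K e u) * L (D.scGen K e u')) := by
      apply cc_lf0 hc rfl
      rw [hL, map_mul, hL, hL, ← map_mul, stGen_R1C he']
    rw [e1, cc_mul_right (hcen t u')]
  have hz1 : ∀ u, b 0 u = 1 := by
    intro u
    have := hadd1 0 0 u
    rw [add_zero] at this
    exact left_eq_mul.mp this
  have hz2 : ∀ t, b t 0 = 1 := by
    intro t
    have := hadd2 t 0 0
    rw [add_zero] at this
    exact left_eq_mul.mp this
  have hneg1 : ∀ t u, b (-t) u = (b t u)⁻¹ := by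
    intro t u
    have := hadd1 t (-t) u
    rw [add_neg_cancel, hz1] at this
    exact (eq_inv_of_mul_eq_one_right this.symm)
  have hneg2 : ∀ t u, b t (-u) = (b t u)⁻¹ := by
    intro t u
    have := hadd2 t u (-u)
    rw [add_neg_cancel, hz2] at this
    exact (eq_inv_of_mul_eq_one_right this.symm)
  have hflip : ∀ x y : E, cc x y = (cc y x)⁻¹ := by
    intro x y
    unfold cc
    group
  have hsw : (b ((foldSf G.W G.S l e : ℤ) * 1) ((foldSf G.W G.S l c : ℤ) * 1))⁻¹ = b 1 1 := by
    have := (cc_fold G hc hL l hl hc' he' (hcomm 1 1)).2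
    rw [h1, h2, hflip] at this
    exact this
  rw [← hs] at hsw
  have hβ : (b 1 1)⁻¹ = b 1 1 := by
    rcases hs1 with h5 | h5
    · rw [h5] at hsw
      simpa using hsw
    · rw [h5] at hsw
      simp only [Int.reduceNeg, Int.cast_neg, Int.cast_one, neg_mul, one_mul] at hsw
      rw [hneg1, hneg2, inv_inv] at hsw
      exact hsw
  have hβ1 : b 1 1 = 1 := by
    have e1 : b (1 + 1 + 1) 1 = 1 := by
      rw [h30, hz1]
    rw [hadd1, hadd1] at e1
    have e2 : b 1 1 * b 1 1 = 1 := by
      nth_rewrite 1 [← hβ]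
      group
    rw [e2, one_mul] at e1
    exact e1
  change b t u = 1
  rcases h3K t with rfl | rfl | rfl
  · exact hz1 u
  · rcases h3K u with rfl | rfl | rfl
    · exact hz2 _
    · exact hβ1
    · rw [hneg2, hβ1, inv_one]
  · rcases h3K u with rfl | rfl | rfl
    · exact hz2 _
    · rw [hneg1, hβ1, inv_one]
    · rw [hneg1, hneg2, hβ1, inv_one, inv_one]

end CE

/-- The check for roots being sums. -/
def chkSum (T : Tbl) : Bool :=
  allLt T.n fun c => (List.range T.n).any fun a => (List.range T.n).any fun b =>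
    !Nat.beq b a && !Nat.beq b (T.neg a) && !Nat.beq c a && !Nat.beq c (T.neg a) && !Nat.beq c b && !Nat.beq c (T.neg b) &&
    (match commT T.ce a b with
     | [d] => Nat.beq d.1 c && (decide (d.2.1 = 1) || decide (d.2.1 = -1)) && Nat.beq d.2.2.1 1 && Nat.beq d.2.2.2 1
     | _ => false) &&
    (match commT T.ce a c with
     | [] => true
     | _ => false) &&
    (match commT T.ce b c with
     | [] => true
     | _ => false)

theorem ne_of_beq {a b : ℕ} (h : (!Nat.beq a b) = true) : a ≠ b := by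
  intro h2
  subst h2
  rw [Nat.beq_refl] at h
  exact Bool.noConfusion h

theorem sum_of_chk (h : chkSum (tblOf D) = true) : ∀ c, c < D.nroots → HSum D c := by
  intro c hc
  have h1 := (allLt_iff _ _).mp h c hc
  obtain ⟨a, ha, h2⟩ := List.any_eq_true.mp h1
  obtain ⟨b, hb, h3⟩ := List.any_eq_true.mp h2
  have ha' : a < D.nroots := List.mem_range.mp ha
  have hb' : b < D.nroots := List.mem_range.mp hb
  simp only [Bool.and_eq_true] at h3
  obtain ⟨⟨⟨⟨⟨⟨⟨⟨h4, h5⟩, h6⟩, h7⟩, h8⟩, h9⟩, h10⟩, h11⟩, h12⟩ := h3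
  have hct1 : commT (tblOf D).ce a b = D.commTerms a b := commT_eq D a b
  have hct2 : commT (tblOf D).ce a c = D.commTerms a c := commT_eq D a c
  have hct3 : commT (tblOf D).ce b c = D.commTerms b c := commT_eq D b c
  rw [hct1] at h10
  rw [hct2] at h11
  rw [hct3] at h12
  have e2 : D.commTerms a c = [] := by
    generalize D.commTerms a c = C at h11
    match C, h11 with
    | [], _ => rfl
    | _ :: _, h => exact Bool.noConfusion h
  have e3 : D.commTerms b c = [] := by
    generalize D.commTerms b c = C at h12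
    match C, h12 with
    | [], _ => rfl
    | _ :: _, h => exact Bool.noConfusion h
  generalize hC : D.commTerms a b = C at h10
  match C, h10 with
  | [d], h10 =>
    simp only [Bool.and_eq_true, Bool.or_eq_true, decide_eq_true_eq] at h10
    obtain ⟨⟨⟨h13, h14⟩, h15⟩, h16⟩ := h10
    have h13' := Nat.eq_of_beq_eq_true h13
    have h15' := Nat.eq_of_beq_eq_true h15
    have h16' := Nat.eq_of_beq_eq_true h16
    obtain ⟨d1, d2, d3, d4⟩ := d
    simp only at h13' h14 h15' h16'
    subst h13' h15' h16'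
    exact ⟨a, b, d2, ha', hb', ne_of_beq h4, ne_of_beq h5, hC, h14, ne_of_beq h6, ne_of_beq h7, ne_of_beq h8,
      ne_of_beq h9, e2, e3⟩
  | [], h10 => exact Bool.noConfusion h10
  | _ :: _ :: _, h10 => exact Bool.noConfusion h10

/-- The check for the elements separating roots over fields with at least four elements. -/
def chkSep2 (T : Tbl) : Bool :=
  allLt T.n fun c => Nat.blt c (T.n / 2) || allLt T.n fun e => Nat.ble e c || (List.range T.n).any fun l =>
    decide (pairF T l c = 0) && !decide (pairF T l e = 0) && decide ((pairF T l e).natAbs ≤ 2)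

theorem sep2_of_chk (h : chkSep2 (tblOf D) = true) : ∀ c e, NN D ≤ c → c < e → e < D.nroots →
    ∃ l, l < D.nroots ∧ D.pairing l c = 0 ∧ D.pairing l e ≠ 0 ∧ (D.pairing l e).natAbs ≤ 2 := by
  intro c e h1 h2 h3
  have h4 := (allLt_iff _ _).mp h c (lt_trans h2 h3)
  simp only [Bool.or_eq_true] at h4
  rcases h4 with h4 | h4
  · have : c < D.nroots / 2 := Nat.blt_eq.mp h4
    have h5 : D.nroots / 2 ≤ c := h1
    omega
  · have h5 := (allLt_iff _ _).mp h4 e h3
    simp only [Bool.or_eq_true] at h5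
    rcases h5 with h5 | h5
    · have : e ≤ c := Nat.le_of_ble_eq_true h5
      omega
    · obtain ⟨l, hl, h6⟩ := List.any_eq_true.mp h5
      simp only [Bool.and_eq_true, Bool.not_eq_true', decide_eq_true_eq, decide_eq_false_iff_not] at h6
      exact ⟨l, List.mem_range.mp hl, h6.1.1, h6.1.2, h6.2⟩

/-- Look up a word. -/
def swapWord (sw : List (ℕ × ℕ × List ℕ)) (c e : ℕ) : List ℕ :=
  ((sw.find? fun p => Nat.beq p.1 c && Nat.beq p.2.1 e).map (·.2.2)).getD []

/-- The check for the separation over the field with three elements. -/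
def chkSep3 (T : Tbl) (W : ℕ → ℕ → ℕ) (S : ℕ → ℕ → ℤ) (sw : List (ℕ × ℕ × List ℕ)) : Bool :=
  allLt T.n fun c => Nat.blt c (T.n / 2) || allLt T.n fun e => Nat.ble e c ||
    ((List.range T.n).any fun l => decide (pairF T l c % 2 = 0) && decide (pairF T l e % 2 = 1)) ||
    (!Nat.beq e (T.neg c) && (match commT T.ce c e with
      | [] => true
      | _ => false) &&
      (swapWord sw c e).all (fun i => Nat.blt i T.l) && Nat.beq ((swapWord sw c e).foldr W c) e &&
      Nat.beq ((swapWord sw c e).foldr W e) c &&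
      decide (foldSf W S (swapWord sw c e) c = foldSf W S (swapWord sw c e) e) &&
      (decide (foldSf W S (swapWord sw c e) c = 1) || decide (foldSf W S (swapWord sw c e) c = -1)))

section CE2

variable {E G₁ : Type*} [Group E] [Group G₁] {π : E →* G₁} {σ : D.SteinbergCover K →* G₁}

/-- Universality over fields with at least four elements. -/
theorem universal_ge4 (G : Good5 D) (hK4 : ∃ s : Finset K, 3 < s.card) (hsum : chkSum (tblOf D) = true)
    (hpart : chkPart (tblOf D) = true) (hsep : chkSep2 (tblOf D) = true)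
    (hperf : commutator (D.SteinbergCover K) = ⊤)
    (hπ : Function.Surjective π) (hc : π.ker ≤ Subgroup.center E) :
    ∃! τ : D.SteinbergCover K →* E, π.comp τ = σ := by
  have h3 : ∃ x : K, x ≠ 0 ∧ x ≠ 1 := by
    obtain ⟨t, h0, h1⟩ := exists_zpow_ne4 hK4 (m := 1) (by norm_num) (by norm_num)
    exact ⟨t, h0, by simpa using h1⟩
  refine lift_core G h3 (part_of_chk hpart) (sum_of_chk hsum) ?_ hperf hπ hc
  intro L hL c e h1 h2 h3
  left
  obtain ⟨l, hl, h4, h5, h6⟩ := sep2_of_chk hsep c e h1 h2 h3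
  obtain ⟨t, h0, h7⟩ := exists_zpow_ne4 hK4 h5 h6
  obtain ⟨y, hy⟩ := G.tor_exists hl h0
  refine ⟨y, _, hy, ?_, h7⟩
  unfold chiP
  rw [h4, zpow_zero]

/-- Universality over the field with three elements. -/
theorem universal_3 (G : Good5 D) (h3K : ∀ x : K, x = 0 ∨ x = 1 ∨ x = -1) (h30 : (1 : K) + 1 + 1 = 0) (h2 : (-1 : K) ≠ 1)
    (hsum : chkSum (tblOf D) = true) (hpart : chkPart (tblOf D) = true) (sw : List (ℕ × ℕ × List ℕ))
    (hsep : chkSep3 (tblOf D) G.W G.S sw = true)
    (hperf : commutator (D.SteinbergCover K) = ⊤)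
    (hπ : Function.Surjective π) (hc : π.ker ≤ Subgroup.center E) :
    ∃! τ : D.SteinbergCover K →* E, π.comp τ = σ := by
  have hm0 : (-1 : K) ≠ 0 := by
    simp
  refine lift_core G ⟨-1, hm0, h2⟩ (part_of_chk hpart) (sum_of_chk hsum) ?_ hperf hπ hc
  intro L hL c e h1 h3 h4
  have h5 := (allLt_iff _ _).mp hsep c (lt_trans h3 h4)
  simp only [Bool.or_eq_true] at h5
  rcases h5 with h5 | h5
  · have : c < D.nroots / 2 := Nat.blt_eq.mp h5
    have h6 : D.nroots / 2 ≤ c := h1
    omega
  have h6 := (allLt_iff _ _).mp h5 e h4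
  simp only [Bool.or_eq_true] at h6
  rcases h6 with (h6 | h6) | h6
  · have : e ≤ c := Nat.le_of_ble_eq_true h6
    omega
  · left
    obtain ⟨l, hl, h7⟩ := List.any_eq_true.mp h6
    simp only [Bool.and_eq_true, decide_eq_true_eq] at h7
    obtain ⟨y, hy⟩ := G.tor_exists (t := (-1 : K)) (List.mem_range.mp hl) hm0
    refine ⟨y, _, hy, ?_, ?_⟩
    · have h8 : Even (D.pairing l c) := Int.even_iff.mpr h7.1
      unfold chiP
      rw [Even.neg_one_zpow h8]
    · have h8 : Odd (D.pairing l e) := Int.odd_iff.mpr h7.2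
      unfold chiP
      rw [Odd.neg_one_zpow h8]
      exact h2
  · right
    intro t v
    simp only [Bool.and_eq_true, Bool.or_eq_true, decide_eq_true_eq, List.all_eq_true] at h6
    obtain ⟨⟨⟨⟨⟨⟨h7, h8⟩, h9⟩, h10⟩, h11⟩, h12⟩, h13⟩ := h6
    have hT : D.commTerms c e = [] := by
      have hct : commT (tblOf D).ce c e = D.commTerms c e := commT_eq D c e
      rw [hct] at h8
      generalize D.commTerms c e = C at h8
      match C, h8 with
      | [], _ => rfl
      | _ :: _, h => exact Bool.noConfusion h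
    exact swap_zero G hc hL h3K h30 (lt_trans h3 h4) h4 (by omega) (ne_of_beq h7) hT _
      (fun i hi => Nat.blt_eq.mp (h9 i hi)) (Nat.eq_of_beq_eq_true h10) (Nat.eq_of_beq_eq_true h11) h12 h13 t v

end CE2

end Cfsg.Agent.Lib.Chev
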