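import Cfsg.Agent.Lib.Chev.Cov.Uni6
import Cfsg.Agent.Lib.Chev.All5
import Cfsg.Prelude.Def_KGroupFacts

/-!
Universality over small fields for the types `F₄` and `D₄`: table checks.
-/

set_option autoImplicit false

namespace Cfsg.Agent.Lib.Chev

open Cfsg Cfsg.Lie

def swF4 : List (ℕ × ℕ × List ℕ) :=
  [(24, 32, [2, 1, 2]), (24, 43, [2, 0, 1, 2, 0]), (24, 45, [1, 2, 0, 1, 2, 0, 1]), (25, 30, [1]), (25, 41, [0, 1, 0]), (25, 47, [3, 1, 2, 0, 1, 2, 3, 0, 1]), (26, 31, [1]), (26, 42, [0, 1, 0]), (26, 46, [1, 2, 0, 1, 2, 0, 1]), (30, 41, [0]), (30, 47, [3, 2, 0, 1, 2, 3, 0]), (31, 42, [0]), (31, 46, [2, 0, 1, 2, 0]), (32, 43, [0]), (32, 45, [0, 1, 0]), (41, 47, [3, 2, 1, 2, 3]), (42, 46, [2, 1, 2]), (43, 45, [1])]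
def swD4 : List (ℕ × ℕ × List ℕ) :=
  [(12, 13, [1, 3, 2, 1]), (12, 18, [1, 3, 0, 1]), (12, 23, [1, 2, 0, 1]), (13, 18, [1, 2, 0, 1]), (13, 23, [1, 3, 0, 1]), (14, 17, [3, 2]), (14, 20, [3, 0]), (14, 21, [2, 0]), (15, 16, [3, 2]), (15, 19, [3, 0]), (15, 22, [2, 0]), (16, 19, [2, 0]), (16, 22, [3, 0]), (17, 20, [2, 0]), (17, 21, [3, 0]), (18, 23, [1, 3, 2, 1]), (19, 22, [3, 2]), (20, 21, [3, 2])]

set_option maxRecDepth 100000 in
theorem sumF4 : chkSum (tblOf chevF4) = true := TabF4.tbl_eq ▸ (by decide +kernel : chkSum TabF4.fd.tbl = true)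
set_option maxRecDepth 100000 in
theorem sumD4 : chkSum (tblOf chevD4) = true := TabD4.tbl_eq ▸ (by decide +kernel : chkSum TabD4.fd.tbl = true)
set_option maxRecDepth 100000 in
theorem sep2F4 : chkSep2 (tblOf chevF4) = true := TabF4.tbl_eq ▸ (by decide +kernel : chkSep2 TabF4.fd.tbl = true)
set_option maxRecDepth 100000 in
theorem sep2D4 : chkSep2 (tblOf chevD4) = true := TabD4.tbl_eq ▸ (by decide +kernel : chkSep2 TabD4.fd.tbl = true)
set_option maxRecDepth 100000 in
theorem sep3F4 : chkSep3 (tblOf chevF4) TabF4.good5.W TabF4.good5.S swF4 = true :=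
  TabF4.tbl_eq ▸ (by decide +kernel : chkSep3 TabF4.fd.tbl TabF4.W TabF4.S swF4 = true)
set_option maxRecDepth 100000 in
theorem sep3D4 : chkSep3 (tblOf chevD4) TabD4.good5.W TabD4.good5.S swD4 = true :=
  TabD4.tbl_eq ▸ (by decide +kernel : chkSep3 TabD4.fd.tbl TabD4.W TabD4.S swD4 = true)

/-- The facts on the field with three elements. -/
theorem card3_facts {F : Type*} [Field F] [Fintype F] (h : Fintype.card F = 3) :
    (∀ x : F, x = 0 ∨ x = 1 ∨ x = -1) ∧ ((1 : F) + 1 + 1 = 0) ∧ ((-1 : F) ≠ 1) := by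
  classical
  obtain ⟨p, hp⟩ := CharP.exists F
  have hp' := hp
  obtain ⟨n, hpr, hn⟩ := FiniteField.card F p
  rw [h] at hn
  have hd : p ∣ 3 := by
    rw [hn]
    exact dvd_pow_self p n.ne_zero
  have hp3 : p = 3 := (Nat.prime_dvd_prime_iff_eq hpr Nat.prime_three).mp hd
  subst hp3
  have h3 : ((3 : ℕ) : F) = 0 := CharP.cast_eq_zero F 3
  have h30 : (1 : F) + 1 + 1 = 0 := by
    have : ((3 : ℕ) : F) = 1 + 1 + 1 := by
      norm_num
    rw [← this, h3]
  have h2 : (-1 : F) ≠ 1 := by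
    intro h4
    have : (1 : F) = 0 := by
      linear_combination h30 + h4
    exact one_ne_zero this
  refine ⟨?_, h30, h2⟩
  have hs : (({0, 1, -1} : Finset F)) = Finset.univ := by
    apply Finset.eq_univ_of_card
    rw [h, Finset.card_insert_of_notMem, Finset.card_insert_of_notMem, Finset.card_singleton]
    · simp only [Finset.mem_singleton]
      exact fun h5 => h2 h5.symm
    · simp only [Finset.mem_insert, Finset.mem_singleton, not_or]
      exact ⟨zero_ne_one, by simp⟩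
  intro x
  have hx : x ∈ (({0, 1, -1} : Finset F)) := by
    rw [hs]
    exact Finset.mem_univ _
  simpa using hx

universe u v

/-- The multiplier is trivial if the universal group lifts through stem extensions. -/
theorem schur_one_of_lift {Δ : Type v} {A : Type u} [Group Δ] [Group A] [Finite A] (θ : Δ →* A)
    (hs : Function.Surjective θ) (hi : ∀ y, θ y = 1 → y = 1)
    (hlift : ∀ (Γ : Type u) [Group Γ] [Finite Γ] (σ : Γ →* A), IsStemExtension σ → ∃ τ : Δ →* Γ, σ.comp τ = θ) :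
    HasCyclicSchurMultiplier A 1 := by
  constructor
  · refine ⟨A, inferInstance, inferInstance, MonoidHom.id _, ⟨Function.surjective_id, ?_, ?_⟩, ?_⟩
    · rw [MonoidHom.ker_id]
      exact bot_le
    · rw [MonoidHom.ker_id]
      exact bot_le
    · rw [MonoidHom.ker_id]
      refine ⟨{ toFun := fun _ => 1, invFun := fun _ => 1, left_inv := ?_, right_inv := ?_, map_mul' := ?_ }⟩
      · intro x
        exact Subsingleton.elim _ _
      · intro x
        exact Subsingleton.elim _ _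
      · intro x y
        exact Subsingleton.elim _ _
  · intro Γ' _ _ σ hσ
    refine ⟨1, ?_⟩
    intro x
    obtain ⟨τ, hτ⟩ := hlift Γ' σ hσ
    have hz : ∀ z, σ z = 1 → ∀ w, z * w = w * z := by
      intro z hzz w
      exact (Subgroup.mem_center_iff.mp (hσ.2.1 (MonoidHom.mem_ker.mpr hzz)) w).symm
    have hτv : ∀ y, σ (τ y) = θ y := fun y => DFunLike.congr_fun hτ y
    have hdec : ∀ g : Γ', ∃ (z : Γ') (y : Δ), (∀ w, z * w = w * z) ∧ g = z * τ y := by
      intro g
      obtain ⟨y, hy⟩ := hs (σ g)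
      refine ⟨g * (τ y)⁻¹, y, hz _ ?_, by group⟩
      rw [map_mul, map_inv, hτv, hy, mul_inv_cancel]
    have hcomm : commutator Γ' ≤ τ.range := by
      rw [commutator_def, Subgroup.commutator_le]
      intro a _ b _
      obtain ⟨z, y, hz1, rfl⟩ := hdec a
      obtain ⟨z', y', hz2, rfl⟩ := hdec b
      have e1 : CT.cc (z * τ y) (z' * τ y') ∈ τ.range := by
        rw [CT.cc_central_left hz1, CT.cc_central_right hz2, ← CT.map_cc]
        exact ⟨_, rfl⟩
      exact e1
    have hx : (x : Γ') = 1 := by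
      obtain ⟨y, hy⟩ := hcomm (hσ.2.2 x.2)
      have h1 : θ y = 1 := by
        rw [← hτv, hy]
        exact x.2
      rw [← hy, hi y h1, map_one]
    exact ⟨1, Subtype.ext hx.symm⟩

end Cfsg.Agent.Lib.Chev
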