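import Cfsg.Agent.Lib.Chev.Cov.UniS
import Cfsg.Agent.Lib.Chev.All5

/-!
Universality of the group presented by (R1), (R2) of type `B₂` over the field with three elements: the lifts of the long
root elements are commutators of lifts of short root elements.
-/

set_option autoImplicit false
set_option linter.unusedSimpArgs false
set_option linter.unusedVariables false
set_option linter.unusedSectionVars false

namespace Cfsg.Agent.Lib.Chev

open Cfsg Cfsg.Lie Cfsg.Agent.Lib.CT
open Good2 (NN rBC gen_mem_rBC rB_leC rB_inductionC wB_memC)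

variable {D : ChevalleyDatum} {K : Type*} [Field K]
variable {E G₁ : Type*} [Group E] [Group G₁] {π : E →* G₁} {σ : D.SteinbergCover K →* G₁} {P : ℕ → Prop}

namespace US

variable (U : US D K π σ P)

/-- The commutator of lifts of two root elements. -/
def WW (a b : ℕ) (t u : K) : E := (U.X a t * U.X b u)⁻¹ * (U.X b u * U.X a t)

/-- The lift of a long root element. -/
def XL (a b : ℕ) (C : ℤ) (v : K) : E := U.WW a b 1 (-v / (C : K))

theorem comm_gen (h30 : (1 : K) + 1 + 1 = 0) {r c : ℕ} (hr : r < D.nroots) (hp : P r) (hCr : U.C r = -1) (hc' : c < D.nroots)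
    (hCc : U.C c = 1) (hne1 : c ≠ r) (hne2 : c ≠ D.neg r) (hT : D.commTerms r c = []) {w : E} {v : K}
    (hw : π w = σ (D.scGen K c v)) (s : K) : U.X r s * w = w * U.X r s := by
  have hcomm : ∀ s, D.scGen K c v * D.scGen K r s = D.scGen K r s * D.scGen K c v :=
    fun s => root_commC hr hc' hne1 hne2 hT s v
  set f : K → E := fun s => cc (U.X r s) w with hf
  have hcen : ∀ s g, f s * g = g * f s := by
    intro s g
    apply U.central_of
    simp only [hf]
    rw [map_cc, U.X_lf hr hp, hw, ← map_cc]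
    have : cc (D.scGen K r s) (D.scGen K c v) = 1 := by
      unfold cc
      rw [← hcomm]
      group
    rw [this, map_one]
  have hadd : ∀ s s', f (s + s') = f s * f s' := by
    intro s s'
    simp only [hf]
    rw [← U.X_add hr hp, cc_mul_left (hcen s')]
  have h0 : f 0 = 1 := by
    have := hadd 0 0
    rw [add_zero] at this
    exact left_eq_mul.mp this
  have hneg : ∀ s, f (-s) = (f s)⁻¹ := by
    intro s
    have := hadd s (-s)
    rw [add_neg_cancel, h0] at this
    exact eq_inv_of_mul_eq_one_right this.symm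
  set e := U.L U.Y with he
  have he' : π e = σ U.Y := U.hL _
  have hconj : e * U.X r s * e⁻¹ = U.X r (-s) := by
    have := U.X_conj_TA U.hY he' hr hp s
    rw [hCr, neg_one_mul] at this
    exact this
  have hw2 : π (e * w * e⁻¹) = π w := by
    rw [map_mul, map_mul, map_inv, he', hw, ← map_inv, ← map_mul, ← map_mul, U.hY.act c hc' v, hCc, one_mul]
  have e1 : e * f s * e⁻¹ = f (-s) := by
    simp only [hf]
    rw [U.conj_cc, hconj]
    exact U.cc_lf rfl hw2
  have e2 : e * f s * e⁻¹ = f s := by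
    rw [← hcen s e]
    group
  have e3 : f s = (f s)⁻¹ := by
    rw [← hneg, ← e1, e2]
  have e4 : f s * f s = 1 := by
    nth_rewrite 1 [e3]
    group
  have e5 : f (s + s + s) = 1 := by
    have : s + s + s = (1 + 1 + 1) * s := by ring
    rw [this, h30, zero_mul, h0]
  rw [hadd, hadd, e4, one_mul] at e5
  exact US.comm_of_cc e5

/-- The data of a triple of roots `a`, `b`, `c = a + b`. -/
structure Tri (U : US D K π σ P) (a b c : ℕ) (C : ℤ) : Prop where
  ha : a < D.nroots
  hb : b < D.nroots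
  hc' : c < D.nroots
  pa : P a
  pb : P b
  Ca : U.C a = -1
  Cb : U.C b = -1
  Cc : U.C c = 1
  hba : b ≠ a
  hbn : b ≠ D.neg a
  hT : D.commTerms a b = [(c, C, 1, 1)]
  h1 : c ≠ a
  h2 : c ≠ D.neg a
  h3 : c ≠ b
  h4 : c ≠ D.neg b
  hT1 : D.commTerms a c = []
  hT2 : D.commTerms b c = []
  Cne : (C : K) ≠ 0

variable {U}
variable {a b c : ℕ} {C : ℤ}

theorem Tri.WW_lf (h : U.Tri a b c C) (t u : K) : π (U.WW a b t u) = σ (D.scGen K c ((C : K) * (-t) * u)) := by
  have hR := stGen_R2C h.ha h.hb h.hba h.hbn t u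
  have hwd : wBC D K (D.commWord K a b t u) = D.scGen K c ((C : K) * (-t) * u) := by
    simp only [ChevalleyDatum.commWord, h.hT, List.map_cons, List.map_nil, wB_consC, pow_one]
    simp [wBC]
  rw [hwd] at hR
  unfold WW
  rw [map_mul, map_inv, map_mul, map_mul, U.X_lf h.ha h.pa, U.X_lf h.hb h.pb, ← map_mul, ← map_mul, ← map_inv, ← map_mul, hR]
  congr 1
  group

theorem Tri.comm_a (h30 : (1 : K) + 1 + 1 = 0) (h : U.Tri a b c C) (s t u : K) :
    U.X a s * U.WW a b t u = U.WW a b t u * U.X a s :=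
  U.comm_gen h30 h.ha h.pa h.Ca h.hc' h.Cc h.h1 h.h2 h.hT1 (h.WW_lf t u) s

theorem Tri.comm_b (h30 : (1 : K) + 1 + 1 = 0) (h : U.Tri a b c C) (s t u : K) :
    U.X b s * U.WW a b t u = U.WW a b t u * U.X b s :=
  U.comm_gen h30 h.hb h.pb h.Cb h.hc' h.Cc h.h3 h.h4 h.hT2 (h.WW_lf t u) s

theorem Tri.WW_zero_left (h : U.Tri a b c C) (u : K) : U.WW a b 0 u = 1 := by
  unfold WW
  rw [U.X_zero h.ha h.pa]
  group

theorem Tri.WW_zero_right (h : U.Tri a b c C) (t : K) : U.WW a b t 0 = 1 := by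
  unfold WW
  rw [U.X_zero h.hb h.pb]
  group

theorem Tri.WW_add_right (h30 : (1 : K) + 1 + 1 = 0) (h : U.Tri a b c C) (t u u' : K) :
    U.WW a b t (u + u') = U.WW a b t u * U.WW a b t u' := by
  have e := h.comm_b h30 u' t u
  set w := U.WW a b t u with hw
  have hw' : w = (U.X a t * U.X b u)⁻¹ * (U.X b u * U.X a t) := rfl
  have e1 : U.WW a b t (u + u') = (U.X b u')⁻¹ * w * ((U.X a t)⁻¹ * U.X b u' * U.X a t) := by
    rw [hw']
    unfold WW
    rw [← U.X_add h.hb h.pb]
    group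
  have e2 : U.WW a b t u' = (U.X b u')⁻¹ * ((U.X a t)⁻¹ * U.X b u' * U.X a t) := by
    unfold WW
    group
  rw [e1, e2]
  have e3 : (U.X b u')⁻¹ * w = w * (U.X b u')⁻¹ := by
    calc (U.X b u')⁻¹ * w = (U.X b u')⁻¹ * (w * U.X b u') * (U.X b u')⁻¹ := by group
      _ = (U.X b u')⁻¹ * (U.X b u' * w) * (U.X b u')⁻¹ := by rw [e]
      _ = _ := by group
  rw [e3]
  group

theorem Tri.WW_add_left (h30 : (1 : K) + 1 + 1 = 0) (h : U.Tri a b c C) (t t' u : K) :
    U.WW a b (t + t') u = U.WW a b t' u * U.WW a b t u := by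
  have e := h.comm_a h30 t' t u
  set w := U.WW a b t u with hw
  have hw' : w = (U.X a t * U.X b u)⁻¹ * (U.X b u * U.X a t) := rfl
  have e0 : (U.X a t)⁻¹ * U.X b u * U.X a t = U.X b u * w := by
    rw [hw']
    group
  have e1 : U.WW a b (t + t') u = (U.X b u)⁻¹ * (U.X a t')⁻¹ * ((U.X a t)⁻¹ * U.X b u * U.X a t) * U.X a t' := by
    unfold WW
    rw [← U.X_add h.ha h.pa]
    group
  have e2 : U.WW a b t' u = (U.X b u)⁻¹ * (U.X a t')⁻¹ * U.X b u * U.X a t' := by
    unfold WW
    group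
  rw [e1, e2, e0]
  have e3 : w * U.X a t' = U.X a t' * w := e.symm
  calc (U.X b u)⁻¹ * (U.X a t')⁻¹ * (U.X b u * w) * U.X a t' = (U.X b u)⁻¹ * (U.X a t')⁻¹ * U.X b u * (w * U.X a t') := by group
    _ = _ := by rw [e3]; group

theorem Tri.WW_neg_right (h30 : (1 : K) + 1 + 1 = 0) (h : U.Tri a b c C) (t u : K) :
    U.WW a b t (-u) = (U.WW a b t u)⁻¹ := by
  have := h.WW_add_right h30 t u (-u)
  rw [add_neg_cancel, h.WW_zero_right] at this
  exact eq_inv_of_mul_eq_one_right this.symm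

theorem Tri.WW_neg_left (h30 : (1 : K) + 1 + 1 = 0) (h : U.Tri a b c C) (t u : K) :
    U.WW a b (-t) u = (U.WW a b t u)⁻¹ := by
  have := h.WW_add_left h30 t (-t) u
  rw [add_neg_cancel, h.WW_zero_left] at this
  exact eq_inv_of_mul_eq_one_left this.symm

theorem Tri.WW_one (h3K : ∀ x : K, x = 0 ∨ x = 1 ∨ x = -1) (h30 : (1 : K) + 1 + 1 = 0) (h : U.Tri a b c C) (t u : K) :
    U.WW a b t u = U.WW a b 1 (t * u) := by
  rcases h3K t with rfl | rfl | rfl
  · rw [h.WW_zero_left, zero_mul, h.WW_zero_right]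
  · rw [one_mul]
  · rw [h.WW_neg_left h30, neg_one_mul, h.WW_neg_right h30]

theorem Tri.WW_eq (h3K : ∀ x : K, x = 0 ∨ x = 1 ∨ x = -1) (h30 : (1 : K) + 1 + 1 = 0) (h : U.Tri a b c C) (t u : K) :
    U.WW a b t u = U.XL a b C (-(C : K) * t * u) := by
  rw [h.WW_one h3K h30]
  unfold XL
  congr 1
  have := h.Cne
  field_simp

theorem Tri.XL_lf (h : U.Tri a b c C) (v : K) : π (U.XL a b C v) = σ (D.scGen K c v) := by
  unfold XL
  rw [h.WW_lf]
  congr 2
  have := h.Cne
  field_simp

theorem Tri.XL_add (h30 : (1 : K) + 1 + 1 = 0) (h : U.Tri a b c C) (v v' : K) :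
    U.XL a b C v * U.XL a b C v' = U.XL a b C (v + v') := by
  unfold XL
  rw [← h.WW_add_right h30]
  congr 1
  ring

theorem WW_flip (U : US D K π σ P) (a b : ℕ) (t u : K) : U.WW b a u t = (U.WW a b t u)⁻¹ := by
  unfold WW
  group

theorem conj_WW (U : US D K π σ P) (e : E) {a b a' b' : ℕ} {t u t' u' : K} (h1 : e * U.X a t * e⁻¹ = U.X a' t')
    (h2 : e * U.X b u * e⁻¹ = U.X b' u') : e * U.WW a b t u * e⁻¹ = U.WW a' b' t' u' := by
  unfold WW
  rw [← h1, ← h2]
  group

theorem Tri.XL_conj (h3K : ∀ x : K, x = 0 ∨ x = 1 ∨ x = -1) (h30 : (1 : K) + 1 + 1 = 0) (h : U.Tri a b c C) {χ : ℕ → K}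
    {y : D.SteinbergCover K} (hy : TA D K χ y) {e : E} (he : π e = σ y) (hχ : χ a * χ b = χ c) (v : K) :
    e * U.XL a b C v * e⁻¹ = U.XL a b C (χ c * v) := by
  unfold XL
  rw [U.conj_WW e (U.X_conj_TA hy he h.ha h.pa 1) (U.X_conj_TA hy he h.hb h.pb _), h.WW_one h3K h30]
  congr 1
  rw [← hχ]
  ring

end US

/-! ### The type `B₂` -/

/-- The first short root. -/
def b2pa : ℕ → ℕ
  | 0 => 1
  | 3 => 1
  | 4 => 2
  | _ => 5

/-- The second short root. -/
def b2pb : ℕ → ℕ
  | 0 => 2
  | 3 => 5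
  | 4 => 6
  | _ => 6

/-- The structure constant. -/
def b2C : ℕ → ℤ
  | 0 => 2
  | 3 => -2
  | 4 => -2
  | _ => 2

/-- Short roots. -/
def b2S (c : ℕ) : Prop := c = 1 ∨ c = 2 ∨ c = 5 ∨ c = 6

/-- Long roots. -/
def b2L (c : ℕ) : Prop := c = 0 ∨ c = 3 ∨ c = 4 ∨ c = 7

instance : DecidablePred b2L := fun c => by
  unfold b2L
  infer_instance

instance : DecidablePred b2S := fun c => by
  unfold b2S
  infer_instance

theorem b2_cases : ∀ c, c < 8 → b2L c ∨ b2S c := by decide

theorem b2_not : ∀ c, b2S c → ¬ b2L c := by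
  intro c h
  unfold b2S at h
  unfold b2L
  omega

set_option synthInstance.maxHeartbeats 1000000 in
set_option synthInstance.maxSize 2000 in
theorem b2_tab_tri : ∀ c, c < 8 → b2L c → (b2pa c < 8 ∧ b2pb c < 8 ∧ b2S (b2pa c) ∧ b2S (b2pb c) ∧ b2pb c ≠ b2pa c ∧
    b2pb c ≠ chevB2.neg (b2pa c) ∧ chevB2.commTerms (b2pa c) (b2pb c) = [(c, b2C c, 1, 1)] ∧ c ≠ b2pa c ∧ c ≠ chevB2.neg (b2pa c) ∧
    c ≠ b2pb c ∧ c ≠ chevB2.neg (b2pb c) ∧ chevB2.commTerms (b2pa c) c = [] ∧ chevB2.commTerms (b2pb c) c = [] ∧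
    (b2C c = 2 ∨ b2C c = -2)) := by
  intro c _ h
  rcases h with rfl | rfl | rfl | rfl <;> decide +kernel

theorem b2_tab_self : ∀ l, l < 8 → chevB2.pairing l l = 2 := by decide +kernel

theorem b2_tab_add : ∀ c, c < 8 → b2L c → ∀ l, l < 8 → chevB2.pairing l (b2pa c) + chevB2.pairing l (b2pb c) = chevB2.pairing l c := by
  decide +kernel

theorem b2_tab_W : ∀ i, i < 2 → ∀ c, c < 8 → b2L c → b2L (TabB2.W i c) ∧
    ((b2pa (TabB2.W i c) = TabB2.W i (b2pa c) ∧ b2pb (TabB2.W i c) = TabB2.W i (b2pb c) ∧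
        b2C (TabB2.W i c) * TabB2.S i (b2pa c) * TabB2.S i (b2pb c) = TabB2.S i c * b2C c) ∨
      (b2pa (TabB2.W i c) = TabB2.W i (b2pb c) ∧ b2pb (TabB2.W i c) = TabB2.W i (b2pa c) ∧
        -(b2C (TabB2.W i c)) * TabB2.S i (b2pa c) * TabB2.S i (b2pb c) = TabB2.S i c * b2C c)) := by decide +kernel

theorem b2_tab_WS : ∀ i, i < 2 → ∀ c, c < 8 → b2S c → b2S (TabB2.W i c) := by decide +kernel

theorem b2_tab_chiS : ∀ c, b2S c → chevB2.pairing 0 c = 1 ∨ chevB2.pairing 0 c = -1 := by
  intro c h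
  rcases h with rfl | rfl | rfl | rfl <;> decide +kernel

theorem b2_tab_chiL : ∀ c, b2L c → chevB2.pairing 0 c = 0 ∨ chevB2.pairing 0 c = 2 ∨ chevB2.pairing 0 c = -2 := by
  intro c h
  rcases h with rfl | rfl | rfl | rfl <;> decide +kernel

section B2

variable {π : E →* G₁} {σ : chevB2.SteinbergCover K →* G₁}

/-- The universal property of type `B₂` over the field with three elements. -/
theorem universal_B2_3 (h3K : ∀ x : K, x = 0 ∨ x = 1 ∨ x = -1) (h30 : (1 : K) + 1 + 1 = 0) (h2 : (-1 : K) ≠ 1)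
    (hperf : commutator (chevB2.SteinbergCover K) = ⊤)
    (hπ : Function.Surjective π) (hc : π.ker ≤ Subgroup.center E) :
    ∃! τ : chevB2.SteinbergCover K →* E, π.comp τ = σ := by
  have G := TabB2.good5
  let L : chevB2.SteinbergCover K → E := fun a => Function.surjInv hπ (σ a)
  have hL : ∀ a, π (L a) = σ a := fun a => Function.surjInv_eq hπ _
  have hm0 : (-1 : K) ≠ 0 := by simp
  have h2ne : (2 : K) ≠ 0 := by
    intro h
    apply h2
    linear_combination -h
  obtain ⟨y₀, hy₀⟩ := TabB2.good5.tor_exists (l := 0) (by decide +kernel) hm0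
  have hχS : ∀ c, b2S c → chiP chevB2 0 (-1 : K) c = -1 := by
    intro c hc'
    unfold chiP
    rcases b2_tab_chiS c hc' with h | h <;> rw [h] <;> simp
  have hχL : ∀ c, b2L c → chiP chevB2 0 (-1 : K) c = 1 := by
    intro c hc'
    unfold chiP
    rcases b2_tab_chiL c hc' with h | h | h <;> rw [h] <;> simp
  have hz : ∃ z : K, z ≠ 0 ∧ z ^ 3 ≠ 1 := ⟨-1, hm0, by
    have : (-1 : K) ^ 3 = -1 := by ring
    rw [this]
    exact h2⟩
  have hSlt : ∀ c, b2S c → c < chevB2.nroots := by
    intro c hc'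
    have : chevB2.nroots = 8 := by decide +kernel
    rw [this]
    rcases hc' with rfl | rfl | rfl | rfl <;> norm_num
  let U : US chevB2 K π σ b2S :=
    { hc := hc
      L := L
      hL := hL
      Y := y₀
      C := chiP chevB2 0 (-1 : K)
      hY := hy₀
      hC := fun {c} hc' => by
        rw [hχS c hc']
        exact h2
      hab := fun {c} hc' t u => by
        apply hab_of hc hL hz (hSlt c hc')
        intro d hd
        rcases h3K d with rfl | rfl | rfl
        · exact absurd rfl hd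
        · obtain ⟨y, hy⟩ := TabB2.good5.tor_exists (t := (1 : K)) (l := 0) (by decide +kernel) one_ne_zero
          refine ⟨y, _, hy, ?_⟩
          simp [chiP]
        · exact ⟨y₀, _, hy₀, hχS c hc'⟩ }
  have hUC : U.C = chiP chevB2 0 (-1 : K) := rfl
  have hn8 : chevB2.nroots = 8 := by decide +kernel
  have htri : ∀ c, b2L c → c < 8 → U.Tri (b2pa c) (b2pb c) c (b2C c) := by
    intro c hc' hc8
    obtain ⟨t1, t2, t3, t4, t5, t6, t7, t8, t9, t10, t11, t12, t13, t14⟩ := b2_tab_tri c hc8 hc'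
    refine ⟨by rw [hn8]; exact t1, by rw [hn8]; exact t2, by rw [hn8]; exact hc8, t3, t4, hχS _ t3, hχS _ t4, hχL _ hc', t5, t6, t7, t8,
      t9, t10, t11, t12, t13, ?_⟩
    rcases t14 with t14 | t14 <;> rw [t14] <;> simpa using h2ne
  let X : ℕ → K → E := fun r t => if b2L r then U.XL (b2pa r) (b2pb r) (b2C r) t else U.X r t
  have XL' : ∀ r t, b2L r → X r t = U.XL (b2pa r) (b2pb r) (b2C r) t := fun r t h => if_pos h
  have XS' : ∀ r t, b2S r → X r t = U.X r t := fun r t h => if_neg (b2_not r h)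
  have hcases : ∀ r, r < chevB2.nroots → b2L r ∨ b2S r := by
    intro r hr
    rw [hn8] at hr
    exact b2_cases r hr
  have hX_lf : ∀ {c : ℕ} (_ : c < chevB2.nroots) (t : K), π (X c t) = σ (chevB2.scGen K c t) := by
    intro c hc' t
    rcases hcases c hc' with h | h
    · rw [XL' c t h]
      exact (htri c h (by rwa [hn8] at hc')).XL_lf t
    · rw [XS' c t h]
      exact U.X_lf hc' h t
  have hX_add : ∀ {c : ℕ} (_ : c < chevB2.nroots) (t u : K), X c t * X c u = X c (t + u) := by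
    intro c hc' t u
    rcases hcases c hc' with h | h
    · rw [XL' _ _ h, XL' _ _ h, XL' _ _ h]
      exact (htri c h (by rwa [hn8] at hc')).XL_add h30 t u
    · rw [XS' _ _ h, XS' _ _ h, XS' _ _ h]
      exact U.X_add hc' h t u
  have hX_conj : ∀ {l : ℕ} {t₀ : K} {y : chevB2.SteinbergCover K} (_ : l < chevB2.nroots) (_ : TA chevB2 K (chiP chevB2 l t₀) y) {e : E}
      (_ : π e = σ y) {c : ℕ} (_ : c < chevB2.nroots) (t : K), e * X c t * e⁻¹ = X c (chiP chevB2 l t₀ c * t) := by
    intro l t₀ y hl hy e he c hc' t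
    rcases hcases c hc' with h | h
    · rw [XL' _ _ h, XL' _ _ h]
      have hc8 : c < 8 := by rwa [hn8] at hc'
      have hl8 : l < 8 := by rwa [hn8] at hl
      refine (htri c h hc8).XL_conj h3K h30 hy he ?_ t
      have hadd := b2_tab_add c hc8 h l hl8
      have ht : t₀ ≠ 0 := by
        rcases h3K t₀ with rfl | rfl | rfl
        · exfalso
          have h5 := hy.ne l hl
          have h6 : chevB2.pairing l l = 2 := b2_tab_self l hl8
          unfold chiP at h5
          rw [h6] at h5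
          simp at h5
        · exact one_ne_zero
        · exact hm0
      unfold chiP
      rw [← zpow_add₀ ht, hadd]
    · rw [XS' _ _ h, XS' _ _ h]
      exact U.X_conj_TA hy he hc' h t
  let UU : UX chevB2 K π σ :=
    { hc := hc
      L := L
      hL := hL
      X := X
      X_lf := hX_lf
      X_add := hX_add
      X_conj := hX_conj }
  have hXW : UU.XW TabB2.good5 := by
    intro i hi e he c hc' t
    have hi2 : i < 2 := hi
    have hc8 : c < 8 := by rwa [hn8] at hc'
    show e * X c t * e⁻¹ = X (TabB2.W i c) (((TabB2.S i c : ℤ) : K) * t)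
    rcases hcases c hc' with h | h
    · obtain ⟨h5, h6⟩ := b2_tab_W i hi2 c hc8 h
      rw [XL' _ _ h, XL' _ _ h5]
      set a := b2pa c with ha
      set b := b2pb c with hb
      set C := b2C c with hC
      set c' := TabB2.W i c with hc'def
      have htc := htri c h hc8
      have hc'8 : c' < 8 := by
        have := TabB2.good5.W_lt hi hc'
        rwa [hn8] at this
      have htc' := htri c' h5 hc'8
      have hCne : (C : K) ≠ 0 := htc.Cne
      have e1 : e * U.WW a b 1 (-t / (C : K)) * e⁻¹ =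
          U.WW (TabB2.W i a) (TabB2.W i b) (((TabB2.S i a : ℤ) : K) * 1) (((TabB2.S i b : ℤ) : K) * (-t / (C : K))) :=
        U.conj_WW e (U.X_W TabB2.good5 hi he htc.ha htc.pa (by
            exact b2_tab_WS i hi2 a (by rw [hn8] at *; exact htc.ha) htc.pa) 1)
          (U.X_W TabB2.good5 hi he htc.hb htc.pb (by
            exact b2_tab_WS i hi2 b (by rw [hn8] at *; exact htc.hb) htc.pb) _)
      show e * U.WW a b 1 (-t / (C : K)) * e⁻¹ = _
      rw [e1]
      rcases h6 with ⟨h7, h8, h9⟩ | ⟨h7, h8, h9⟩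
      · rw [← h7, ← h8, htc'.WW_eq h3K h30]
        congr 1
        have h10 := congrArg (fun z : ℤ => (z : K)) h9
        simp only [Int.cast_mul] at h10
        field_simp
        linear_combination t * h10
      · rw [← h7, ← h8, US.WW_flip, htc'.WW_eq h3K h30]
        have e2 : (U.XL (b2pa c') (b2pb c') (b2C c') (-(b2C c' : K) * (((TabB2.S i b : ℤ) : K) * (-t / (C : K))) * (((TabB2.S i a : ℤ) : K) * 1)))⁻¹ =
            U.XL (b2pa c') (b2pb c') (b2C c') ((b2C c' : K) * (((TabB2.S i b : ℤ) : K) * (-t / (C : K))) * (((TabB2.S i a : ℤ) : K) * 1)) := by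
          rw [inv_eq_iff_mul_eq_one, htc'.XL_add h30]
          have : -(b2C c' : K) * (((TabB2.S i b : ℤ) : K) * (-t / (C : K))) * (((TabB2.S i a : ℤ) : K) * 1) +
              (b2C c' : K) * (((TabB2.S i b : ℤ) : K) * (-t / (C : K))) * (((TabB2.S i a : ℤ) : K) * 1) = 0 := by ring
          rw [this]
          have h10 := htc'.XL_add h30 0 0
          rw [add_zero] at h10
          exact mul_eq_left.mp h10
        rw [e2]
        congr 1
        have h10 := congrArg (fun z : ℤ => (z : K)) h9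
        simp only [Int.cast_mul, Int.cast_neg] at h10
        field_simp
        linear_combination t * h10
    · have h5 := b2_tab_WS i hi2 c hc8 h
      rw [XS' _ _ h, XS' _ _ h5]
      exact U.X_W TabB2.good5 hi he hc' h h5 t
  have hNN : NN chevB2 = 4 := by decide +kernel
  have t7 : U.Tri 5 6 7 2 := htri 7 (by decide) (by norm_num)
  have hX5 : ∀ t, X 5 t = U.X 5 t := fun t => XS' 5 t (by decide)
  have hX6 : ∀ t, X 6 t = U.X 6 t := fun t => XS' 6 t (by decide)
  have hX7 : ∀ t, X 7 t = U.XL 5 6 2 t := fun t => XL' 7 t (by decide)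
  have hleft : ∀ c e, b2L c → b2S e → (∃ (l : ℕ) (t₀ : K) (y : chevB2.SteinbergCover K), l < chevB2.nroots ∧
      TA chevB2 K (chiP chevB2 l t₀) y ∧ chiP chevB2 l t₀ c = 1 ∧ chiP chevB2 l t₀ e ≠ 1) := by
    intro c e h1 h3
    refine ⟨0, -1, y₀, by decide +kernel, hy₀, hχL c h1, ?_⟩
    rw [hχS e h3]
    exact h2
  have hP47 : UU.PP 4 7 := by
    intro t u
    have h5 : chevB2.commTerms 4 7 = [] := by decide +kernel
    obtain ⟨-, h6⟩ := swap_zero TabB2.good5 hc hL h3K h30 (c := 4) (e := 7) (by decide +kernel) (by decide +kernel)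
      (by decide +kernel) (by decide +kernel) h5 [0] (by
        intro i hi
        simp only [List.mem_cons, List.not_mem_nil, or_false] at hi
        subst hi
        decide +kernel) (by decide +kernel) (by decide +kernel) (by decide +kernel) (by decide +kernel) t u
    have h7 : cc (UU.X 4 t) (UU.X 7 u) = 1 := by
      rw [← h6]
      exact cc_lf0 hc (by rw [UU.X_lf (by decide +kernel) t, hL]) (by rw [UU.X_lf (by decide +kernel) u, hL])
    simp only [ChevalleyDatum.commWord, h5, List.map_nil, wX_nil, mul_one]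
    exact (UX.comm_of_cc h7).symm
  have hP56 : UU.PP 5 6 := by
    intro t u
    have h5 : chevB2.commTerms 5 6 = [(7, 2, 1, 1)] := by decide +kernel
    simp only [ChevalleyDatum.commWord, h5, List.map_cons, List.map_nil, wX_cons, wX_nil, mul_one, pow_one]
    show X 6 u * X 5 t = X 5 t * X 6 u * X 7 _
    rw [hX5, hX6, hX7]
    have h6 := t7.WW_eq h3K h30 t u
    have h7 : ((2 : ℤ) : K) * -t * u = -((2 : ℤ) : K) * t * u := by ring
    rw [h7, ← h6]
    unfold US.WW
    group
  have hP57 : UU.PP 5 7 := by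
    intro t u
    have h5 : chevB2.commTerms 5 7 = [] := by decide +kernel
    simp only [ChevalleyDatum.commWord, h5, List.map_nil, wX_nil, mul_one]
    show X 7 u * X 5 t = X 5 t * X 7 u
    rw [hX5, hX7]
    exact (t7.comm_a h30 t 1 _).symm
  have hP67 : UU.PP 6 7 := by
    intro t u
    have h5 : chevB2.commTerms 6 7 = [] := by decide +kernel
    simp only [ChevalleyDatum.commWord, h5, List.map_nil, wX_nil, mul_one]
    show X 7 u * X 6 t = X 6 t * X 7 u
    rw [hX6, hX7]
    exact (t7.comm_b h30 t 1 _).symm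
  have hsep : ∀ c e, NN chevB2 ≤ c → c < e → e < chevB2.nroots → (∃ (l : ℕ) (t₀ : K) (y : chevB2.SteinbergCover K), l < chevB2.nroots ∧
      TA chevB2 K (chiP chevB2 l t₀) y ∧ chiP chevB2 l t₀ c = 1 ∧ chiP chevB2 l t₀ e ≠ 1) ∨ UU.PP c e := by
    intro c e h1 h3 h4
    rw [hNN] at h1
    rw [hn8] at h4
    have hc4 : c = 4 ∨ c = 5 ∨ c = 6 := by omega
    rcases hc4 with rfl | rfl | rfl
    · have he4 : e = 5 ∨ e = 6 ∨ e = 7 := by omega
      rcases he4 with rfl | rfl | rfl
      · exact Or.inl (hleft _ _ (by decide) (by decide))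
      · exact Or.inl (hleft _ _ (by decide) (by decide))
      · exact Or.inr hP47
    · have he4 : e = 6 ∨ e = 7 := by omega
      rcases he4 with rfl | rfl
      · exact Or.inr hP56
      · exact Or.inr hP57
    · have he4 : e = 7 := by omega
      subst he4
      exact Or.inr hP67
  obtain ⟨τ, hτ⟩ := UU.exists_lift TabB2.good5 hXW hsep
  refine ⟨τ, hτ, fun τ' hτ' => ?_⟩
  have hpt : ∀ x, π (τ' x) = π (τ x) := by
    intro x
    have h1 := DFunLike.congr_fun hτ x
    have h3 := DFunLike.congr_fun hτ' x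
    simp only [MonoidHom.comp_apply] at h1 h3
    rw [h1, h3]
  have hle : commutator (chevB2.SteinbergCover K) ≤ MonoidHom.eqLocus τ' τ := by
    rw [commutator_def, Subgroup.commutator_le]
    intro a _ b _
    show τ' (cc a b) = τ (cc a b)
    rw [map_cc, map_cc]
    exact cc_lf0 hc (hpt a) (hpt b)
  rw [hperf] at hle
  ext x
  exact hle (Subgroup.mem_top (PresentedGroup.of x))

end B2

end Cfsg.Agent.Lib.Chev
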