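import Cfsg.Agent.Lib.Chev.Cov.UniB2

/-!
Universality of the group presented by (R1), (R2) of type `B₂` over the field with four elements.
-/

set_option autoImplicit false
set_option linter.unusedSimpArgs false
set_option linter.unusedVariables false
set_option linter.unusedSectionVars false

namespace Cfsg.Agent.Lib.Chev

open Cfsg Cfsg.Lie Cfsg.Agent.Lib.CT
open Good2 (NN rBC gen_mem_rBC rB_leC rB_inductionC wB_memC)

variable {D : ChevalleyDatum} {K : Type*} [Field K]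

section CE

variable {E G₁ : Type*} [Group E] [Group G₁] {π : E →* G₁} {σ : D.SteinbergCover K →* G₁}

/-- A general form of the universal lift. -/
theorem lift_core2 (G : Good5 D)
    (hTor : ∀ c, c < D.nroots → ∃ (y : D.SteinbergCover K) (χ : ℕ → K), TA D K χ y ∧ χ c ≠ 1)
    (hab : ∀ (L : D.SteinbergCover K → E), (∀ a, π (L a) = σ a) → ∀ c, c < D.nroots → ∀ t u : K,
      cc (L (D.scGen K c t)) (L (D.scGen K c u)) = 1)
    (hsep : ∀ c e, NN D ≤ c → c < e → e < D.nroots →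
      ∃ (y : D.SteinbergCover K) (χ : ℕ → K), TA D K χ y ∧ χ c = 1 ∧ χ e ≠ 1)
    (hperf : commutator (D.SteinbergCover K) = ⊤)
    (hπ : Function.Surjective π) (hc : π.ker ≤ Subgroup.center E) :
    ∃! τ : D.SteinbergCover K →* E, π.comp τ = σ := by
  let L : D.SteinbergCover K → E := fun a => Function.surjInv hπ (σ a)
  have hL : ∀ a, π (L a) = σ a := fun a => Function.surjInv_eq hπ _
  have hTor' : ∀ c, ∃ (y : D.SteinbergCover K) (χ : ℕ → K), c < D.nroots → TA D K χ y ∧ χ c ≠ 1 := by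
    intro c
    by_cases hc' : c < D.nroots
    · obtain ⟨y, χ, h1, h2⟩ := hTor c hc'
      exact ⟨y, χ, fun _ => ⟨h1, h2⟩⟩
    · exact ⟨1, fun _ => 1, fun h => absurd h hc'⟩
  choose Y C hYC using hTor'
  let U : UD D K π σ := ⟨hc, L, hL, Y, C, fun c h => (hYC c h).1, fun c h => (hYC c h).2, hab L hL⟩
  obtain ⟨τ, hτ⟩ := U.exists_lift G (fun c e h1 h2 h3 => Or.inl (hsep c e h1 h2 h3))
  refine ⟨τ, hτ, fun τ' hτ' => ?_⟩
  have hpt : ∀ x, π (τ' x) = π (τ x) := by
    intro x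
    have h1 := DFunLike.congr_fun hτ x
    have h2 := DFunLike.congr_fun hτ' x
    simp only [MonoidHom.comp_apply] at h1 h2
    rw [h1, h2]
  have hle : commutator (D.SteinbergCover K) ≤ MonoidHom.eqLocus τ' τ := by
    rw [commutator_def, Subgroup.commutator_le]
    intro a _ b _
    show τ' (cc a b) = τ (cc a b)
    rw [map_cc, map_cc]
    exact cc_lf0 hc (hpt a) (hpt b)
  rw [hperf] at hle
  ext x
  exact hle (Subgroup.mem_top (PresentedGroup.of x))

theorem comm_root_sep (hc : π.ker ≤ Subgroup.center E) {L : D.SteinbergCover K → E} (hL : ∀ a, π (L a) = σ a)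
    {y : D.SteinbergCover K} {χ : ℕ → K} (hy : TA D K χ y) {c f : ℕ} (hcχ : χ c = 1) (hfχ : χ f ≠ 1) (hr : c < D.nroots)
    (hf : f < D.nroots) {v : K} (hcf : ∀ u : K, D.scGen K c v * D.scGen K f u = D.scGen K f u * D.scGen K c v)
    {e : E} (he : π e = σ (D.scGen K c v)) (r : K) {g : E} (hg : π g = σ (D.scGen K f r)) : e * g = g * e := by
  have hcen : ∀ (z : E), π z = 1 → ∀ w, z * w = w * z :=
    fun z h w => ((Subgroup.mem_center_iff.mp (hc (MonoidHom.mem_ker.mpr h))) w).symm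
  have hyc : D.scGen K c v * y = y * D.scGen K c v := by
    have := hy.act c hr v
    rw [hcχ, one_mul, mul_inv_eq_iff_eq_mul] at this
    exact this.symm
  have hf' := sub_ne_zero.mpr hfχ
  set z' := r / (χ f - 1) with hz''
  have e4 : D.scGen K f r = cc y (D.scGen K f z') := by
    rw [cc_TA hy hf, hz'']
    congr 1
    field_simp
  have e5 : e * cc (L y) (L (D.scGen K f z')) = cc (L y) (L (D.scGen K f z')) * e := by
    apply comm0 hc (a := D.scGen K c v) (y := y) (h := D.scGen K f z') hyc (hcf z') he (hL _) (hL _)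
  have hzz : π (g * (cc (L y) (L (D.scGen K f z')))⁻¹) = 1 := by
    rw [map_mul, map_inv, map_cc, hL, hL, hg, ← map_cc, ← e4, mul_inv_cancel]
  have e6 : g = (g * (cc (L y) (L (D.scGen K f z')))⁻¹) * cc (L y) (L (D.scGen K f z')) := by group
  rw [e6]
  calc e * (g * (cc (L y) (L (D.scGen K f z')))⁻¹ * cc (L y) (L (D.scGen K f z')))
      = (e * (g * (cc (L y) (L (D.scGen K f z')))⁻¹)) * cc (L y) (L (D.scGen K f z')) := by group
    _ = (g * (cc (L y) (L (D.scGen K f z')))⁻¹) * (e * cc (L y) (L (D.scGen K f z'))) := by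
        rw [← hcen _ hzz e]
        group
    _ = _ := by rw [e5]; group

theorem cc_of_comm (hc : π.ker ≤ Subgroup.center E) {L : D.SteinbergCover K → E} (hL : ∀ a, π (L a) = σ a)
    {h w₁ w₂ : D.SteinbergCover K} (hdec : h = w₁ * w₂) {e g₁ g₂ : E} (hg1 : π g₁ = σ w₁) (hg2 : π g₂ = σ w₂)
    (c1 : e * g₁ = g₁ * e) (c2 : e * g₂ = g₂ * e) : cc e (L h) = 1 := by
  have e1 : cc e (L h) = cc e (g₁ * g₂) := by
    apply cc_lf0 hc rfl
    rw [hL, map_mul, hg1, hg2, ← map_mul, hdec]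
  rw [e1]
  unfold cc
  have e2 : e * (g₁ * g₂) = (g₁ * g₂) * e := by
    calc e * (g₁ * g₂) = (e * g₁) * g₂ := by group
      _ = g₁ * (e * g₂) := by rw [c1]; group
      _ = _ := by rw [c2]; group
  rw [e2]
  group

/-- The lifts of a long root group commute, over fields with at least four elements. -/
theorem hab_long4 (G : Good5 D) (hc : π.ker ≤ Subgroup.center E) {L : D.SteinbergCover K → E} (hL : ∀ a, π (L a) = σ a)
    (hK4 : ∃ s : Finset K, 3 < s.card) {c : ℕ} (hr : c < D.nroots) (hH : HLong D c)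
    (hnat : ∀ l f, l < D.nroots → f < D.nroots → (D.pairing l f).natAbs ≤ 2) (v w : K) :
    cc (L (D.scGen K c v)) (L (D.scGen K c w)) = 1 := by
  obtain ⟨a, b, f, C₁, C₂, l, ha, hb, hf, hl, hba, hbn, hT, hC, h1, h2, h3, h4, h5, h6, hT1, hT2, hT3, hl1, hl2, hl3⟩ := hH
  obtain ⟨t₀, ht₀, ht₁⟩ := exists_zpow_ne4 hK4 hl2 (hnat l f hl hf)
  obtain ⟨y, hy⟩ := G.tor_exists hl ht₀
  have hy1 : chiP D l t₀ c = 1 := by
    unfold chiP
    rw [hl1, zpow_zero]
  have hy2 : chiP D l t₀ f ≠ 1 := ht₁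
  set g := D.scGen K c v with hg
  set e := L g with he
  have hlg : π e = σ g := hL _
  have hCs : ((C₂ : ℤ) : K) * (C₂ : K) = 1 := sign_sq hC
  set u : K := (C₂ : K) * w with hu
  have hv : (C₂ : K) * u = w := by
    rw [hu, ← mul_assoc, hCs, one_mul]
  have hR2 := stGen_R2C ha hb hba hbn (-1 : K) u
  have hwd : wBC D K (D.commWord K a b (-1) u) = D.scGen K f ((C₁ : K) * u) * D.scGen K c w := by
    simp only [ChevalleyDatum.commWord, hT, List.map_cons, List.map_nil, wB_consC, neg_neg, one_pow, mul_one, pow_one]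
    rw [hv]
    simp [wBC]
  rw [hwd] at hR2
  set A := D.scGen K a (-1) with hA
  set B := D.scGen K b u with hB
  set z := D.scGen K f ((C₁ : K) * u) with hz
  have hdec : D.scGen K c w = z⁻¹ * cc B⁻¹ A⁻¹ := by
    have : z * D.scGen K c w = cc B⁻¹ A⁻¹ := by
      unfold cc
      simp only [inv_inv]
      calc z * D.scGen K c w = (A * B)⁻¹ * (A * B * (z * D.scGen K c w)) := by group
        _ = (A * B)⁻¹ * (B * A) := by rw [← hR2]
        _ = _ := by group
    rw [← this]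
    group
  have hzi : z⁻¹ = D.scGen K f (-((C₁ : K) * u)) := Good2.stGen_invC hf _
  refine cc_of_comm hc hL hdec (g₁ := L z⁻¹) (g₂ := cc (L B⁻¹) (L A⁻¹)) (hL _) ?_ ?_ ?_
  · rw [map_cc, hL, hL, map_cc]
  · refine comm_root_sep hc hL hy hy1 hy2 hr hf (fun u' => ?_) hlg (-((C₁ : K) * u)) ?_
    · exact root_commC hf hr h5 h6 hT3 u' v
    · rw [hL, hzi]
  · apply comm0 hc (a := g) (y := B⁻¹) (h := A⁻¹) ?_ ?_ hlg (hL _) (hL _)
    · have := root_commC hb hr h3 h4 hT2 u v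
      rw [← hB, ← hg] at this
      calc g * B⁻¹ = B⁻¹ * (B * g) * B⁻¹ := by group
        _ = B⁻¹ * (g * B) * B⁻¹ := by rw [this]
        _ = _ := by group
    · have := root_commC ha hr h1 h2 hT1 (-1) v
      rw [← hA, ← hg] at this
      calc g * A⁻¹ = A⁻¹ * (A * g) * A⁻¹ := by group
        _ = A⁻¹ * (g * A) * A⁻¹ := by rw [this]
        _ = _ := by group

/-- A short root in characteristic two. -/
def HShort2 (D : ChevalleyDatum) (c : ℕ) : Prop :=
  ∃ (a b f : ℕ) (C₁ C₂ C₃ : ℤ) (l : ℕ), a < D.nroots ∧ b < D.nroots ∧ f < D.nroots ∧ l < D.nroots ∧ b ≠ a ∧ b ≠ D.neg a ∧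
    D.commTerms a b = [(c, C₁, 1, 1), (f, C₂, 2, 1)] ∧ (C₁ = 1 ∨ C₁ = -1) ∧ c ≠ a ∧ c ≠ D.neg a ∧ c ≠ b ∧ c ≠ D.neg b ∧
    c ≠ f ∧ c ≠ D.neg f ∧ D.commTerms a c = [(f, C₃, 1, 1)] ∧ (C₃ = 2 ∨ C₃ = -2) ∧ D.commTerms b c = [] ∧ D.commTerms f c = [] ∧
    D.pairing l c = 0 ∧ D.pairing l f ≠ 0

/-- The lifts of a short root group commute in characteristic two. -/
theorem hab_short4 (G : Good5 D) (hc : π.ker ≤ Subgroup.center E) {L : D.SteinbergCover K → E} (hL : ∀ a, π (L a) = σ a)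
    (hK4 : ∃ s : Finset K, 3 < s.card) (h20 : (2 : K) = 0) {c : ℕ} (hr : c < D.nroots) (hH : HShort2 D c)
    (hnat : ∀ l f, l < D.nroots → f < D.nroots → (D.pairing l f).natAbs ≤ 2) (v w : K) :
    cc (L (D.scGen K c v)) (L (D.scGen K c w)) = 1 := by
  obtain ⟨a, b, f, C₁, C₂, C₃, l, ha, hb, hf, hl, hba, hbn, hT, hC, h1, h2, h3, h4, h5, h6, hT1, hC3, hT2, hT3, hl1, hl2⟩ := hH
  obtain ⟨t₀, ht₀, ht₁⟩ := exists_zpow_ne4 hK4 hl2 (hnat l f hl hf)
  obtain ⟨y, hy⟩ := G.tor_exists hl ht₀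
  have hy1 : chiP D l t₀ c = 1 := by
    unfold chiP
    rw [hl1, zpow_zero]
  have hy2 : chiP D l t₀ f ≠ 1 := ht₁
  set g := D.scGen K c v with hg
  set e := L g with he
  have hlg : π e = σ g := hL _
  have hCs : ((C₁ : ℤ) : K) * (C₁ : K) = 1 := sign_sq hC
  set u : K := (C₁ : K) * w with hu
  have hv : (C₁ : K) * u = w := by
    rw [hu, ← mul_assoc, hCs, one_mul]
  have hR2 := stGen_R2C ha hb hba hbn (-1 : K) u
  have hwd : wBC D K (D.commWord K a b (-1) u) = D.scGen K c w * D.scGen K f ((C₂ : K) * u) := by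
    simp only [ChevalleyDatum.commWord, hT, List.map_cons, List.map_nil, wB_consC, neg_neg, one_pow, mul_one, pow_one]
    rw [hv]
    simp [wBC]
  rw [hwd] at hR2
  set A := D.scGen K a (-1) with hA
  set B := D.scGen K b u with hB
  set z := D.scGen K f ((C₂ : K) * u) with hz
  have hdec : D.scGen K c w = cc B⁻¹ A⁻¹ * z⁻¹ := by
    have : D.scGen K c w * z = cc B⁻¹ A⁻¹ := by
      unfold cc
      simp only [inv_inv]
      calc D.scGen K c w * z = (A * B)⁻¹ * (A * B * (D.scGen K c w * z)) := by group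
        _ = (A * B)⁻¹ * (B * A) := by rw [← hR2]
        _ = _ := by group
    rw [← this]
    group
  have hzi : z⁻¹ = D.scGen K f (-((C₂ : K) * u)) := Good2.stGen_invC hf _
  refine cc_of_comm hc hL hdec (g₁ := cc (L B⁻¹) (L A⁻¹)) (g₂ := L z⁻¹) ?_ (hL _) ?_ ?_
  · rw [map_cc, hL, hL, map_cc]
  · apply comm0 hc (a := g) (y := B⁻¹) (h := A⁻¹) ?_ ?_ hlg (hL _) (hL _)
    · have := root_commC hb hr h3 h4 hT2 u v
      rw [← hB, ← hg] at this
      calc g * B⁻¹ = B⁻¹ * (B * g) * B⁻¹ := by group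
        _ = B⁻¹ * (g * B) * B⁻¹ := by rw [this]
        _ = _ := by group
    · have hR3 := stGen_R2C ha hr (Ne.symm (Ne.symm h1)) h2 (-1 : K) v
      have hwd3 : wBC D K (D.commWord K a c (-1) v) = 1 := by
        simp only [ChevalleyDatum.commWord, hT1, List.map_cons, List.map_nil, wB_consC, neg_neg, one_pow, mul_one, pow_one]
        have h7 : (C₃ : K) = 0 := by
          rcases hC3 with rfl | rfl
          · simpa using h20
          · simp [h20]
        rw [h7, zero_mul, Good2.stGen_zeroC hf]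
        simp [wBC]
      rw [hwd3, mul_one, ← hA, ← hg] at hR3
      calc g * A⁻¹ = A⁻¹ * (A * g) * A⁻¹ := by group
        _ = A⁻¹ * (g * A) * A⁻¹ := by rw [← hR3]
        _ = _ := by group
  · refine comm_root_sep hc hL hy hy1 hy2 hr hf (fun u' => ?_) hlg (-((C₂ : K) * u)) ?_
    · exact root_commC hf hr h5 h6 hT3 u' v
    · rw [hL, hzi]

end CE

theorem b2_long_data : ∀ c, b2L c → HLong chevB2 c := by
  intro c hc
  rcases hc with rfl | rfl | rfl | rfl
  · refine ⟨2, 3, 1, 1, -1, 3, ?_⟩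
    decide +kernel
  · refine ⟨5, 0, 1, -1, -1, 0, ?_⟩
    decide +kernel
  · refine ⟨2, 7, 6, 1, -1, 0, ?_⟩
    decide +kernel
  · refine ⟨5, 4, 6, -1, -1, 3, ?_⟩
    decide +kernel

theorem b2_short_data : ∀ c, b2S c → HShort2 chevB2 c := by
  intro c hc
  rcases hc with rfl | rfl | rfl | rfl
  · refine ⟨2, 3, 0, 1, -1, -2, 2, ?_⟩
    decide +kernel
  · refine ⟨1, 4, 0, 1, 1, 2, 1, ?_⟩
    decide +kernel
  · refine ⟨6, 3, 7, -1, 1, -2, 1, ?_⟩
    decide +kernel
  · refine ⟨5, 4, 7, -1, -1, 2, 2, ?_⟩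
    decide +kernel

theorem b2_nat : ∀ l f, l < chevB2.nroots → f < chevB2.nroots → (chevB2.pairing l f).natAbs ≤ 2 := by
  have h : ∀ l, l < 8 → ∀ f, f < 8 → (chevB2.pairing l f).natAbs ≤ 2 := by decide +kernel
  intro l f h1 h2
  exact h l h1 f h2

set_option maxRecDepth 100000 in
theorem sep2B2 : chkSep2 (tblOf chevB2) = true := TabB2.tbl_eq ▸ (by decide +kernel : chkSep2 TabB2.fd.tbl = true)

section B2

variable {E G₁ : Type*} [Group E] [Group G₁] {π : E →* G₁} {σ : chevB2.SteinbergCover K →* G₁}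

/-- The universal property of type `B₂` over the field with four elements. -/
theorem universal_B2_4 (hK4 : ∃ s : Finset K, 3 < s.card) (h20 : (2 : K) = 0)
    (hperf : commutator (chevB2.SteinbergCover K) = ⊤)
    (hπ : Function.Surjective π) (hc : π.ker ≤ Subgroup.center E) :
    ∃! τ : chevB2.SteinbergCover K →* E, π.comp τ = σ := by
  have hn8 : chevB2.nroots = 8 := by decide +kernel
  refine lift_core2 TabB2.good5 ?_ ?_ ?_ hperf hπ hc
  · intro c hc'
    obtain ⟨t, h0, h1⟩ := exists_zpow_ne4 hK4 (m := 2) (by norm_num) (by norm_num)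
    obtain ⟨y, hy⟩ := TabB2.good5.tor_exists hc' h0
    refine ⟨y, _, hy, ?_⟩
    rw [TabB2.good5.chi_selfC hc']
    exact_mod_cast h1
  · intro L hL c hc' t u
    have hc8 : c < 8 := by rwa [hn8] at hc'
    rcases b2_cases c hc8 with h | h
    · exact hab_long4 TabB2.good5 hc hL hK4 hc' (b2_long_data c h) b2_nat t u
    · exact hab_short4 TabB2.good5 hc hL hK4 h20 hc' (b2_short_data c h) b2_nat t u
  · intro c e h1 h2 h3
    obtain ⟨l, hl, h4, h5, h6⟩ := sep2_of_chk sep2B2 c e h1 h2 h3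
    obtain ⟨t, h0, h7⟩ := exists_zpow_ne4 hK4 h5 h6
    obtain ⟨y, hy⟩ := TabB2.good5.tor_exists hl h0
    refine ⟨y, _, hy, ?_, h7⟩
    unfold chiP
    rw [h4, zpow_zero]

end B2

end Cfsg.Agent.Lib.Chev
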