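import Cfsg.Agent.Lib.Chev.Cov.UniX

/-!
Lifting the group presented by (R1), (R2) through central extensions with uniquely `p`-divisible kernel, `p` the
characteristic of the field: the canonical lifts of root elements are the lifts of order dividing `p`.
-/

set_option autoImplicit false
set_option linter.unusedSimpArgs false
set_option linter.unusedVariables false
set_option linter.unusedSectionVars false

namespace Cfsg.Agent.Lib.Chev

open Cfsg Cfsg.Lie Cfsg.Agent.Lib.CT
open Good2 (NN rBC gen_mem_rBC rB_leC rB_inductionC wB_memC)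

variable {D : ChevalleyDatum} {K : Type*} [Field K]

/-- Elements of order a power of `p`. -/
def IsPE {Γ : Type*} [Group Γ] (p : ℕ) (g : Γ) : Prop := ∃ k : ℕ, g ^ (p ^ k) = 1

theorem IsPE.conj {Γ : Type*} [Group Γ] {p : ℕ} {g : Γ} (h : IsPE p g) (e : Γ) : IsPE p (e * g * e⁻¹) := by
  obtain ⟨k, hk⟩ := h
  refine ⟨k, ?_⟩
  rw [conj_pow, hk]
  group

theorem gen_powC {r : ℕ} (hr : r < D.nroots) (t : K) (j : ℕ) : (D.scGen K r t) ^ j = D.scGen K r ((j : K) * t) := by
  induction j with
  | zero => simp [Good2.stGen_zeroC hr]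
  | succ j ih =>
    rw [pow_succ, ih, stGen_R1C hr]
    congr 1
    push_cast
    ring

/-- The elements of the tail subgroups have order a power of the characteristic. -/
theorem tail_torsion (G : Good5 D) {p : ℕ} (hp0 : ((p : ℕ) : K) = 0) :
    ∀ k m, m + k = D.nroots → NN D ≤ m → ∀ g, g ∈ rBC D K (m ≤ ·) → IsPE p g := by
  intro k
  induction k with
  | zero =>
    intro m hm hN g hg
    have hbot : rBC D K (m ≤ ·) = ⊥ := by
      apply le_bot_iff.mp
      apply rB_leC
      intro r t h h2
      have : m ≤ r := h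
      omega
    rw [hbot, Subgroup.mem_bot] at hg
    subst hg
    exact ⟨0, by simp⟩
  | succ k ih =>
    intro m hm hN g hg
    have hm' : m < D.nroots := by omega
    obtain ⟨t, g', hg', rfl⟩ := G.tB_decompC hm' hN hg
    have hconj : ∀ (s : K) (g : D.SteinbergCover K), g ∈ rBC D K (m + 1 ≤ ·) →
        D.scGen K m s * g * (D.scGen K m s)⁻¹ ∈ rBC D K (m + 1 ≤ ·) := by
      intro s g hg
      have := G.conj_mem_tBC hm' hN (Nat.lt_succ_self m) (-s) hg
      rw [neg_neg] at this
      rwa [Good2.stGen_invC hm']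
    have hpow : ∀ j : ℕ, ∃ h, h ∈ rBC D K (m + 1 ≤ ·) ∧ (D.scGen K m t * g') ^ j = D.scGen K m ((j : K) * t) * h := by
      intro j
      induction j with
      | zero => exact ⟨1, Subgroup.one_mem _, by simp [Good2.stGen_zeroC hm']⟩
      | succ j ihj =>
        obtain ⟨h, hh, e⟩ := ihj
        refine ⟨(D.scGen K m (-t) * h * (D.scGen K m (-t))⁻¹) * g', Subgroup.mul_mem _ (hconj _ _ hh) hg', ?_⟩
        rw [pow_succ, e]
        have e1 : D.scGen K m (((j + 1 : ℕ) : K) * t) = D.scGen K m ((j : K) * t) * D.scGen K m t := by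
          rw [stGen_R1C hm']
          congr 1
          push_cast
          ring
        rw [e1, Good2.stGen_invC hm', neg_neg, ← Good2.stGen_invC hm']
        group
    obtain ⟨h, hh, e⟩ := hpow p
    rw [hp0, zero_mul, Good2.stGen_zeroC hm', one_mul] at e
    obtain ⟨k', hk'⟩ := ih (m + 1) (by omega) (by omega) h hh
    refine ⟨k' + 1, ?_⟩
    rw [pow_succ', pow_mul, e, hk']

section CE

variable {E G₁ : Type*} [Group E] [Group G₁] {π : E →* G₁} {σ : D.SteinbergCover K →* G₁}

/-- The lift to a central extension whose kernel is uniquely `p`-divisible. -/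
theorem lift_p (G : Good5 D) {p : ℕ} (hp0 : ((p : ℕ) : K) = 0)
    (hc : π.ker ≤ Subgroup.center E) (hl : ∀ a, ∃ e, π e = σ a)
    (hU : ∀ z, π z = 1 → z ^ p = 1 → z = 1) (hD : ∀ z, π z = 1 → ∃ w, π w = 1 ∧ w ^ p = z) :
    ∃ τ : D.SteinbergCover K →* E, π.comp τ = σ := by
  choose L hL using hl
  have hcen : ∀ (z : E), π z = 1 → ∀ w, z * w = w * z :=
    fun z h w => ((Subgroup.mem_center_iff.mp (hc (MonoidHom.mem_ker.mpr h))) w).symm
  -- uniqueness of lifts of `p`-power order
  have hUk : ∀ (k : ℕ) (z : E), π z = 1 → z ^ (p ^ k) = 1 → z = 1 := by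
    intro k
    induction k with
    | zero =>
      intro z _ h
      simpa using h
    | succ k ih =>
      intro z h0 h
      apply ih z h0
      apply hU _ (by rw [map_pow, h0, one_pow])
      rw [← pow_mul, ← pow_succ]
      exact h
  have huniq : ∀ a b : E, IsPE p a → IsPE p b → π a = π b → a = b := by
    rintro a b ⟨k, hk⟩ ⟨k', hk'⟩ hab
    have hz : π (a * b⁻¹) = 1 := by
      rw [map_mul, map_inv, hab, mul_inv_cancel]
    have hcomm : Commute (a * b⁻¹) b := hcen _ hz b
    have e1 : a = (a * b⁻¹) * b := by group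
    have e2 : (a * b⁻¹) ^ (p ^ (k + k')) = 1 := by
      have e3 := hcomm.mul_pow (p ^ (k + k'))
      rw [← e1] at e3
      have e4 : a ^ (p ^ (k + k')) = 1 := by
        rw [pow_add, pow_mul, hk, one_pow]
      have e5 : b ^ (p ^ (k + k')) = 1 := by
        rw [add_comm, pow_add, pow_mul, hk', one_pow]
      rw [e4, e5, mul_one] at e3
      exact e3.symm
    have e6 := hUk _ _ hz e2
    rw [e1, e6, one_mul]
  -- the canonical lifts
  have hex : ∀ r t, ∃ e : E, r < D.nroots → π e = σ (D.scGen K r t) ∧ e ^ p = 1 := by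
    intro r t
    by_cases hr : r < D.nroots
    · set e₀ := L (D.scGen K r t) with he₀
      have h1 : π e₀ = σ (D.scGen K r t) := hL _
      have h2 : π ((e₀ ^ p)⁻¹) = 1 := by
        rw [map_inv, map_pow, h1, ← map_pow, gen_powC hr, hp0, zero_mul, Good2.stGen_zeroC hr, map_one, inv_one]
      obtain ⟨w, hw1, hw2⟩ := hD _ h2
      refine ⟨e₀ * w, fun _ => ⟨?_, ?_⟩⟩
      · rw [map_mul, h1, hw1, mul_one]
      · have hcomm : Commute e₀ w := (hcen w hw1 e₀).symm
        rw [hcomm.mul_pow, hw2, mul_inv_cancel]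
    · exact ⟨1, fun h => absurd h hr⟩
  choose X hX using hex
  have hXlf : ∀ {c : ℕ} (_ : c < D.nroots) (t : K), π (X c t) = σ (D.scGen K c t) := fun hc' t => (hX _ t hc').1
  have hXp : ∀ {c : ℕ} (_ : c < D.nroots) (t : K), IsPE p (X c t) := fun hc' t => ⟨1, by
    rw [pow_one]
    exact (hX _ t hc').2⟩
  have hXadd : ∀ {c : ℕ} (_ : c < D.nroots) (t u : K), X c t * X c u = X c (t + u) := by
    intro c hc' t u
    set a := X c t with ha
    set b := X c u with hb
    have hap : a ^ p = 1 := (hX c t hc').2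
    have hbp : b ^ p = 1 := (hX c u hc').2
    have hz : π (b * a * b⁻¹ * a⁻¹) = 1 := by
      rw [map_mul, map_mul, map_mul, map_inv, map_inv, hXlf hc', hXlf hc', ← map_inv, ← map_inv, ← map_mul, ← map_mul, ← map_mul]
      have : D.scGen K c u * D.scGen K c t * (D.scGen K c u)⁻¹ * (D.scGen K c t)⁻¹ = 1 := by
        have e : D.scGen K c u * D.scGen K c t = D.scGen K c t * D.scGen K c u := by
          rw [stGen_R1C hc', stGen_R1C hc', add_comm]
        rw [e]
        group
      rw [this, map_one]
    set w := b * a * b⁻¹ * a⁻¹ with hw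
    have hwc := hcen w hz
    have hba : b * a * b⁻¹ = w * a := by
      rw [hw]
      group
    have hpow : ∀ j : ℕ, b * a ^ j * b⁻¹ = w ^ j * a ^ j := by
      intro j
      induction j with
      | zero => simp
      | succ j ih =>
        have e1 : b * a ^ (j + 1) * b⁻¹ = (b * a ^ j * b⁻¹) * (b * a * b⁻¹) := by
          rw [pow_succ]
          group
        rw [e1, ih, hba, pow_succ, pow_succ]
        have e2 : Commute w (a ^ j) := hwc _
        calc w ^ j * a ^ j * (w * a) = w ^ j * (a ^ j * w) * a := by group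
          _ = w ^ j * (w * a ^ j) * a := by rw [← hwc]
          _ = _ := by group
    have hwp : w ^ p = 1 := by
      have := hpow p
      rw [hap, mul_one, mul_inv_cancel, mul_one] at this
      exact this.symm
    have hw1 : w = 1 := hU w hz hwp
    have hcomm : Commute a b := by
      have e : b * a * b⁻¹ = a := by
        rw [hba, hw1, one_mul]
      have e2 : b * a = a * b := by
        calc b * a = (b * a * b⁻¹) * b := by group
          _ = _ := by rw [e]
      exact e2.symm
    apply huniq
    · refine ⟨1, ?_⟩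
      rw [pow_one, hcomm.mul_pow, hap, hbp, one_mul]
    · exact hXp hc' _
    · rw [map_mul, hXlf hc', hXlf hc', hXlf hc', ← map_mul, stGen_R1C hc']
  have hXconj : ∀ {l : ℕ} {t₀ : K} {y : D.SteinbergCover K} (_ : l < D.nroots) (_ : TA D K (chiP D l t₀) y) {e : E} (_ : π e = σ y) {c : ℕ}
    (_ : c < D.nroots) (t : K), e * X c t * e⁻¹ = X c (chiP D l t₀ c * t) := by
    intro l t₀ y _ hy e he c hc' t
    apply huniq _ _ ((hXp hc' t).conj e) (hXp hc' _)
    rw [map_mul, map_mul, map_inv, he, hXlf hc', hXlf hc', ← map_inv, ← map_mul, ← map_mul, hy.act c hc' t]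
  let U : UX D K π σ := ⟨hc, L, hL, X, hXlf, hXadd, hXconj⟩
  have hW : U.XW G := by
    intro i hi e he c hc' t
    have hWc := G.W_lt hi hc'
    apply huniq _ _ ((hXp hc' t).conj e) (hXp hWc _)
    show π (e * X c t * e⁻¹) = π (X (G.W i c) _)
    rw [map_mul, map_mul, map_inv, he, hXlf hc', hXlf hWc, ← map_inv, ← map_mul, ← map_mul, G.nB_conjC hi hc']
  -- the section
  have key : ∀ k m, m + k = D.nroots → NN D ≤ m → ∃ sf, U.IsSec m sf := by
    intro k
    induction k with
    | zero =>
      intro m hm hN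
      have : m = D.nroots := by omega
      subst this
      exact ⟨_, U.sec_top⟩
    | succ k ih =>
      intro m hm hN
      have hm' : m < D.nroots := by omega
      obtain ⟨sf, h⟩ := ih (m + 1) (by omega) (by omega)
      refine h.step G hm' hN (fun e' h1 h2 => Or.inr ?_)
      intro t u
      have hN' : NN D ≤ e' := by omega
      have hne1 : e' ≠ m := by omega
      have hne2 : e' ≠ D.neg m := by
        intro e
        have := (G.neg_pos hm').mp hN
        omega
      have hR := stGen_R2C hm' h2 hne1 hne2 t u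
      set w := D.commWord K m e' t u with hw
      have hword : ∀ w : List (ℕ × K), (∀ a ∈ w, m + 1 ≤ a.1 ∧ a.1 < D.nroots) →
          wBC D K w ∈ rBC D K (m + 1 ≤ ·) ∧ sf (wBC D K w) = wX U.X w := by
        intro w
        induction w with
        | nil =>
          intro _
          exact ⟨Subgroup.one_mem _, by simpa [wBC, wX] using h.one⟩
        | cons a w ih =>
          intro hw
          obtain ⟨h4, h5⟩ := ih fun b hb => hw b (List.mem_cons_of_mem _ hb)
          obtain ⟨h6, h7⟩ := hw a List.mem_cons_self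
          have h8 := gen_mem_rBC (K := K) (D := D) (P := (m + 1 ≤ ·)) h6 h7 a.2
          rw [wB_consC, wX_cons]
          refine ⟨Subgroup.mul_mem _ h8 h4, ?_⟩
          rw [h.mul _ _ h8 h4, h.gen _ h6 h7, h5]
      have hwm : ∀ a ∈ w, m + 1 ≤ a.1 ∧ a.1 < D.nroots := by
        intro a ha
        simp only [hw, ChevalleyDatum.commWord, List.mem_map] at ha
        obtain ⟨c, hc, rfl⟩ := ha
        have h5 := G.comm_up hm' h2 hN hN' hne1 hc
        exact ⟨by simp only; omega, G.commTerms_lt hm' h2 c hc⟩
      obtain ⟨h4, h5⟩ := hword w hwm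
      have hg : D.scGen K e' u * wBC D K w ∈ rBC D K (m + 1 ≤ ·) := Subgroup.mul_mem _ (gen_mem_rBC h1 h2 u) h4
      have hsf : sf (D.scGen K e' u * wBC D K w) = U.X e' u * wX U.X w := by
        rw [h.mul _ _ (gen_mem_rBC h1 h2 u) h4, h.gen e' h1 h2, h5]
      have hsfpow : ∀ (g : D.SteinbergCover K), g ∈ rBC D K (m + 1 ≤ ·) → ∀ j : ℕ, sf (g ^ j) = sf g ^ j := by
        intro g hg j
        induction j with
        | zero => simpa using h.one
        | succ j ih =>
          rw [pow_succ, pow_succ, h.mul _ _ (Subgroup.pow_mem _ hg j) hg, ih]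
      have hp1 : IsPE p (U.X e' u * wX U.X w) := by
        obtain ⟨k', hk'⟩ := tail_torsion G hp0 k (m + 1) (by omega) (by omega) _ hg
        refine ⟨k', ?_⟩
        rw [← hsf, ← hsfpow _ hg, hk', h.one]
      have hp2 : IsPE p ((U.X m t)⁻¹ * U.X e' u * U.X m t) := by
        have := (hXp (c := e') h2 u).conj (U.X m t)⁻¹
        rwa [inv_inv] at this
      have heq : (U.X m t)⁻¹ * U.X e' u * U.X m t = U.X e' u * wX U.X w := by
        apply huniq _ _ hp2 hp1
        rw [← hsf, h.lf _ hg, map_mul, map_mul, map_inv, U.X_lf hm', U.X_lf h2, ← map_inv, ← map_mul, ← map_mul]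
        congr 1
        calc (D.scGen K m t)⁻¹ * D.scGen K e' u * D.scGen K m t = (D.scGen K m t)⁻¹ * (D.scGen K e' u * D.scGen K m t) := by group
          _ = _ := by rw [hR]; group
      calc U.X e' u * U.X m t = U.X m t * ((U.X m t)⁻¹ * U.X e' u * U.X m t) := by group
        _ = _ := by rw [heq]; group
  obtain ⟨sf, hsf⟩ := key (NN D) (NN D) G.NN_add le_rfl
  exact U.exists_lift_of_sec G hW hsf

end CE

end Cfsg.Agent.Lib.Chev
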