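import Cfsg.Agent.Lib.Chev.Cov.UniX
import Cfsg.Agent.Lib.Chev.Cov.Uni6

/-!
Lifts of root elements for those roots which are moved by a fixed element of the torus.
-/

set_option autoImplicit false
set_option linter.unusedSimpArgs false
set_option linter.unusedVariables false
set_option linter.unusedSectionVars false

namespace Cfsg.Agent.Lib.Chev

open Cfsg Cfsg.Lie Cfsg.Agent.Lib.CT
open Good2 (NN rBC gen_mem_rBC rB_leC rB_inductionC wB_memC)

variable {D : ChevalleyDatum} {K : Type*} [Field K]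
variable {E G₁ : Type*} [Group E] [Group G₁]

/-- Lifts for the roots in a subset. -/
structure US (D : ChevalleyDatum) (K : Type*) [Field K] (π : E →* G₁) (σ : D.SteinbergCover K →* G₁) (P : ℕ → Prop) where
  hc : π.ker ≤ Subgroup.center E
  L : D.SteinbergCover K → E
  hL : ∀ a, π (L a) = σ a
  Y : D.SteinbergCover K
  C : ℕ → K
  hY : TA D K C Y
  hC : ∀ {c : ℕ}, P c → C c ≠ 1
  hab : ∀ {c : ℕ}, P c → ∀ t u : K, cc (L (D.scGen K c t)) (L (D.scGen K c u)) = 1

namespace US

variable {π : E →* G₁} {σ : D.SteinbergCover K →* G₁} {P : ℕ → Prop} (U : US D K π σ P)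
include U

theorem central_of {z : E} (hz : π z = 1) (g : E) : z * g = g * z :=
  ((Subgroup.mem_center_iff.mp (U.hc (MonoidHom.mem_ker.mpr hz))) g).symm

theorem cc_lf {e e' f f' : E} (h1 : π e = π e') (h2 : π f = π f') : cc e f = cc e' f' := by
  have hz1 : π (e * e'⁻¹) = 1 := by
    rw [map_mul, map_inv, h1, mul_inv_cancel]
  have hz2 : π (f * f'⁻¹) = 1 := by
    rw [map_mul, map_inv, h2, mul_inv_cancel]
  have e1 : e = (e * e'⁻¹) * e' := by group
  have e2 : f = (f * f'⁻¹) * f' := by group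
  rw [e1, e2, cc_central_left (U.central_of hz1), cc_central_right (U.central_of hz2)]

theorem cc_L {e f : E} {a b : D.SteinbergCover K} (h1 : π e = σ a) (h2 : π f = σ b) : cc e f = cc (U.L a) (U.L b) :=
  U.cc_lf (by rw [h1, U.hL]) (by rw [h2, U.hL])

theorem conj_cc (e f g : E) : e * cc f g * e⁻¹ = cc (e * f * e⁻¹) (e * g * e⁻¹) := by
  unfold cc
  group

/-- An element commuting with `y` and `h` commutes with the lift of their commutator. -/
theorem comm1 {a y h : D.SteinbergCover K} (h1 : a * y = y * a) (h2 : a * h = h * a) {e f g : E} (he : π e = σ a)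
    (hf : π f = σ y) (hg : π g = σ h) : e * cc f g = cc f g * e := by
  have e1 : e * cc f g * e⁻¹ = cc f g := by
    rw [U.conj_cc]
    apply U.cc_lf
    · rw [map_mul, map_mul, map_inv, he, hf, ← map_inv, ← map_mul, ← map_mul]
      congr 1
      rw [h1]
      group
    · rw [map_mul, map_mul, map_inv, he, hg, ← map_inv, ← map_mul, ← map_mul]
      congr 1
      rw [h2]
      group
  calc e * cc f g = (e * cc f g * e⁻¹) * e := by group
    _ = _ := by rw [e1]

omit U in
theorem comm_of_cc {a b : E} (h : cc a b = 1) : a * b = b * a := by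
  calc a * b = cc a b * b * a := by
        unfold cc
        group
    _ = _ := by rw [h, one_mul]

/-- The canonical lift of a root element. -/
def X (c : ℕ) (t : K) : E := cc (U.L (U.Y)) (U.L (D.scGen K c (t / (U.C c - 1))))

theorem C_sub {c : ℕ} (hc : c < D.nroots) (hp : P c) : U.C c - 1 ≠ 0 := sub_ne_zero.mpr ((U.hC hp))

theorem cc_lf_root {χ : ℕ → K} {y : D.SteinbergCover K} (hy : TA D K χ y) {c : ℕ} (hc : c < D.nroots) (hne : χ c ≠ 1)
    {e g : E} {t : K} (he : π e = σ y) (hg : π g = σ (D.scGen K c (t / (χ c - 1)))) :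
    π (cc e g) = σ (D.scGen K c t) := by
  rw [map_cc, he, hg, ← map_cc, cc_TA hy hc]
  congr 2
  have := sub_ne_zero.mpr hne
  field_simp

theorem X_lf {c : ℕ} (hc : c < D.nroots) (hp : P c) (t : K) : π (U.X c t) = σ (D.scGen K c t) :=
  U.cc_lf_root (U.hY) hc ((U.hC hp)) (U.hL _) (U.hL _)

/-- Lifts of central elements commute with lifts of root elements. -/
theorem central_comm {z : D.SteinbergCover K} (hz : ∀ g, z * g = g * z) {e g : E} {c : ℕ} (hc : c < D.nroots) (hp : P c) {t : K}
    (he : π e = σ z) (hg : π g = σ (D.scGen K c t)) : e * g = g * e := by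
  have e1 := U.comm1 (hz (U.Y)) (hz (D.scGen K c (t / (U.C c - 1)))) he (U.hL _) (U.hL _)
  have hz1 : π (g * (U.X c t)⁻¹) = 1 := by
    rw [map_mul, map_inv, hg, U.X_lf hc hp, mul_inv_cancel]
  have e2 : g = (g * (U.X c t)⁻¹) * U.X c t := by group
  have e3 : e * U.X c t = U.X c t * e := e1
  rw [e2]
  have e4 := U.central_of hz1
  calc e * (g * (U.X c t)⁻¹ * U.X c t) = e * (g * (U.X c t)⁻¹) * U.X c t := by group
    _ = (g * (U.X c t)⁻¹) * (e * U.X c t) := by rw [← e4 e]; group
    _ = _ := by rw [e3]; group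

theorem X_add {c : ℕ} (hc : c < D.nroots) (hp : P c) (t u : K) : U.X c t * U.X c u = U.X c (t + u) := by
  set l := U.L (U.Y) with hl
  set a := U.L (D.scGen K c (t / (U.C c - 1))) with ha
  set b := U.L (D.scGen K c (u / (U.C c - 1))) with hb
  have e1 : U.X c (t + u) = cc l (a * b) := by
    apply U.cc_lf rfl
    rw [map_mul, ha, hb, U.hL, U.hL, U.hL, ← map_mul, stGen_R1C hc, add_div]
  have e2 : a * cc l b = cc l b * a := by
    have h3 : π (cc l b) = σ (D.scGen K c u) := U.cc_lf_root (U.hY) hc ((U.hC hp)) (U.hL _) (U.hL _)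
    have h4 : cc a (cc l b) = 1 := by
      rw [U.cc_L (a := D.scGen K c (t / (U.C c - 1))) (b := D.scGen K c u) (U.hL _) h3]
      exact (U.hab hp) _ _
    exact comm_of_cc h4
  rw [e1]
  show cc l a * cc l b = _
  have e3 : cc l (a * b) = cc l a * (a * cc l b * a⁻¹) := by
    unfold cc
    group
  rw [e3, e2]
  group

theorem X_comm {c : ℕ} (hc : c < D.nroots) (hp : P c) (t u : K) : U.X c t * U.X c u = U.X c u * U.X c t := by
  rw [U.X_add hc hp, U.X_add hc hp, add_comm]

theorem X_zero {c : ℕ} (hc : c < D.nroots) (hp : P c) : U.X c 0 = 1 := by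
  have := U.X_add hc hp 0 0
  rw [add_zero] at this
  exact mul_eq_left.mp this

theorem X_neg {c : ℕ} (hc : c < D.nroots) (hp : P c) (t : K) : (U.X c t)⁻¹ = U.X c (-t) := by
  rw [inv_eq_iff_mul_eq_one, U.X_add hc hp, add_neg_cancel, U.X_zero hc hp]

/-- Conjugation of the canonical lifts by lifts of elements acting by scalars. -/
theorem X_conj_TA {χ : ℕ → K} {y : D.SteinbergCover K} (hy : TA D K χ y) {e : E} (he : π e = σ y) {c : ℕ}
    (hc : c < D.nroots) (hp : P c) (t : K) : e * U.X c t * e⁻¹ = U.X c (χ c * t) := by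
  unfold X
  rw [U.conj_cc]
  set z := y * U.Y * y⁻¹ * (U.Y)⁻¹ with hz
  have hzc : ∀ g, z * g = g * z := TA_comm hy (U.hY)
  set v := t / (U.C c - 1) with hv
  have e1 : y * U.Y * y⁻¹ = z * U.Y := by
    rw [hz]
    group
  have h1 : π (e * U.L (U.Y) * e⁻¹) = π (U.L z * U.L (U.Y)) := by
    rw [map_mul, map_mul, map_mul, map_inv, he, U.hL, U.hL, ← map_inv, ← map_mul, ← map_mul, ← map_mul, e1]
  have h2 : π (e * U.L (D.scGen K c v) * e⁻¹) = π (U.L (D.scGen K c (χ c * v))) := by
    rw [map_mul, map_mul, map_inv, he, U.hL, U.hL, ← map_inv, ← map_mul, ← map_mul, (hy.act c hc)]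
  rw [U.cc_lf h1 h2]
  set f := U.L (D.scGen K c (χ c * v)) with hf
  set l := U.L (U.Y) with hl
  set a := U.L z with ha
  have h3 : a * f = f * a := U.central_comm hzc hc hp (U.hL _) (U.hL _)
  have h4 : π (cc l f) = σ (D.scGen K c ((χ c * t))) := by
    apply U.cc_lf_root (U.hY) hc ((U.hC hp)) (U.hL _)
    rw [hf, U.hL, hv, mul_div_assoc]
  have h5 : a * cc l f = cc l f * a := U.central_comm hzc hc hp (U.hL _) h4
  have e2 : cc (a * l) f = cc l f := by
    have e3 : cc (a * l) f = a * cc l f * a⁻¹ * cc a f := by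
      unfold cc
      group
    have e4 : cc a f = 1 := by
      unfold cc
      rw [h3]
      group
    rw [e3, e4, h5]
    group
  rw [e2]
  have e5 : χ c * t / (U.C c - 1) = χ c * v := by rw [hv, mul_div_assoc]
  rw [e5]

/-- The canonical lift does not depend on the element acting by scalars. -/
theorem X_indep {χ : ℕ → K} {y : D.SteinbergCover K} (hy : TA D K χ y) {e g : E} (he : π e = σ y) {c : ℕ}
    (hc : c < D.nroots) (hp : P c) (hne : χ c ≠ 1) {t : K} (hg : π g = σ (D.scGen K c (t / (χ c - 1)))) : cc e g = U.X c t := by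
  set s := t / (χ c - 1) with hs
  have h1 := U.X_lf hc hp s
  have e1 : cc e g = cc e (U.X c s) := U.cc_lf rfl (by rw [hg, h1])
  have e2 := U.X_conj_TA hy he hc hp s
  have e3 : χ c * s = s + t := by
    have := sub_ne_zero.mpr hne
    rw [hs]
    field_simp
    ring
  rw [e1]
  unfold cc
  rw [e2, e3, ← U.X_add hc hp, U.X_comm hc hp]
  group


/-- Conjugating the canonical lifts by lifts of the `n̄_i`. -/
theorem X_W (G : Good5 D) {i : ℕ} (hi : i < D.rank) {e : E} (he : π e = σ (nBC D K (D.simple i) 1)) {c : ℕ} (hc : c < D.nroots)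
    (hp : P c) (hp' : P (G.W i c)) (t : K) :
    e * U.X c t * e⁻¹ = U.X (G.W i c) (((G.S i c : ℤ) : K) * t) := by
  have hW := G.W_lt hi hc
  have hy := G.TA_conjW U.hY (K := K) hi
  have hne : (fun s => U.C (G.W i s)) (G.W i c) ≠ 1 := by
    simp only [G.W_W hi hc]
    exact U.hC hp
  unfold X
  rw [U.conj_cc]
  refine U.X_indep hy ?_ hW hp' hne ?_
  · rw [map_mul, map_mul, map_inv, he, U.hL, ← map_inv, ← map_mul, ← map_mul]
  · rw [map_mul, map_mul, map_inv, he, U.hL, ← map_inv, ← map_mul, ← map_mul, G.nB_conjC hi hc]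
    simp only [G.W_W hi hc]
    rw [mul_div_assoc]

end US

end Cfsg.Agent.Lib.Chev
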