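import Cfsg.Agent.Lib.Chev.Cov.Uni5

/-!
Universality of the group presented by (R1), (R2), from abstract lifts of the root elements: the positive part and the
commutator relations for all pairs of roots.
-/

set_option autoImplicit false
set_option linter.unusedSimpArgs false
set_option linter.unusedVariables false
set_option linter.unusedSectionVars false

namespace Cfsg.Agent.Lib.Chev

open Cfsg Cfsg.Lie Cfsg.Agent.Lib.CT
open Good2 (NN rBC gen_mem_rBC rB_leC rB_inductionC wB_memC)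

variable {D : ChevalleyDatum} {K : Type*} [Field K]
variable {E G₁ : Type*} [Group E] [Group G₁] {π : E →* G₁} {σ : D.SteinbergCover K →* G₁}

/-- Abstract lifts of the root elements. -/
structure UX (D : ChevalleyDatum) (K : Type*) [Field K] (π : E →* G₁) (σ : D.SteinbergCover K →* G₁) where
  hc : π.ker ≤ Subgroup.center E
  L : D.SteinbergCover K → E
  hL : ∀ a, π (L a) = σ a
  X : ℕ → K → E
  X_lf : ∀ {c : ℕ} (_ : c < D.nroots) (t : K), π (X c t) = σ (D.scGen K c t)
  X_add : ∀ {c : ℕ} (_ : c < D.nroots) (t u : K), X c t * X c u = X c (t + u)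
  X_conj : ∀ {l : ℕ} {t₀ : K} {y : D.SteinbergCover K} (_ : l < D.nroots) (_ : TA D K (chiP D l t₀) y) {e : E} (_ : π e = σ y) {c : ℕ}
    (_ : c < D.nroots) (t : K), e * X c t * e⁻¹ = X c (chiP D l t₀ c * t)

namespace UX

variable (U : UX D K π σ)

include U in
theorem central_of {z : E} (hz : π z = 1) (g : E) : z * g = g * z :=
  ((Subgroup.mem_center_iff.mp (U.hc (MonoidHom.mem_ker.mpr hz))) g).symm

include U in
theorem cc_lf {e e' f f' : E} (h1 : π e = π e') (h2 : π f = π f') : cc e f = cc e' f' := cc_lf0 U.hc h1 h2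

include U in
theorem conj_cc (e f g : E) : e * cc f g * e⁻¹ = cc (e * f * e⁻¹) (e * g * e⁻¹) := by
  unfold cc
  group

theorem comm_of_cc {a b : E} (h : cc a b = 1) : a * b = b * a := by
  calc a * b = cc a b * b * a := by
        unfold cc
        group
    _ = _ := by rw [h, one_mul]

theorem X_comm {c : ℕ} (hc : c < D.nroots) (t u : K) : U.X c t * U.X c u = U.X c u * U.X c t := by
  rw [U.X_add hc, U.X_add hc, add_comm]

theorem X_zero {c : ℕ} (hc : c < D.nroots) : U.X c 0 = 1 := by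
  have := U.X_add hc 0 0
  rw [add_zero] at this
  exact mul_eq_left.mp this

theorem X_neg {c : ℕ} (hc : c < D.nroots) (t : K) : (U.X c t)⁻¹ = U.X c (-t) := by
  rw [inv_eq_iff_mul_eq_one, U.X_add hc, add_neg_cancel, U.X_zero hc]

/-- The lift does not depend on the element acting by scalars. -/
theorem X_indep {l : ℕ} {t₀ : K} {y : D.SteinbergCover K} (hl : l < D.nroots) (hy : TA D K (chiP D l t₀) y) {e g : E} (he : π e = σ y) {c : ℕ}
    (hc : c < D.nroots) (hne : chiP D l t₀ c ≠ 1) {t : K} (hg : π g = σ (D.scGen K c (t / (chiP D l t₀ c - 1)))) : cc e g = U.X c t := by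
  set s := t / (chiP D l t₀ c - 1) with hs
  have h1 := U.X_lf hc s
  have e1 : cc e g = cc e (U.X c s) := U.cc_lf rfl (by rw [hg, h1])
  have e2 := U.X_conj hl hy he hc s
  have e3 : chiP D l t₀ c * s = s + t := by
    have := sub_ne_zero.mpr hne
    rw [hs]
    field_simp
    ring
  rw [e1]
  unfold cc
  rw [e2, e3, ← U.X_add hc, U.X_comm hc]
  group

end UX

namespace UX

variable (U : UX D K π σ)

/-- The commutator relation for a pair of roots. -/
def PP (U : UX D K π σ) (r s : ℕ) : Prop :=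
  ∀ t u : K, U.X s u * U.X r t = U.X r t * U.X s u * wX U.X (D.commWord K r s t u)


/-- A lift of a tail subgroup. -/
structure IsSec (U : UX D K π σ) (m : ℕ) (sf : D.SteinbergCover K → E) : Prop where
  mul : ∀ a b, a ∈ rBC D K (m ≤ ·) → b ∈ rBC D K (m ≤ ·) → sf (a * b) = sf a * sf b
  gen : ∀ r, m ≤ r → r < D.nroots → ∀ t : K, sf (D.scGen K r t) = U.X r t
  lf : ∀ a, a ∈ rBC D K (m ≤ ·) → π (sf a) = σ a

include U in
theorem sec_top : U.IsSec D.nroots (fun _ => 1) := by
  have hbot : rBC D K (D.nroots ≤ ·) = ⊥ := by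
    apply le_bot_iff.mp
    apply rB_leC
    intro r t h h2
    omega
  refine ⟨fun a b _ _ => by simp, fun r h1 h2 => by omega, fun a ha => ?_⟩
  rw [hbot, Subgroup.mem_bot] at ha
  subst ha
  simp

variable {U}

theorem IsSec.one {m : ℕ} {sf : D.SteinbergCover K → E} (h : U.IsSec m sf) : sf 1 = 1 := by
  have := h.mul 1 1 (Subgroup.one_mem _) (Subgroup.one_mem _)
  rw [mul_one] at this
  exact left_eq_mul.mp this

/-- Equivariance of the section under elements acting by scalars. -/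
theorem IsSec.equiv {m : ℕ} {sf : D.SteinbergCover K → E} (h : U.IsSec m sf) {l : ℕ} {t₀ : K} {y : D.SteinbergCover K}
    (hl : l < D.nroots) (hy : TA D K (chiP D l t₀) y) {e : E} (he : π e = σ y) {g : D.SteinbergCover K} (hg : g ∈ rBC D K (m ≤ ·)) :
    y * g * y⁻¹ ∈ rBC D K (m ≤ ·) ∧ e * sf g * e⁻¹ = sf (y * g * y⁻¹) := by
  have key := rB_inductionC (P := (m ≤ ·))
    (Q := fun g => g ∈ rBC D K (m ≤ ·) ∧ y * g * y⁻¹ ∈ rBC D K (m ≤ ·) ∧ e * sf g * e⁻¹ = sf (y * g * y⁻¹)) ?_ ?_ ?_ g hg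
  · exact key.2
  · refine ⟨Subgroup.one_mem _, by simp [Subgroup.one_mem], ?_⟩
    simp [h.one]
  · rintro a b ⟨h1, h2, h3⟩ ⟨h4, h5, h6⟩
    have e1 : y * (a * b) * y⁻¹ = (y * a * y⁻¹) * (y * b * y⁻¹) := by group
    refine ⟨Subgroup.mul_mem _ h1 h4, ?_, ?_⟩
    · rw [e1]
      exact Subgroup.mul_mem _ h2 h5
    · rw [e1, h.mul _ _ h2 h5, h.mul _ _ h1 h4, ← h3, ← h6]
      group
  · intro r t h1 h2
    rw [hy.act r h2]
    refine ⟨gen_mem_rBC h1 h2 t, gen_mem_rBC h1 h2 _, ?_⟩
    rw [h.gen r h1 h2, h.gen r h1 h2, U.X_conj hl hy he h2]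

/-- One step: conjugation of the lifted tail by the lift of the next root element. -/
theorem IsSec.compat (G : Good5 D) {m : ℕ} (hm : m < D.nroots) (hN : NN D ≤ m) {sf : D.SteinbergCover K → E}
    (h : U.IsSec (m + 1) sf)
    (hsep : ∀ e, m < e → e < D.nroots → (∃ (l : ℕ) (t₀ : K) (y : D.SteinbergCover K), l < D.nroots ∧ TA D K (chiP D l t₀) y ∧ chiP D l t₀ m = 1 ∧ chiP D l t₀ e ≠ 1) ∨
      U.PP m e) (t : K)
    {g : D.SteinbergCover K} (hg : g ∈ rBC D K (m + 1 ≤ ·)) :
    D.scGen K m t * g * (D.scGen K m t)⁻¹ ∈ rBC D K (m + 1 ≤ ·) ∧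
      U.X m t * sf g * (U.X m t)⁻¹ = sf (D.scGen K m t * g * (D.scGen K m t)⁻¹) := by
  have hconj : ∀ g, g ∈ rBC D K (m + 1 ≤ ·) → D.scGen K m t * g * (D.scGen K m t)⁻¹ ∈ rBC D K (m + 1 ≤ ·) := by
    intro g hg
    have := G.conj_mem_tBC hm hN (Nat.lt_succ_self m) (-t) hg
    rw [neg_neg] at this
    rwa [Good2.stGen_invC hm]
  refine ⟨hconj g hg, ?_⟩
  have key := rB_inductionC (P := (m + 1 ≤ ·))
    (Q := fun g => g ∈ rBC D K (m + 1 ≤ ·) ∧ U.X m t * sf g * (U.X m t)⁻¹ = sf (D.scGen K m t * g * (D.scGen K m t)⁻¹)) ?_ ?_ ?_ g hg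
  · exact key.2
  · refine ⟨Subgroup.one_mem _, ?_⟩
    simp [h.one]
  · rintro a b ⟨h1, h3⟩ ⟨h4, h6⟩
    have e1 : D.scGen K m t * (a * b) * (D.scGen K m t)⁻¹ =
        (D.scGen K m t * a * (D.scGen K m t)⁻¹) * (D.scGen K m t * b * (D.scGen K m t)⁻¹) := by group
    refine ⟨Subgroup.mul_mem _ h1 h4, ?_⟩
    rw [e1, h.mul _ _ (hconj a h1) (hconj b h4), h.mul _ _ h1 h4, ← h3, ← h6]
    group
  · intro e' v h1 h2
    refine ⟨gen_mem_rBC h1 h2 v, ?_⟩
    have hlt : m < e' := h1
    rcases hsep e' hlt h2 with ⟨l, t₀, y, hl, hy, hχ1, hχ2⟩ | hblk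
    swap
    · have hN' : NN D ≤ e' := by
        have : NN D ≤ m := hN
        omega
      have hne1 : e' ≠ m := by omega
      have hne2 : e' ≠ D.neg m := by
        intro e
        have := (G.neg_pos hm).mp hN
        omega
      have hR := stGen_R2C hm h2 hne1 hne2 (-t) v
      set w := D.commWord K m e' (-t) v with hw
      have hword : ∀ w : List (ℕ × K), (∀ a ∈ w, m + 1 ≤ a.1 ∧ a.1 < D.nroots) →
          wBC D K w ∈ rBC D K (m + 1 ≤ ·) ∧ sf (wBC D K w) = wX U.X w := by
        intro w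
        induction w with
        | nil =>
          intro _
          exact ⟨Subgroup.one_mem _, by simpa [wBC, wX] using h.one⟩
        | cons a w ih =>
          intro hw
          obtain ⟨h4, h5⟩ := ih fun b hb => hw b (List.mem_cons_of_mem _ hb)
          obtain ⟨h6, h7⟩ := hw a List.mem_cons_self
          have h8 := gen_mem_rBC (K := K) (D := D) (P := (m + 1 ≤ ·)) h6 h7 a.2
          rw [wB_consC, wX_cons]
          refine ⟨Subgroup.mul_mem _ h8 h4, ?_⟩
          rw [h.mul _ _ h8 h4, h.gen _ h6 h7, h5]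
      have hwm : ∀ a ∈ w, m + 1 ≤ a.1 ∧ a.1 < D.nroots := by
        intro a ha
        simp only [hw, ChevalleyDatum.commWord, List.mem_map] at ha
        obtain ⟨c, hc, rfl⟩ := ha
        have h5 := G.comm_up hm h2 hN hN' hne1 hc
        exact ⟨by simp only; omega, G.commTerms_lt hm h2 c hc⟩
      obtain ⟨h4, h5⟩ := hword w hwm
      have ginv : (D.scGen K m t)⁻¹ = D.scGen K m (-t) := Good2.stGen_invC hm t
      have e1 : D.scGen K m t * D.scGen K e' v * (D.scGen K m t)⁻¹ = D.scGen K e' v * wBC D K w := by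
        rw [ginv]
        calc D.scGen K m t * D.scGen K e' v * D.scGen K m (-t)
            = D.scGen K m t * (D.scGen K e' v * D.scGen K m (-t)) := by group
          _ = D.scGen K m t * (D.scGen K m (-t) * D.scGen K e' v * wBC D K w) := by rw [hR]
          _ = (D.scGen K m t * D.scGen K m (-t)) * (D.scGen K e' v * wBC D K w) := by group
          _ = _ := by
            rw [stGen_R1C hm, add_neg_cancel, Good2.stGen_zeroC hm, one_mul]
      have hP := hblk (-t) v
      rw [← U.X_neg hm] at hP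
      have e2 : U.X m t * U.X e' v * (U.X m t)⁻¹ = U.X e' v * wX U.X w := by
        calc U.X m t * U.X e' v * (U.X m t)⁻¹ = U.X m t * (U.X e' v * (U.X m t)⁻¹) := by group
          _ = U.X m t * ((U.X m t)⁻¹ * U.X e' v * wX U.X w) := by rw [hP]
          _ = _ := by group
      rw [e1, h.mul _ _ (gen_mem_rBC h1 h2 v) h4, h.gen e' h1 h2, h5, e2]
    have hyc : y * D.scGen K m t = D.scGen K m t * y := by
      have := hy.act m hm t
      rw [hχ1, one_mul, mul_inv_eq_iff_eq_mul] at this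
      exact this
    set χ := chiP D l t₀ with hχ
    set v' := v / (χ e' - 1) with hv'
    have hd := sub_ne_zero.mpr hχ2
    have hvv : χ e' * v' = v + v' := by
      rw [hv']
      field_simp
      ring
    have e1 : U.X e' v = cc (U.L y) (U.X e' v') :=
      (U.X_indep hl hy (U.hL y) h2 hχ2 (U.X_lf h2 v')).symm
    rw [h.gen e' h1 h2, e1, U.conj_cc]
    set β := D.scGen K m t * D.scGen K e' v' * (D.scGen K m t)⁻¹ with hβ
    have hβm : β ∈ rBC D K (m + 1 ≤ ·) := hconj _ (gen_mem_rBC h1 h2 v')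
    have e2 : cc (U.X m t * U.L y * (U.X m t)⁻¹) (U.X m t * U.X e' v' * (U.X m t)⁻¹) = cc (U.L y) (sf β) := by
      apply U.cc_lf
      · rw [map_mul, map_mul, map_inv, U.X_lf hm, U.hL, ← map_inv, ← map_mul, ← map_mul, ← hyc]
        congr 1
        group
      · rw [map_mul, map_mul, map_inv, U.X_lf hm, U.X_lf h2, ← map_inv, ← map_mul, ← map_mul, h.lf _ hβm]
    rw [e2]
    obtain ⟨h3, h4⟩ := h.equiv hl hy (U.hL y) hβm
    set γ := D.scGen K m t * D.scGen K e' v * (D.scGen K m t)⁻¹ with hγ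
    have hγm : γ ∈ rBC D K (m + 1 ≤ ·) := hconj _ (gen_mem_rBC h1 h2 v)
    have e3 : y * β * y⁻¹ = γ * β := by
      have e4 : y * β * y⁻¹ = D.scGen K m t * (y * D.scGen K e' v' * y⁻¹) * (D.scGen K m t)⁻¹ := by
        have e5 : (D.scGen K m t)⁻¹ * y = y * (D.scGen K m t)⁻¹ := by
          calc (D.scGen K m t)⁻¹ * y = (D.scGen K m t)⁻¹ * (y * D.scGen K m t) * (D.scGen K m t)⁻¹ := by group
            _ = (D.scGen K m t)⁻¹ * (D.scGen K m t * y) * (D.scGen K m t)⁻¹ := by rw [hyc]
            _ = _ := by group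
        rw [hβ]
        calc y * (D.scGen K m t * D.scGen K e' v' * (D.scGen K m t)⁻¹) * y⁻¹
            = (y * D.scGen K m t) * D.scGen K e' v' * ((D.scGen K m t)⁻¹ * y⁻¹) := by group
          _ = (D.scGen K m t * y) * D.scGen K e' v' * (y⁻¹ * (D.scGen K m t)⁻¹) := by
              rw [hyc]
              have e6 : (D.scGen K m t)⁻¹ * y⁻¹ = y⁻¹ * (D.scGen K m t)⁻¹ := by
                calc (D.scGen K m t)⁻¹ * y⁻¹ = y⁻¹ * (y * (D.scGen K m t)⁻¹) * y⁻¹ := by group
                  _ = y⁻¹ * ((D.scGen K m t)⁻¹ * y) * y⁻¹ := by rw [e5]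
                  _ = _ := by group
              rw [e6]
          _ = _ := by group
      rw [e4, hy.act e' h2, hvv, ← stGen_R1C h2, hγ, hβ]
      group
    have e5 : sf (y * β * y⁻¹) = sf γ * sf β := by
      rw [e3, h.mul _ _ hγm hβm]
    unfold cc
    rw [h4, e5]
    group

/-- Extension of the section by one root. -/
theorem IsSec.step (G : Good5 D) {m : ℕ} (hm : m < D.nroots) (hN : NN D ≤ m) {sf : D.SteinbergCover K → E}
    (h : U.IsSec (m + 1) sf)
    (hsep : ∀ e, m < e → e < D.nroots → (∃ (l : ℕ) (t₀ : K) (y : D.SteinbergCover K), l < D.nroots ∧ TA D K (chiP D l t₀) y ∧ chiP D l t₀ m = 1 ∧ chiP D l t₀ e ≠ 1) ∨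
      U.PP m e) :
    ∃ sf', U.IsSec m sf' := by
  have hdec : ∀ g, g ∈ rBC D K (m ≤ ·) → ∃ (t : K) (g' : D.SteinbergCover K), g' ∈ rBC D K (m + 1 ≤ ·) ∧ g = D.scGen K m t * g' :=
    fun g hg => G.tB_decompC hm hN hg
  choose! τ g₀ hg₀ hg₁ using hdec
  have huniq : ∀ t t' : K, ∀ g g' : D.SteinbergCover K, g ∈ rBC D K (m + 1 ≤ ·) → g' ∈ rBC D K (m + 1 ≤ ·) →
      D.scGen K m t * g = D.scGen K m t' * g' → t = t' ∧ g = g' := by
    intro t t' g g' hg hg' e
    have e1 : D.scGen K m (t + -t') = g' * g⁻¹ := by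
      have e0 : D.scGen K m (t + -t') = D.scGen K m (-t') * D.scGen K m t := by
        rw [stGen_R1C hm, add_comm]
      have e2 : D.scGen K m t = D.scGen K m t' * g' * g⁻¹ := by
        rw [← e]
        group
      rw [e0, e2, ← Good2.stGen_invC hm]
      group
    have e3 : t + -t' = 0 := tail_zero G hm hN (by
      rw [e1]
      exact Subgroup.mul_mem _ hg' (Subgroup.inv_mem _ hg))
    have e4 : t = t' := by linear_combination e3
    subst e4
    exact ⟨rfl, mul_left_cancel e⟩
  have hmem : ∀ g, g ∈ rBC D K (m + 1 ≤ ·) → g ∈ rBC D K (m ≤ ·) :=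
    fun g hg => Good2.rB_monoC (fun r hr => by omega) hg
  have hxm : ∀ t : K, D.scGen K m t ∈ rBC D K (m ≤ ·) := fun t => gen_mem_rBC le_rfl hm t
  have hval : ∀ t g, g ∈ rBC D K (m + 1 ≤ ·) → U.X m (τ (D.scGen K m t * g)) * sf (g₀ (D.scGen K m t * g)) = U.X m t * sf g := by
    intro t g hg
    have hin : D.scGen K m t * g ∈ rBC D K (m ≤ ·) := Subgroup.mul_mem _ (hxm t) (hmem g hg)
    obtain ⟨e1, e2⟩ := huniq _ _ _ _ (hg₀ _ hin) hg (hg₁ _ hin).symm
    rw [e1, e2]
  refine ⟨fun g => U.X m (τ g) * sf (g₀ g), ?_, ?_, ?_⟩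
  · intro a b ha hb
    have ea := hg₁ a ha
    have eb := hg₁ b hb
    set t := τ a
    set u := τ b
    set a' := g₀ a with ha'
    set b' := g₀ b with hb'
    have ha0 : a' ∈ rBC D K (m + 1 ≤ ·) := hg₀ a ha
    have hb0 : b' ∈ rBC D K (m + 1 ≤ ·) := hg₀ b hb
    obtain ⟨h1, h2⟩ := h.compat G hm hN hsep (-u) ha0
    rw [Good2.stGen_invC hm, neg_neg, ← U.X_neg hm, inv_inv] at h2
    rw [Good2.stGen_invC hm, neg_neg] at h1
    have e1 : a * b = D.scGen K m (t + u) * (D.scGen K m (-u) * a' * D.scGen K m u * b') := by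
      rw [ea, eb, ← stGen_R1C hm t u]
      have e2 : D.scGen K m u * D.scGen K m (-u) = 1 := by
        rw [stGen_R1C hm, add_neg_cancel, Good2.stGen_zeroC hm]
      calc D.scGen K m t * a' * (D.scGen K m u * b')
          = D.scGen K m t * (1 * a') * (D.scGen K m u * b') := by rw [one_mul]
        _ = D.scGen K m t * ((D.scGen K m u * D.scGen K m (-u)) * a') * (D.scGen K m u * b') := by rw [e2]
        _ = _ := by simp only [mul_assoc]
    have h3 : D.scGen K m (-u) * a' * D.scGen K m u * b' ∈ rBC D K (m + 1 ≤ ·) := Subgroup.mul_mem _ h1 hb0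
    rw [e1, hval _ _ h3, h.mul _ _ h1 hb0, ← h2, ← U.X_add hm]
    group
  · intro r h1 h2 t
    by_cases hr : r = m
    · subst hr
      have := hval t 1 (Subgroup.one_mem _)
      rw [mul_one, h.one, mul_one] at this
      exact this
    · have h3 : m + 1 ≤ r := by
        have : m ≤ r := h1
        omega
      have := hval 0 (D.scGen K r t) (gen_mem_rBC h3 h2 t)
      rw [Good2.stGen_zeroC hm, one_mul, U.X_zero hm, one_mul, h.gen r h3 h2] at this
      exact this
  · intro a ha
    rw [map_mul, U.X_lf hm, h.lf _ (hg₀ a ha), ← map_mul, ← hg₁ a ha]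

/-- The section on the whole positive part. -/
theorem exists_sec (U : UX D K π σ) (G : Good5 D)
    (hsep : ∀ c e, NN D ≤ c → c < e → e < D.nroots → (∃ (l : ℕ) (t₀ : K) (y : D.SteinbergCover K), l < D.nroots ∧ TA D K (chiP D l t₀) y ∧ chiP D l t₀ c = 1 ∧ chiP D l t₀ e ≠ 1) ∨
      U.PP c e) :
    ∃ sf, U.IsSec (NN D) sf := by
  have key : ∀ k m, m + k = D.nroots → NN D ≤ m → ∃ sf, U.IsSec m sf := by
    intro k
    induction k with
    | zero =>
      intro m hm hN
      have : m = D.nroots := by omega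
      subst this
      exact ⟨_, U.sec_top⟩
    | succ k ih =>
      intro m hm hN
      obtain ⟨sf, hsf⟩ := ih (m + 1) (by omega) (by omega)
      exact hsf.step G (by omega) hN (fun e h1 h2 => hsep m e hN h1 h2)
  exact key (NN D) (NN D) G.NN_add le_rfl

/-- The commutator relations among positive roots. -/
theorem R2_pos (G : Good5 D) {sf : D.SteinbergCover K → E} (h : U.IsSec (NN D) sf) {r s : ℕ} (hr : r < D.nroots)
    (hs : s < D.nroots) (h1 : NN D ≤ r) (h2 : NN D ≤ s) (h3 : s ≠ r) (t u : K) :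
    U.X s u * U.X r t = U.X r t * U.X s u * wX U.X (D.commWord K r s t u) := by
  have hn : s ≠ D.neg r := by
    intro e
    have := (G.neg_pos hr).mp h1
    omega
  have hword : ∀ w : List (ℕ × K), (∀ a ∈ w, NN D ≤ a.1 ∧ a.1 < D.nroots) →
      wBC D K w ∈ rBC D K (NN D ≤ ·) ∧ sf (wBC D K w) = wX U.X w := by
    intro w
    induction w with
    | nil =>
      intro _
      exact ⟨Subgroup.one_mem _, by simpa [wBC, wX] using h.one⟩
    | cons a w ih =>
      intro hw
      obtain ⟨h4, h5⟩ := ih fun b hb => hw b (List.mem_cons_of_mem _ hb)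
      obtain ⟨h6, h7⟩ := hw a List.mem_cons_self
      have h8 := gen_mem_rBC (K := K) (D := D) (P := (NN D ≤ ·)) h6 h7 a.2
      rw [wB_consC, wX_cons]
      refine ⟨Subgroup.mul_mem _ h8 h4, ?_⟩
      rw [h.mul _ _ h8 h4, h.gen _ h6 h7, h5]
  have hw : ∀ a ∈ D.commWord K r s t u, NN D ≤ a.1 ∧ a.1 < D.nroots := by
    intro a ha
    simp only [ChevalleyDatum.commWord, List.mem_map] at ha
    obtain ⟨c, hc, rfl⟩ := ha
    have h5 := G.comm_up hr hs h1 h2 h3 hc
    exact ⟨by simp only; omega, G.commTerms_lt hr hs c hc⟩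
  obtain ⟨h4, h5⟩ := hword _ hw
  have e := stGen_R2C hr hs h3 hn t u
  have gr := gen_mem_rBC (K := K) (D := D) (P := (NN D ≤ ·)) h1 hr t
  have gs := gen_mem_rBC (K := K) (D := D) (P := (NN D ≤ ·)) h2 hs u
  have e2 := congrArg sf e
  rw [h.mul _ _ gs gr, h.mul _ _ (Subgroup.mul_mem _ gr gs) h4, h.mul _ _ gr gs, h.gen _ h1 hr, h.gen _ h2 hs, h5] at e2
  exact e2


/-- Conjugation of the lifts by lifts of the `n̄_i`. -/
def XW (U : UX D K π σ) (G : Good5 D) : Prop :=
  ∀ {i : ℕ} (_ : i < D.rank) {e : E} (_ : π e = σ (nBC D K (D.simple i) 1)) {c : ℕ} (_ : c < D.nroots) (t : K),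
    e * U.X c t * e⁻¹ = U.X (G.W i c) (((G.S i c : ℤ) : K) * t)

theorem X_W (U : UX D K π σ) (G : Good5 D) [hW : Fact (U.XW G)] {i : ℕ} (hi : i < D.rank) {e : E}
    (he : π e = σ (nBC D K (D.simple i) 1)) {c : ℕ} (hc : c < D.nroots) (t : K) :
    e * U.X c t * e⁻¹ = U.X (G.W i c) (((G.S i c : ℤ) : K) * t) := hW.out hi he hc t

section Rel

variable (G : Good5 D) [hW : Fact (U.XW G)]

include hW

theorem conj_wX {i : ℕ} (hi : i < D.rank) {e : E} (he : π e = σ (nBC D K (D.simple i) 1)) (w : List (ℕ × K))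
    (hw : ∀ a ∈ w, a.1 < D.nroots) :
    e * wX U.X w * e⁻¹ = wX U.X (w.map fun q => (G.W i q.1, ((G.S i q.1 : ℤ) : K) * q.2)) := by
  induction w with
  | nil => simp [wX]
  | cons a w ih =>
    have h2 := ih fun b hb => hw b (List.mem_cons_of_mem _ hb)
    rw [wX_cons, List.map_cons, wX_cons, ← h2, ← U.X_W G hi he (hw a List.mem_cons_self)]
    group

theorem PP_W {i : ℕ} (hi : i < D.rank) {r s : ℕ} (hr : r < D.nroots) (hs : s < D.nroots) (h1 : s ≠ r) (h2 : s ≠ D.neg r)
    (h : U.PP r s) : U.PP (G.W i r) (G.W i s) := by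
  intro t' u'
  set e := U.L (nBC D K (D.simple i) 1) with he
  have hlf : π e = σ (nBC D K (D.simple i) 1) := U.hL _
  set t := ((G.S i r : ℤ) : K) * t' with ht
  set u := ((G.S i s : ℤ) : K) * u' with hu
  have hS1 := sign_sq (F := K) (G.S_cases hi hr)
  have hS2 := sign_sq (F := K) (G.S_cases hi hs)
  have e1 : ((G.S i r : ℤ) : K) * t = t' := by
    rw [ht, ← mul_assoc, hS1, one_mul]
  have e2 : ((G.S i s : ℤ) : K) * u = u' := by
    rw [hu, ← mul_assoc, hS2, one_mul]
  have h3 := h t u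
  have h4 := congrArg (fun g => e * g * e⁻¹) h3
  have hw : ∀ a ∈ D.commWord K r s t u, a.1 < D.nroots := by
    intro a ha
    simp only [ChevalleyDatum.commWord, List.mem_map] at ha
    obtain ⟨c, hc, rfl⟩ := ha
    exact G.commTerms_lt hr hs c hc
  have e3 : e * (U.X s u * U.X r t) * e⁻¹ = (e * U.X s u * e⁻¹) * (e * U.X r t * e⁻¹) := by group
  have e4 : e * (U.X r t * U.X s u * wX U.X (D.commWord K r s t u)) * e⁻¹ =
      (e * U.X r t * e⁻¹) * (e * U.X s u * e⁻¹) * (e * wX U.X (D.commWord K r s t u) * e⁻¹) := by group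
  rw [e3, e4, U.X_W G hi hlf hs, U.X_W G hi hlf hr, U.conj_wX G hi hlf _ hw, ← G.commWord_W hi hr hs h1 h2, e1, e2] at h4
  exact h4

theorem PP_W_iff {i : ℕ} (hi : i < D.rank) {r s : ℕ} (hr : r < D.nroots) (hs : s < D.nroots) (h1 : s ≠ r) (h2 : s ≠ D.neg r)
    (h : U.PP (G.W i r) (G.W i s)) : U.PP r s := by
  have hWr := G.W_lt hi hr
  have hWs := G.W_lt hi hs
  have := U.PP_W G hi hWr hWs (by
    intro e
    apply h1
    rw [← G.W_W hi hs, e, G.W_W hi hr]) (by
    intro e
    apply h2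
    rw [← G.W_W hi hs, e, G.W_neg hi hWr, G.W_W hi hr]) h
  rwa [G.W_W hi hr, G.W_W hi hs] at this

/-- Moving along a word in the Weyl group. -/
theorem PP_fold (l : List ℕ) (hl : ∀ i ∈ l, i < D.rank) {r s : ℕ} (hr : r < D.nroots) (hs : s < D.nroots) (h1 : s ≠ r)
    (h2 : s ≠ D.neg r) (h : U.PP (l.foldr G.W r) (l.foldr G.W s)) : U.PP r s := by
  induction l with
  | nil => exact h
  | cons a l ih =>
    have hl' : ∀ i ∈ l, i < D.rank := fun i hi => hl i (List.mem_cons_of_mem _ hi)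
    apply ih hl'
    refine U.PP_W_iff G (hl a List.mem_cons_self) (UD.foldr_lt G l hl' hr) (UD.foldr_lt G l hl' hs) ?_ ?_ h
    · intro e
      exact h1 (UD.foldr_inj G l hl' hs hr e)
    · intro e
      rw [← UD.foldr_neg G l hl' hr] at e
      exact h2 (UD.foldr_inj G l hl' hs (G.neg_lt hr) e)

/-- Pairs of negative roots. -/
theorem PP_negneg (hpos : ∀ r s, r < D.nroots → s < D.nroots → NN D ≤ r → NN D ≤ s → s ≠ r → U.PP r s) {r s : ℕ}
    (hr : r < D.nroots) (hs : s < D.nroots) (h3 : r < NN D) (h4 : s < NN D) (h1 : s ≠ r) : U.PP r s := by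
  have hl : ∀ i ∈ G.w0, i < D.rank := fun i hi => G.w0_lt hi
  have h2 : s ≠ D.neg r := by
    have hp : NN D ≤ D.neg r := by
      have := (G.neg_pos (G.neg_lt hr)).not.mp
      by_contra hc
      have h5 := this hc
      rw [G.neg_neg hr] at h5
      omega
    omega
  have hp : ∀ x, x < D.nroots → x < NN D → NN D ≤ G.w0.foldr G.W x := by
    intro x hx hxN
    have hpx : NN D ≤ D.neg x := by
      by_contra hc
      have h5 := (G.neg_pos (G.neg_lt hx)).not.mp hc
      rw [G.neg_neg hx] at h5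
      omega
    have h5 := G.w0_neg ⟨D.neg x, G.neg_lt hx⟩ hpx
    rw [G.pp_w0F_val] at h5
    simp only at h5
    rw [UD.foldr_neg G _ hl hx] at h5
    have h6 := UD.foldr_lt G G.w0 hl hx
    exact (G.neg_pos h6).mpr h5
  refine U.PP_fold G G.w0 hl hr hs h1 h2 (hpos _ _ (UD.foldr_lt G _ hl hr) (UD.foldr_lt G _ hl hs) (hp r hr h3) (hp s hs h4) ?_)
  intro e
  exact h1 (UD.foldr_inj G _ hl hs hr e)

/-- Pairs of roots of opposite signs. -/
theorem PP_mixed (hpos : ∀ r s, r < D.nroots → s < D.nroots → NN D ≤ r → NN D ≤ s → s ≠ r → U.PP r s) :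
    ∀ c, c < D.nroots → NN D ≤ c → ∀ a, a < D.nroots → NN D ≤ a → a ≠ c → U.PP a (D.neg c) ∧ U.PP (D.neg c) a := by
  have hnegneg := fun r s hr hs h3 h4 h1 => U.PP_negneg G hpos (r := r) (s := s) hr hs h3 h4 h1
  have hsign : ∀ x, x < D.nroots → NN D ≤ x → D.neg x < NN D := fun x hx h => (G.neg_pos hx).mp h
  refine G.pos_induct ?_ ?_
  · intro i hi a ha hN hne
    have hp := G.simple_lt hi
    have hNp := G.simple_pos hi
    have hWa := G.W_lt hi ha
    have hWaN := G.W_pos hi ha hN hne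
    have hne2 : D.simple i ≠ G.W i a := by
      intro e
      have e2 : a = G.W i (D.simple i) := by
        rw [e, G.W_W hi ha]
      rw [G.W_simple hi] at e2
      have := hsign _ hp hNp
      omega
    have hne3 : G.W i a ≠ D.simple i := fun e => hne2 e.symm
    have hn1 := hsign _ hWa hWaN
    have hn2 := hsign _ hp hNp
    constructor
    · have h5 := hpos (G.W i a) (D.simple i) hWa hp hWaN hNp hne2
      have h6 := U.PP_W G hi hWa hp hne2 (by omega) h5
      rwa [G.W_W hi ha, G.W_simple hi] at h6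
    · have h5 := hpos (D.simple i) (G.W i a) hp hWa hNp hWaN hne3
      have h6 := U.PP_W G hi hp hWa hne3 (by omega) h5
      rwa [G.W_W hi ha, G.W_simple hi] at h6
  · intro i r hi hr hN hN' hlt hP a ha hNa hne
    have hp := G.simple_lt hi
    have hNp := G.simple_pos hi
    have hWr := G.W_lt hi hr
    have hnWr := G.neg_lt hWr
    have hnr := G.neg_lt hr
    have eWn : G.W i (D.neg (G.W i r)) = D.neg r := by
      rw [G.W_neg hi hWr, G.W_W hi hr]
    by_cases hai : a = D.simple i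
    · subst hai
      have hnp := G.neg_lt hp
      have h3 := hsign _ hp hNp
      have h4 := hsign _ hWr hN'
      have eW : G.W i (D.neg (D.simple i)) = D.simple i := by
        rw [G.W_neg hi hp, G.W_simple hi, G.neg_neg hp]
      have hne1 : D.neg (G.W i r) ≠ D.neg (D.simple i) := by
        intro e
        have e2 := congrArg D.neg e
        rw [G.neg_neg hWr, G.neg_neg hp] at e2
        have e3 : r = G.W i (D.simple i) := by
          rw [← e2, G.W_W hi hr]
        rw [G.W_simple hi] at e3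
        omega
      have hne4 : D.neg (D.simple i) ≠ D.neg (G.W i r) := fun e => hne1 e.symm
      constructor
      · have h5 := hnegneg _ _ hnp hnWr h3 h4 hne1
        have h6 := U.PP_W G hi hnp hnWr hne1 (by
          rw [G.neg_neg hp]
          omega) h5
        rwa [eW, eWn] at h6
      · have h5 := hnegneg _ _ hnWr hnp h4 h3 hne4
        have h6 := U.PP_W G hi hnWr hnp hne4 (by
          rw [G.neg_neg hWr]
          omega) h5
        rwa [eW, eWn] at h6
    · have hWa := G.W_lt hi ha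
      have hWaN := G.W_pos hi ha hNa hai
      have hne1 : G.W i a ≠ G.W i r := by
        intro e
        apply hne
        rw [← G.W_W hi ha, e, G.W_W hi hr]
      obtain ⟨h5, h6⟩ := hP (G.W i a) hWa hWaN hne1
      have h3 := hsign _ hWa hWaN
      have h4 := hsign _ hWr hN'
      constructor
      · have h7 := U.PP_W G hi hWa hnWr (by omega) (by
          intro e
          have e2 := congrArg D.neg e
          rw [G.neg_neg hWr, G.neg_neg hWa] at e2
          exact hne1 e2.symm) h5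
        rwa [G.W_W hi ha, eWn] at h7
      · have h7 := U.PP_W G hi hnWr hWa (by omega) (by
          rw [G.neg_neg hWr]
          exact hne1) h6
        rwa [G.W_W hi ha, eWn] at h7

/-- All pairs of roots. -/
theorem PP_all (hpos : ∀ r s, r < D.nroots → s < D.nroots → NN D ≤ r → NN D ≤ s → s ≠ r → U.PP r s) {r s : ℕ}
    (hr : r < D.nroots) (hs : s < D.nroots) (h1 : s ≠ r) (h2 : s ≠ D.neg r) : U.PP r s := by
  have hmix := U.PP_mixed G hpos
  have hn : ∀ x, x < D.nroots → x < NN D → NN D ≤ D.neg x := by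
    intro x hx hxN
    by_contra hc
    have h5 := (G.neg_pos (G.neg_lt hx)).not.mp hc
    rw [G.neg_neg hx] at h5
    omega
  by_cases h3 : NN D ≤ r
  · by_cases h4 : NN D ≤ s
    · exact hpos r s hr hs h3 h4 h1
    · have h4' : s < NN D := by omega
      have := (hmix (D.neg s) (G.neg_lt hs) (hn s hs h4') r hr h3 (by
        intro e
        apply h2
        rw [e, G.neg_neg hs])).1
      rwa [G.neg_neg hs] at this
  · have h3' : r < NN D := by omega
    by_cases h4 : NN D ≤ s
    · have := (hmix (D.neg r) (G.neg_lt hr) (hn r hr h3') s hs h4 h2).2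
      rwa [G.neg_neg hr] at this
    · exact U.PP_negneg G hpos hr hs h3' (by omega) h1

end Rel

theorem X_lift_stX (U : UX D K π σ) {r : ℕ} (hr : r < D.nroots) (t : K) :
    FreeGroup.lift (fun p : Fin D.nroots × K => U.X p.1 p.2) (D.stX r t) = U.X r t := by
  unfold ChevalleyDatum.stX
  rw [dif_pos hr, FreeGroup.lift_apply_of]

theorem X_lift_stWord (U : UX D K π σ) (w : List (ℕ × K)) (hw : ∀ a ∈ w, a.1 < D.nroots) :
    FreeGroup.lift (fun p : Fin D.nroots × K => U.X p.1 p.2) (D.stWord w) = wX U.X w := by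
  induction w with
  | nil => simp [ChevalleyDatum.stWord, wX]
  | cons a w ih =>
    have := ih (fun b hb => hw b (List.mem_cons_of_mem _ hb))
    simp only [ChevalleyDatum.stWord] at this ⊢
    simp only [List.map_cons, List.prod_cons, map_mul, wX_cons]
    rw [this, X_lift_stX U (hw a List.mem_cons_self)]

/-- The lift to a central extension, from a section on the positive part. -/
theorem exists_lift_of_sec (G : Good5 D) (hW : U.XW G) {sf : D.SteinbergCover K → E} (hsf : U.IsSec (NN D) sf) :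
    ∃ τ : D.SteinbergCover K →* E, π.comp τ = σ := by
  have : Fact (U.XW G) := ⟨hW⟩
  have hpos : ∀ r s, r < D.nroots → s < D.nroots → NN D ≤ r → NN D ≤ s → s ≠ r → U.PP r s :=
    fun r s hr hs h3 h4 h1 t u => R2_pos G hsf hr hs h3 h4 h1 t u
  have hrels : ∀ g ∈ D.steinbergRelsAB K, FreeGroup.lift (fun p : Fin D.nroots × K => U.X p.1 p.2) g = 1 := by
    rintro g (⟨r, t, u, hr, rfl⟩ | ⟨r, s, t, u, hr, hs, h1, h2, rfl⟩)
    · rw [map_mul, map_mul, map_inv, X_lift_stX U hr, X_lift_stX U hr, X_lift_stX U hr, mul_inv_eq_one, U.X_add hr]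
    · have hw : ∀ a ∈ D.commWord K r s t u, a.1 < D.nroots := by
        intro a ha
        simp only [ChevalleyDatum.commWord, List.mem_map] at ha
        obtain ⟨c, hc, rfl⟩ := ha
        exact G.commTerms_lt hr hs c hc
      simp only [map_mul, map_inv, X_lift_stX U hr, X_lift_stX U hs, X_lift_stWord U _ hw, mul_inv_eq_one]
      have h5 := U.PP_all G hpos hr hs h1 h2 t u
      calc (U.X s u)⁻¹ * (U.X r t)⁻¹ * U.X s u * U.X r t
          = (U.X s u)⁻¹ * (U.X r t)⁻¹ * (U.X s u * U.X r t) := by group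
        _ = _ := by rw [h5]; group
  refine ⟨PresentedGroup.toGroup hrels, ?_⟩
  apply PresentedGroup.ext
  intro x
  rw [of_eq_stGenC]
  simp only [MonoidHom.comp_apply]
  have : (PresentedGroup.toGroup hrels) (D.scGen K x.1 x.2) = U.X x.1 x.2 := by
    show FreeGroup.lift _ (D.stX x.1 x.2) = _
    exact X_lift_stX U x.1.isLt x.2
  rw [this, U.X_lf x.1.isLt]


/-- The lift to a central extension. -/
theorem exists_lift (G : Good5 D) (hW : U.XW G) (hsep : ∀ c e, NN D ≤ c → c < e → e < D.nroots → (∃ (l : ℕ) (t₀ : K) (y : D.SteinbergCover K), l < D.nroots ∧ TA D K (chiP D l t₀) y ∧ chiP D l t₀ c = 1 ∧ chiP D l t₀ e ≠ 1) ∨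
      U.PP c e) :
    ∃ τ : D.SteinbergCover K →* E, π.comp τ = σ := by
  obtain ⟨sf, hsf⟩ := exists_sec U G hsep
  exact U.exists_lift_of_sec G hW hsf

end UX

end Cfsg.Agent.Lib.Chev
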